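import Cfsg.Agent.Lib.Helper98.H74Defs

/-!
# Project H74 (S5974), piece COMPL: the orthogonal complement of a typed subspace
-/

set_option autoImplicit false

namespace Cfsg.Agent.Lib.Helper98.H74

open Cfsg.Agent.Lib.Helper47 Cfsg.Agent.Lib.Helper98.T73 Module Polynomial

universe u

variable {F : Type u} [Field F] [Fintype F] {V : Type u} [AddCommGroup V] [Module F V]
  [FiniteDimensional F V] {Q : V → F} {B : V → V → F}

/-- COMPL -/
theorem subtyp_compl (hf : QFacts F) (hQ : IsQuad Q B) (hnd : Nondeg B) (d : ℕ)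
    (hdim : finrank F V = 2 * d) (ε : ℤ) (htyp : IsTyp Q (d - 1) ε) (X : Submodule F V)
    (k : ℕ) (τ : ℤ) (hX : SubTyp Q B X k τ) (hk : k + 2 ≤ d) :
    ∃ Y : Submodule F V, (∀ x ∈ X, ∀ y ∈ Y, B x y = 0) ∧ X ⊔ Y = ⊤ ∧ X ⊓ Y = ⊥ ∧
      SubTyp Q B Y (d - k - 2) (ε * τ) ∧
      ∀ g : Module.End F V, QI Q g → X.map g ≤ X → Y.map g ≤ Y := by
  have hB := hQ.form
  obtain ⟨hXnd, hXdim, hXtyp⟩ := hX
  have hc : IsCompl X (hB.orth X) := isCompl_orth hB hXnd
  have hYnd : Nondeg (resForm B (hB.orth X)) := nondeg_orth hB hnd hc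
  have hYdim : finrank F (hB.orth X) = 2 * (d - k - 2) + 2 := by
    have h1 := Submodule.finrank_add_eq_of_isCompl hc
    rw [hXdim, hdim] at h1
    omega
  -- `τ = ±1`
  have hτ : τ = 1 ∨ τ = -1 := by
    rcases hf.typ_exists k X (fun w : X => Q (w : V)) (resForm B X) (hQ.res X) hXnd hXdim
      with h | h
    · exact Or.inl (hXtyp.unique h)
    · exact Or.inr (hXtyp.unique h)
  obtain ⟨η, hYtyp⟩ : ∃ η : ℤ, IsTyp (fun w : hB.orth X => Q (w : V)) (d - k - 2) η := by
    rcases hf.typ_exists (d - k - 2) (hB.orth X) (fun w : hB.orth X => Q (w : V))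
      (resForm B (hB.orth X)) (hQ.res _) hYnd hYdim with h | h
    · exact ⟨1, h⟩
    · exact ⟨-1, h⟩
  have : Finite V := Module.finite_of_finite F
  have hprod := hf.typ_prod (fun w : X => Q (w : V)) (fun w : hB.orth X => Q (w : V))
    hXtyp hYtyp
  -- transfer to `V`
  have hV : IsTyp Q (k + (d - k - 2) + 1) (τ * η) := by
    refine IsTyp.of_equiv (Submodule.prodEquivOfIsCompl X (hB.orth X) hc).toEquiv
      (fun v => ?_) hprod
    obtain ⟨x, y⟩ := v
    have h1 : (Submodule.prodEquivOfIsCompl X (hB.orth X) hc).toEquiv (x, y)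
        = (x : V) + (y : V) := Submodule.coe_prodEquivOfIsCompl' X (hB.orth X) hc (x, y)
    rw [h1, hQ.polar, y.2 x x.2, add_zero]
  have hkk : k + (d - k - 2) + 1 = d - 1 := by omega
  rw [hkk] at hV
  have hε : ε = τ * η := htyp.unique hV
  have hη' : η = ε * τ := by
    rw [hε]
    rcases hτ with h | h <;> rw [h] <;> ring
  refine ⟨hB.orth X, fun x hx y hy => hy x hx, hc.sup_eq_top, hc.inf_eq_bot,
    ⟨hYnd, hYdim, by rw [← hη']; exact hYtyp⟩, ?_⟩
  intro g hg hgX
  have hgi : ∀ u v, B (g u) (g v) = B u v := hQ.isometry hQ g hg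
  have hinj : Function.Injective g := by
    rw [← LinearMap.ker_eq_bot, LinearMap.ker_eq_bot']
    intro v hv
    apply hnd
    intro w
    rw [← hgi, hv, hB.zero_left]
  have hmap : X.map g = X := by
    apply Submodule.eq_of_le_of_finrank_eq hgX
    exact (Submodule.equivMapOfInjective g hinj X).finrank_eq.symm
  rintro _ ⟨y, hy, rfl⟩
  intro x hx
  rw [← hmap] at hx
  obtain ⟨x', hx', rfl⟩ := hx
  rw [hgi]
  exact hy x' hx'

end Cfsg.Agent.Lib.Helper98.H74
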