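import Mathlib
import Cfsg.Agent.Lib.Helper14.OSDefs

/-! # S3421 piece OS-C (helper40): partition of `G` and two arithmetic lemmas -/

set_option autoImplicit false

namespace Cfsg.Agent.Lib.Helper14.OS

theorem osc_card_X {G : Type*} [Group G] [Fintype G] [DecidableEq G] (n : ℕ) :
    Nat.card (X G n) = (Finset.univ.filter (fun g : G => g ≠ 1 ∧ orderOf g ∣ n)).card := by
  have h : Nat.card (X G n) = Nat.card {g : G // g ≠ 1 ∧ orderOf g ∣ n} := rfl
  rw [h, Nat.card_eq_fintype_card, Fintype.card_subtype]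

theorem osc_coprime_succ (x y : ℕ) (h : x = y + 1) : Nat.Coprime x y := by
  subst h
  simp

theorem partition {G : Type*} [Group G] [Finite G] {q a b : ℕ} (H : Hyp G q a b) :
    Nat.card G = 1 + Nat.card (X G q) + Nat.card (X G a) + Nat.card (X G b) := by
  classical
  letI : Fintype G := Fintype.ofFinite G
  have hab' : Nat.Coprime a b := by
    rcases H.hdiff with h | h
    · exact osc_coprime_succ a b h
    · exact (osc_coprime_succ b a h).symm
  have hqa : Nat.Coprime q a := by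
    rw [← H.hab]
    simpa using hab'.symm
  have hqb : Nat.Coprime q b := by
    rw [← H.hab]
    simpa using hab'
  have hpt : ∀ g : G, (1 : ℕ) = (if g = 1 then 1 else 0) +
      (if g ≠ 1 ∧ orderOf g ∣ q then 1 else 0) + (if g ≠ 1 ∧ orderOf g ∣ a then 1 else 0) +
      (if g ≠ 1 ∧ orderOf g ∣ b then 1 else 0) := by
    intro g
    by_cases hg : g = 1
    · simp [hg]
    · have ho : orderOf g ≠ 1 := fun h => hg (orderOf_eq_one_iff.mp h)
      have h1 : orderOf g ∣ q → ¬ orderOf g ∣ a := fun h1 h2 =>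
        ho (Nat.dvd_one.mp (hqa ▸ Nat.dvd_gcd h1 h2))
      have h2 : orderOf g ∣ q → ¬ orderOf g ∣ b := fun h1 h2 =>
        ho (Nat.dvd_one.mp (hqb ▸ Nat.dvd_gcd h1 h2))
      have h3 : orderOf g ∣ a → ¬ orderOf g ∣ b := fun h1 h2 =>
        ho (Nat.dvd_one.mp (hab' ▸ Nat.dvd_gcd h1 h2))
      rcases H.hord g with h | h | h
      · simp [hg, h, h1 h, h2 h]
      · have : ¬ orderOf g ∣ q := fun h' => h1 h' h
        simp [hg, h, this, h3 h]
      · have : ¬ orderOf g ∣ q := fun h' => h2 h' h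
        have h' : ¬ orderOf g ∣ a := fun h' => h3 h' h
        simp [hg, h, this, h']
  rw [osc_card_X, osc_card_X, osc_card_X, Nat.card_eq_fintype_card, ← Finset.card_univ,
    Finset.card_eq_sum_ones, Finset.sum_congr rfl (fun g _ => hpt g), Finset.sum_add_distrib,
    Finset.sum_add_distrib, Finset.sum_add_distrib, Finset.card_filter, Finset.card_filter,
    Finset.card_filter]
  simp

theorem osc_four_ab (q a b : ℕ) (hab : a + b = q) (hdiff : a = b + 1 ∨ b = a + 1) :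
    (4 * a * b : ℤ) = (q : ℤ) ^ 2 - 1 := by
  have hq' : (q : ℤ) = a + b := by exact_mod_cast hab.symm
  rcases hdiff with h | h
  · have h' : (a : ℤ) = b + 1 := by exact_mod_cast h
    rw [hq', h']
    ring
  · have h' : (b : ℤ) = a + 1 := by exact_mod_cast h
    rw [hq', h']
    ring

theorem arith_Nq (q a b Nq Na Nb : ℕ) (hab : a + b = q) (hdiff : a = b + 1 ∨ b = a + 1)
    (ha : Even a) (hb : 3 ≤ b) (h1 : 2 * q * a * b = 1 + Nq + Na + Nb) (h2 : q * b ∣ Na)
    (h3 : 2 * q * a ∣ Nb) (h4 : 2 * a * b ∣ Nq) : Nq = 4 * a * b := by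
  obtain ⟨c, rfl⟩ := h4
  obtain ⟨d, rfl⟩ := h2
  obtain ⟨e, rfl⟩ := h3
  have ha2 : 2 ≤ a := by
    obtain ⟨r, hr⟩ := ha
    omega
  have hq5 : 5 ≤ q := by omega
  have hF := osc_four_ab q a b hab hdiff
  have hE : (2 * q * a * b : ℤ) = 1 + 2 * a * b * c + q * b * d + 2 * q * a * e := by
    exact_mod_cast h1
  have hdvd : (q : ℤ) ∣ 2 - c :=
    ⟨4 * a * b - c * q - 2 * b * d - 4 * a * e, by linear_combination (-2 : ℤ) * hE - c * hF⟩
  have hcq : c < q := by
    have hpos : 0 < 2 * a * b := by positivity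
    have h5 : 2 * a * b * c < 2 * a * b * q := by
      have e1 : 2 * a * b * q = 2 * q * a * b := by ring
      have e2 := Nat.zero_le (q * b * d)
      have e3 := Nat.zero_le (2 * q * a * e)
      linarith
    exact lt_of_mul_lt_mul_left h5 (Nat.zero_le _)
  have habs : |(2 - c : ℤ)| < q := by
    rw [abs_lt]
    constructor <;> omega
  have h0 := Int.eq_zero_of_abs_lt_dvd hdvd habs
  have hc2 : c = 2 := by omega
  subst hc2
  ring

theorem arith_Na (q a b Na Nb k : ℕ) (hab : a + b = q) (hdiff : a = b + 1 ∨ b = a + 1)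
    (ha : Even a) (hb : 3 ≤ b) (h1 : 2 * q * a * b = 1 + 4 * a * b + Na + Nb) (h2 : q * b ∣ Na)
    (h3 : Nb * (b * k) = 2 * q * a * b * (b - 1)) (hk1 : 1 ≤ k) (hk2 : k ≤ b - 1) :
    Na = (a - 1) * q * b ∧ Nb = q * a * (b - 1) := by
  obtain ⟨d, rfl⟩ := h2
  have ha2 : 2 ≤ a := by
    obtain ⟨r, hr⟩ := ha
    omega
  have hF := osc_four_ab q a b hab hdiff
  obtain ⟨b', rfl⟩ : ∃ b', b = b' + 1 := ⟨b - 1, by omega⟩
  obtain ⟨a', rfl⟩ : ∃ a', a = a' + 1 := ⟨a - 1, by omega⟩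
  simp only [Nat.add_sub_cancel] at h3 hk2 ⊢
  have h3' : Nb * k = 2 * q * (a' + 1) * b' := by
    have h5 : (b' + 1) * (Nb * k) = (b' + 1) * (2 * q * (a' + 1) * b') := by
      calc (b' + 1) * (Nb * k) = Nb * ((b' + 1) * k) := by ring
        _ = 2 * q * (a' + 1) * (b' + 1) * b' := h3
        _ = (b' + 1) * (2 * q * (a' + 1) * b') := by ring
    exact Nat.eq_of_mul_eq_mul_left (Nat.succ_pos b') h5
  have hq' : (q : ℤ) = ((a' : ℤ) + 1) + ((b' : ℤ) + 1) := by exact_mod_cast hab.symm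
  have hE : (2 * q * ((a' : ℤ) + 1) * ((b' : ℤ) + 1) : ℤ) =
      1 + 4 * ((a' : ℤ) + 1) * ((b' : ℤ) + 1) + q * ((b' : ℤ) + 1) * d + Nb := by
    exact_mod_cast h1
  have h3z : ((Nb : ℤ) * k : ℤ) = 2 * q * ((a' : ℤ) + 1) * b' := by exact_mod_cast h3'
  have hqa : ∃ m : ℤ, ((q : ℤ) * ((a' : ℤ) + 1) : ℤ) = 1 + ((b' : ℤ) + 1) * m := by
    rcases hdiff with h | h
    · have h' : (a' : ℤ) = b' + 1 := by omega
      exact ⟨((b' : ℤ) + 1) + 2 + ((a' : ℤ) + 1), by rw [hq', h']; ring⟩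
    · have h' : (b' : ℤ) = a' + 1 := by omega
      exact ⟨((b' : ℤ) + 1) - 2 + ((a' : ℤ) + 1), by rw [hq', h']; ring⟩
  obtain ⟨m, hm⟩ := hqa
  have hdvd : ((b' : ℤ) + 1) ∣ (k : ℤ) - 2 := by
    refine ⟨k * (2 * q * ((a' : ℤ) + 1) - 4 * ((a' : ℤ) + 1) - q * d) -
      2 * q * ((a' : ℤ) + 1) + 2 * m, ?_⟩
    linear_combination (-(k : ℤ)) * hE - h3z + 2 * hm
  have habs : |(k : ℤ) - 2| < (b' : ℤ) + 1 := by
    rw [abs_lt]
    constructor <;> omega
  have h0 := Int.eq_zero_of_abs_lt_dvd hdvd habs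
  have hk : k = 2 := by omega
  subst hk
  have hNb : Nb = q * (a' + 1) * b' := by
    have : 2 * Nb = 2 * (q * (a' + 1) * b') := by
      calc 2 * Nb = Nb * 2 := by ring
        _ = 2 * q * (a' + 1) * b' := h3'
        _ = 2 * (q * (a' + 1) * b') := by ring
    exact Nat.eq_of_mul_eq_mul_left (by norm_num) this
  refine ⟨?_, hNb⟩
  have hNbz : (Nb : ℤ) = q * ((a' : ℤ) + 1) * b' := by exact_mod_cast hNb
  rw [hNbz] at hE
  have hF' : (4 * ((a' : ℤ) + 1) * ((b' : ℤ) + 1) : ℤ) = (q : ℤ) ^ 2 - 1 := by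
    exact_mod_cast hF
  have hgoal : ((q * (b' + 1) * d : ℕ) : ℤ) = ((a' * q * (b' + 1) : ℕ) : ℤ) := by
    push_cast
    linear_combination (-1 : ℤ) * hE - hF' - (q : ℤ) * hq'
  exact_mod_cast hgoal

end Cfsg.Agent.Lib.Helper14.OS
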