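import Mathlib
import Cfsg.Prelude.Def_Local

set_option autoImplicit false

/-! Interface statements for S3789 (`p`-length at most the derived length of a Sylow
`p`-subgroup, `p` odd).  helper40.

All groups act on a finite elementary abelian `p`-group `A`, written multiplicatively, through
`θ : H →* MulAut A`.  "`g` is quadratic on `u`" is written `θ g (θ g u / u) = θ g u / u`. -/

namespace Cfsg.Agent.Lib.Helper40.PLen

open Cfsg

universe u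

/-- **(Q1)** A quadratically acting element `a` centralizes (on the invariant subgroup `U`) every
`q`-subgroup `E` it normalizes, `q ≠ p` a prime, provided that `E` is commutative on `U` when
`q = 2`. -/
def Q1Stmt (p : ℕ) : Prop :=
  ∀ (A : Type u) [CommGroup A] [Finite A] (H : Type u) [Group H] [Finite H]
    (θ : H →* MulAut A) (U : Subgroup A) (E : Subgroup H) (q : ℕ) (a : H),
    (∀ v : A, v ^ p = 1) → q.Prime → q ≠ p → IsPGroup q E →
    (∀ e ∈ E, a * e * a⁻¹ ∈ E) → (∀ u ∈ U, θ a u ∈ U) → (∀ e ∈ E, ∀ u ∈ U, θ e u ∈ U) →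
    (∀ u ∈ U, θ a (θ a u / u) = θ a u / u) →
    (q = 2 → ∀ e₁ ∈ E, ∀ e₂ ∈ E, ∀ u ∈ U, θ e₁ (θ e₂ u) = θ e₂ (θ e₁ u)) →
    ∀ e ∈ E, ∀ u ∈ U, θ a (θ e u) = θ e (θ a u)

/-- **(Y)** the core: a `p`-subgroup `R` of a `p`-solvable group `H` with `O_p(H) = 1` acting
faithfully on `A`, such that `R' = ⁅R, R⁆` acts quadratically and `(t-1)(r₂-1)(r₁-1) = 0` for
`r₁, r₂ ∈ R`, `t ∈ R'`, is abelian. -/
def YStmt (p : ℕ) : Prop :=
  ∀ (A : Type u) [CommGroup A] [Finite A] (H : Type u) [Group H] [Finite H]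
    (θ : H →* MulAut A) (R : Subgroup H),
    (∀ v : A, v ^ p = 1) → (∀ g : H, θ g = 1 → g = 1) → IsPSolvable p H → pCore p H = ⊥ →
    IsPGroup p R →
    (∀ t₁ ∈ ⁅R, R⁆, ∀ t₂ ∈ ⁅R, R⁆, ∀ v : A, θ t₂ (θ t₁ v / v) = θ t₁ v / v) →
    (∀ r₁ ∈ R, ∀ r₂ ∈ R, ∀ t ∈ ⁅R, R⁆, ∀ v : A,
      θ t (θ r₂ (θ r₁ v / v) / (θ r₁ v / v)) = θ r₂ (θ r₁ v / v) / (θ r₁ v / v)) →
    ⁅R, R⁆ = ⊥

/-- **(KC)** the key claim: if `O_{p'}(G) = 1` and the Sylow `p`-subgroup `S` has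
`S^(k+1) = 1`, then `S^(k) ≤ O_p(G)`. -/
def KCStmt (p : ℕ) : Prop :=
  ∀ (G : Type u) [Group G] [Finite G], IsPSolvable p G → pPrimeCore p G = ⊥ →
    ∀ (S : Sylow p G) (k : ℕ), derivedSeries ↥(S : Subgroup G) (k + 1) = ⊥ →
      (derivedSeries ↥(S : Subgroup G) k).map (S : Subgroup G).subtype ≤ pCore p G

end Cfsg.Agent.Lib.Helper40.PLen
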