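import Mathlib
import Cfsg.Agent.Lib.Helper18.TLDefs

/-! # S3797 piece TL-EXB (helper40) -/

set_option autoImplicit false
set_option maxHeartbeats 800000

namespace Cfsg.Agent.Lib.Helper18.TL

open Subgroup
open scoped commutatorElement

universe u

variable {G : Type u} [Group G]

private theorem exb_conj_max {Z T B : Subgroup G} (memZ : ∀ g : G, g ∈ Z ↔ g ^ 2 = 1) (y : G)
    (hyT : y ∈ normalizer (T : Set G)) (hB : IsMaxIn Z T B) (B'' : Subgroup G)
    (hmem : ∀ x : G, x ∈ B'' ↔ y⁻¹ * x * y ∈ B) : IsMaxIn Z T B'' := by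
  have hyT1 : ∀ t : G, t ∈ T ↔ y⁻¹ * t * y ∈ T := mem_normalizer_iff''.mp hyT
  have hyT2 : ∀ t : G, t ∈ T ↔ y * t * y⁻¹ ∈ T := mem_normalizer_iff.mp hyT
  refine ⟨?_, ?_, ?_, ?_⟩
  · intro z hz
    rw [hmem]
    apply hB.1
    rw [memZ]
    have e : (y⁻¹ * z * y) ^ 2 = y⁻¹ * z ^ 2 * y := by
      rw [pow_two, pow_two]
      group
    rw [e, (memZ z).mp hz]
    group
  · intro x hx
    rw [hmem] at hx
    exact (hyT1 x).mpr (hB.2.1 hx)
  · intro heq
    apply hB.2.2.1
    apply le_antisymm hB.2.1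
    intro t ht
    have h1 : y * t * y⁻¹ ∈ B'' := by
      rw [heq]
      exact (hyT2 t).mp ht
    rw [hmem] at h1
    have e : y⁻¹ * (y * t * y⁻¹) * y = t := by group
    rwa [e] at h1
  · intro a₁ ha₁ a₂ ha₂ hn₁ hn₂
    rw [hmem] at hn₁ hn₂ ⊢
    have h1 := hB.2.2.2 _ ((hyT1 a₁).mp ha₁) _ ((hyT1 a₂).mp ha₂) hn₁ hn₂
    have e : y⁻¹ * (a₁ * a₂) * y = y⁻¹ * a₁ * y * (y⁻¹ * a₂ * y) := by group
    rw [e]
    exact h1

-- piece EXB
theorem exists_B [Finite G] {Z Y P W T : Subgroup G} (h : Red Z Y P W T) :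
    ∃ B B' : Subgroup G, B ≠ B' ∧ IsMaxIn Z T B ∧ IsMaxIn Z T B' ∧
      W ⊓ centralizer (B : Set G) ≠ ⊥ ∧ W ⊓ centralizer (B' : Set G) ≠ ⊥ := by
  have r0 := h.red0
  have adm := r0.adm
  have amb := r0.cfg.amb
  have memZ := amb.memZ
  have hW : W ≠ ⊥ := by
    intro hW
    apply adm.nontriv
    rw [hW, Subgroup.commutator_bot_left]
    exact bot_le
  have hpZ : Z ≤ Z ∧ Z ≤ T ∧ W ⊓ centralizer (Z : Set G) ≠ ⊥ := by
    refine ⟨le_rfl, adm.ZT, ?_⟩
    rw [inf_eq_left.mpr adm.WZ]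
    exact hW
  obtain ⟨B, -, hBmax⟩ := Finite.exists_le_maximal
    (p := fun B : Subgroup G => Z ≤ B ∧ B ≤ T ∧ W ⊓ centralizer (B : Set G) ≠ ⊥) hpZ
  obtain ⟨⟨hZB, hBT, hWB⟩, hmax⟩ := hBmax
  have hBneT : B ≠ T := by
    rintro rfl
    exact hWB h.cWT
  have hnorm : ∀ t ∈ T, ∀ b ∈ B, t * b * t⁻¹ ∈ B := by
    intro t ht b hb
    have hc : ⁅t, b⁆ ∈ Z := r0.commT t ht b (hBT hb)
    have e : t * b * t⁻¹ = ⁅t, b⁆ * b := by
      rw [commutatorElement_def]
      group
    rw [e]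
    exact B.mul_mem (hZB hc) hb
  have hinv : ∀ a ∈ T, a ∉ B → ∀ w ∈ W ⊓ centralizer (B : Set G), a * w * a⁻¹ = w⁻¹ := by
    intro a haT haB w hw
    obtain ⟨hwW, hwC⟩ := Subgroup.mem_inf.mp hw
    have hawW : a * w * a⁻¹ ∈ W := (mem_normalizer_iff.mp (adm.TW haT) w).mp hwW
    have hbot : W ⊓ centralizer ((B ⊔ zpowers a : Subgroup G) : Set G) = ⊥ := by
      by_contra hne
      have h1 := hmax (y := B ⊔ zpowers a)
        ⟨le_trans hZB le_sup_left, sup_le hBT (by rw [zpowers_le]; exact haT), hne⟩ le_sup_left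
      exact haB (h1 ((le_sup_right : zpowers a ≤ B ⊔ zpowers a) (mem_zpowers a)))
    have hv : w * (a * w * a⁻¹) ∈ W ⊓ centralizer ((B ⊔ zpowers a : Subgroup G) : Set G) := by
      refine Subgroup.mem_inf.mpr ⟨W.mul_mem hwW hawW, ?_⟩
      have hle : B ⊔ zpowers a ≤ centralizer ({w * (a * w * a⁻¹)} : Set G) := by
        apply sup_le
        · intro b hb
          rw [mem_centralizer_iff]
          intro x hx
          rw [Set.mem_singleton_iff] at hx
          subst hx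
          have e1 := mem_centralizer_iff.mp hwC b hb
          have hb' : a⁻¹ * b * a ∈ B := by
            have := hnorm a⁻¹ (T.inv_mem haT) b hb
            simpa using this
          have e2 := mem_centralizer_iff.mp hwC _ hb'
          calc w * (a * w * a⁻¹) * b = w * (a * (w * (a⁻¹ * b * a)) * a⁻¹) := by group
            _ = w * (a * ((a⁻¹ * b * a) * w) * a⁻¹) := by rw [e2]
            _ = (w * b) * (a * w * a⁻¹) := by group
            _ = (b * w) * (a * w * a⁻¹) := by rw [e1]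
            _ = b * (w * (a * w * a⁻¹)) := by group
        · rw [zpowers_le, mem_centralizer_iff]
          intro x hx
          rw [Set.mem_singleton_iff] at hx
          subst hx
          have ha2 : a ^ 2 ∈ Z := r0.sqT a haT
          have e1 : a ^ 2 * w = w * a ^ 2 := mem_centralizer_iff.mp (adm.WZ hwW) _ ha2
          have e2 : w * (a * w * a⁻¹) = (a * w * a⁻¹) * w := h.Wab w hwW _ hawW
          symm
          calc a * (w * (a * w * a⁻¹)) = (a * w * a⁻¹) * (a ^ 2 * w) * a⁻¹ := by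
                rw [pow_two]
                group
            _ = (a * w * a⁻¹) * (w * a ^ 2) * a⁻¹ := by rw [e1]
            _ = ((a * w * a⁻¹) * w) * a := by
                rw [pow_two]
                group
            _ = (w * (a * w * a⁻¹)) * a := by rw [← e2]
      rw [mem_centralizer_iff]
      intro x hx
      have h1 := mem_centralizer_iff.mp (hle hx) (w * (a * w * a⁻¹)) (Set.mem_singleton _)
      exact h1.symm
    rw [hbot, Subgroup.mem_bot] at hv
    exact eq_inv_of_mul_eq_one_right hv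
  have hclos : ∀ a ∈ T, ∀ b ∈ T, a ∉ B → b ∉ B → a * b ∈ B := by
    intro a haT b hbT haB hbB
    by_contra hab
    apply hWB
    rw [Subgroup.eq_bot_iff_forall]
    intro w hw
    obtain ⟨hwW, hwC⟩ := Subgroup.mem_inf.mp hw
    have h1 := hinv (a * b) (T.mul_mem haT hbT) hab w hw
    have h2 := hinv b hbT hbB w hw
    have h3 := hinv a haT haB w⁻¹ (Subgroup.inv_mem _ hw)
    have h4 : a * b * w * (a * b)⁻¹ = w := by
      calc a * b * w * (a * b)⁻¹ = a * (b * w * b⁻¹) * a⁻¹ := by group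
        _ = a * w⁻¹ * a⁻¹ := by rw [h2]
        _ = w := by rw [h3, inv_inv]
    have h5 : w = w⁻¹ := h4.symm.trans h1
    have h6 : w ^ 2 = 1 := by
      have : w * w = w * w⁻¹ := by rw [← h5]
      rw [pow_two, this, mul_inv_cancel]
    have hd1 : orderOf w ∣ 2 := orderOf_dvd_of_pow_eq_one h6
    have hd2 : orderOf w ∣ Nat.card W := Subgroup.orderOf_dvd_natCard W hwW
    have hcop : Nat.gcd 2 (Nat.card W) = 1 := Nat.coprime_two_left.mpr adm.oddW
    have hd3 : orderOf w ∣ 1 := by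
      rw [← hcop]
      exact Nat.dvd_gcd hd1 hd2
    exact orderOf_eq_one_iff.mp (Nat.dvd_one.mp hd3)
  have hBmaxIn : IsMaxIn Z T B := ⟨hZB, hBT, hBneT, hclos⟩
  have hex : ∃ y ∈ Y, ∃ b ∈ B, y * b * y⁻¹ ∉ B := by
    by_contra hcon
    push Not at hcon
    have hYN : Y ≤ normalizer (B : Set G) := by
      intro y hy
      rw [mem_normalizer_iff]
      intro n
      constructor
      · intro hn
        exact hcon y hy n hn
      · intro hn
        have h1 := hcon y⁻¹ (Y.inv_mem hy) _ hn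
        have e : y⁻¹ * (y * n * y⁻¹) * y⁻¹⁻¹ = n := by group
        rwa [e] at h1
    rcases r0.Tirr B hZB hBT hYN with hBZ | hBT'
    · obtain ⟨a, haT, haB⟩ : ∃ a ∈ T, a ∉ B := by
        by_contra hc
        push Not at hc
        exact hBneT (le_antisymm hBT hc)
      obtain ⟨b, hbT, hbZ, hbaZ⟩ := r0.Tidx a haT
      rw [← hBZ] at hbZ hbaZ
      exact hbaZ (hclos b hbT a⁻¹ (T.inv_mem haT) hbZ
        (fun hh => haB (by simpa using B.inv_mem hh)))
    · exact hBneT hBT'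
  obtain ⟨y, hyY, b₀, hb₀, hb₀'⟩ := hex
  obtain ⟨B', hB'def⟩ : ∃ B' : Subgroup G, B' = B.map (MulAut.conj y).toMonoidHom := ⟨_, rfl⟩
  have hmem : ∀ x : G, x ∈ B' ↔ y⁻¹ * x * y ∈ B := by
    intro x
    rw [hB'def, Subgroup.mem_map]
    constructor
    · rintro ⟨b, hb, rfl⟩
      have e : y⁻¹ * (MulAut.conj y).toMonoidHom b * y = b := by
        simp only [MulEquiv.coe_toMonoidHom, MulAut.conj_apply]
        group
      rw [e]
      exact hb
    · intro hx
      refine ⟨y⁻¹ * x * y, hx, ?_⟩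
      simp only [MulEquiv.coe_toMonoidHom, MulAut.conj_apply]
      group
  have hne : B ≠ B' := by
    intro heq
    apply hb₀'
    rw [heq, hmem]
    have e : y⁻¹ * (y * b₀ * y⁻¹) * y = b₀ := by group
    rw [e]
    exact hb₀
  have hB'max : IsMaxIn Z T B' := exb_conj_max memZ y (adm.YT hyY) hBmaxIn B' hmem
  have hWB' : W ⊓ centralizer (B' : Set G) ≠ ⊥ := by
    obtain ⟨w, hw, hw1⟩ : ∃ w ∈ W ⊓ centralizer (B : Set G), w ≠ 1 := by
      by_contra hc
      push Not at hc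
      exact hWB ((Subgroup.eq_bot_iff_forall _).mpr hc)
    obtain ⟨hwW, hwC⟩ := Subgroup.mem_inf.mp hw
    intro hbot
    have hmemW : y * w * y⁻¹ ∈ W ⊓ centralizer (B' : Set G) := by
      refine Subgroup.mem_inf.mpr ⟨(mem_normalizer_iff.mp (adm.YW hyY) w).mp hwW, ?_⟩
      rw [mem_centralizer_iff]
      intro x hx
      have hx' : y⁻¹ * x * y ∈ B := (hmem x).mp hx
      have e := mem_centralizer_iff.mp hwC _ hx'
      calc x * (y * w * y⁻¹) = y * ((y⁻¹ * x * y) * w) * y⁻¹ := by group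
        _ = y * (w * (y⁻¹ * x * y)) * y⁻¹ := by rw [e]
        _ = y * w * y⁻¹ * x := by group
    rw [hbot, Subgroup.mem_bot] at hmemW
    apply hw1
    have e : w = y⁻¹ * (y * w * y⁻¹) * y := by group
    rw [e, hmemW]
    group
  exact ⟨B, B', hne, hBmaxIn, hB'max, hWB, hWB'⟩

end Cfsg.Agent.Lib.Helper18.TL
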