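import Mathlib
import Cfsg.Agent.Lib.Helper18.TLDefs
import Cfsg.Agent.Lib.Helper72.ZGNf

/-! # S3797 piece TL-EXSQ (helper40) -/

set_option autoImplicit false
set_option maxHeartbeats 800000

namespace Cfsg.Agent.Lib.Helper18.TL

open Subgroup
open scoped commutatorElement

universe u

variable {G : Type u} [Group G]

private theorem exsq_conj_mem {P A : Subgroup G} (n : G) (hnP : n ∈ normalizer (P : Set G))
    (hA : ∀ w ∈ A, n * w * n⁻¹ ∈ A) : ∀ u ∈ ⁅P, A⁆, n * u * n⁻¹ ∈ ⁅P, A⁆ := by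
  have key : ⁅P, A⁆ ≤ (⁅P, A⁆).comap (MulAut.conj n).toMonoidHom := by
    rw [Subgroup.commutator_le]
    intro p hp w hw
    rw [Subgroup.mem_comap]
    have e : (MulAut.conj n).toMonoidHom ⁅p, w⁆ = ⁅n * p * n⁻¹, n * w * n⁻¹⁆ := by
      simp only [MulEquiv.coe_toMonoidHom, MulAut.conj_apply, commutatorElement_def]
      group
    rw [e]
    exact Subgroup.commutator_mem_commutator ((mem_normalizer_iff.mp hnP p).mp hp) (hA w hw)
  intro u hu
  exact key hu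

private theorem exsq_W_norm {P W A : Subgroup G} (hWP : W ≤ normalizer (P : Set G))
    (hAW : A ≤ W) (hab : ∀ w ∈ W, ∀ w' ∈ W, w * w' = w' * w) :
    W ≤ normalizer ((⁅P, A⁆ : Subgroup G) : Set G) := by
  intro w hw
  have hconj : ∀ n ∈ W, ∀ w₁ ∈ A, n * w₁ * n⁻¹ ∈ A := by
    intro n hn w₁ hw₁
    have e : n * w₁ * n⁻¹ = w₁ := by
      rw [hab n hn w₁ (hAW hw₁)]
      group
    rw [e]
    exact hw₁
  rw [mem_normalizer_iff]
  intro u
  constructor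
  · exact exsq_conj_mem w (hWP hw) (hconj w hw) u
  · intro hu
    have h1 := exsq_conj_mem w⁻¹ (hWP (W.inv_mem hw)) (hconj w⁻¹ (W.inv_mem hw)) _ hu
    have e : w⁻¹ * (w * u * w⁻¹) * w⁻¹⁻¹ = u := by group
    rwa [e] at h1

private theorem exsq_coprime [Finite G] {P W X A : Subgroup G} (pP : IsPGroup 2 P)
    (oddW : Odd (Nat.card W)) (hXP : X ≤ P) (hAW : A ≤ W)
    (hAX : A ≤ normalizer (X : Set G)) (h0 : ⁅⁅X, A⁆, A⁆ = ⊥) : ⁅X, A⁆ = ⊥ := by
  haveI : Fact (Nat.Prime 2) := ⟨Nat.prime_two⟩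
  have pX : IsPGroup 2 X := pP.to_le hXP
  have hsolv : Group.IsSolvable ↥X := by
    haveI := pX.isNilpotent
    infer_instance
  obtain ⟨k, hk⟩ := pX.exists_card_eq
  have hoddA : Odd (Nat.card A) := by
    have hd : Nat.card A ∣ Nat.card W := Subgroup.card_dvd_of_le hAW
    exact Odd.of_dvd_nat oddW hd
  have hcop : (Nat.card A).Coprime (Nat.card X) := by
    rw [hk]
    exact Nat.Coprime.pow_right k (Nat.coprime_two_right.mpr hoddA)
  rw [← Cfsg.Agent.Lib.Helper72.ZG.commutator_commutator_eq hAX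
    (Cfsg.Agent.Lib.Helper72.ZG.le_cent_mul_commutator hAX hcop (Or.inr hsolv))]
  exact h0

-- piece EXSQ
theorem exists_sq [Finite G] {Z Y P W T : Subgroup G} (h : Red Z Y P W T)
    (hFa : ∀ B : Subgroup G, B ≤ T →
      ∀ u ∈ ⁅P, W ⊓ centralizer (B : Set G)⁆, ∀ b ∈ B, ⁅u, b⁆ ∈ Z)
    (htriv : ∀ M : Subgroup G, M ≤ P → W ≤ normalizer (M : Set G) →
      (∀ u ∈ M, ∀ t ∈ T, ⁅u, t⁆ ∈ Z) → W ≤ centralizer (M : Set G))
    (B : Subgroup G) (hB : IsMaxIn Z T B) (hWB : W ⊓ centralizer (B : Set G) ≠ ⊥) :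
    ∃ a ∈ T, a ∉ B ∧ ∃ u ∈ ⁅P, W ⊓ centralizer (B : Set G)⁆, ⁅u, a⁆ ^ 2 ≠ 1 := by
  by_contra hcon
  push Not at hcon
  have r0 := h.red0
  have adm := r0.adm
  have memZ := r0.cfg.amb.memZ
  have hFaB := hFa B hB.2.1
  obtain ⟨A, hA⟩ : ∃ A, A = W ⊓ centralizer (B : Set G) := ⟨_, rfl⟩
  rw [← hA] at hcon hWB hFaB
  have hAW : A ≤ W := by
    rw [hA]
    exact inf_le_left
  have hMP : ⁅P, A⁆ ≤ P :=
    Cfsg.Agent.Lib.Helper72.HH.commutator_le_left_of_normalizer (le_trans hAW adm.WP)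
  have hWM : W ≤ normalizer ((⁅P, A⁆ : Subgroup G) : Set G) := exsq_W_norm adm.WP hAW h.Wab
  have hMZ : ∀ u ∈ ⁅P, A⁆, ∀ t ∈ T, ⁅u, t⁆ ∈ Z := by
    intro u hu t ht
    by_cases htB : t ∈ B
    · exact hFaB u hu t htB
    · exact (memZ _).mpr (hcon t ht htB u hu)
  have hWC : W ≤ centralizer ((⁅P, A⁆ : Subgroup G) : Set G) := htriv _ hMP hWM hMZ
  have h0 : ⁅⁅P, A⁆, A⁆ = ⊥ := by
    rw [Subgroup.commutator_eq_bot_iff_le_centralizer]
    intro x hx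
    rw [mem_centralizer_iff]
    intro w hw
    exact (mem_centralizer_iff.mp (hWC (hAW hw)) x hx).symm
  have h1 : ⁅P, A⁆ = ⊥ :=
    exsq_coprime adm.pP adm.oddW le_rfl hAW (le_trans hAW adm.WP) h0
  rw [Subgroup.commutator_comm, Subgroup.commutator_eq_bot_iff_le_centralizer] at h1
  apply hWB
  rw [eq_bot_iff, ← r0.faith]
  exact le_inf hAW h1

end Cfsg.Agent.Lib.Helper18.TL
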