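import Mathlib
import Cfsg.Prelude.Def_Solvable
import Cfsg.Agent.Lib.Helper18.TLDefs
import Cfsg.Agent.Lib.Helper72.ZGNf
import Cfsg.Agent.Lib.Helper30.Cores
import Cfsg.Agent.Lib.Helper12.CharTwo

/-! # S3797 piece TL-FAITH (helper40) -/

set_option autoImplicit false
set_option maxHeartbeats 800000

namespace Cfsg.Agent.Lib.Helper18.TL

open Subgroup Cfsg
open scoped commutatorElement

universe u

variable {G : Type u} [Group G]

private theorem faith_mem_of_coprime_pow (S : Subgroup G) (x : G) (a b : ℕ)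
    (hab : Nat.Coprime a b) (ha : x ^ a ∈ S) (hb : x ^ b = 1) : x ∈ S := by
  have h1 : (1 : ℤ) = a * Nat.gcdA a b + b * Nat.gcdB a b := by
    have h2 := Nat.gcd_eq_gcd_ab a b
    rw [Nat.Coprime.gcd_eq_one hab] at h2
    exact_mod_cast h2
  have h2 : x = (x ^ a) ^ (Nat.gcdA a b) * (x ^ b) ^ (Nat.gcdB a b) := by
    rw [← zpow_natCast x a, ← zpow_natCast x b, ← zpow_mul, ← zpow_mul, ← zpow_add, ← h1,
      zpow_one]
  rw [h2, hb, one_zpow, mul_one]
  exact S.zpow_mem ha _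

private theorem faith_coprime [Finite G] {P W X A : Subgroup G} (pP : IsPGroup 2 P)
    (oddW : Odd (Nat.card W)) (hXP : X ≤ P) (hAW : A ≤ W)
    (hAX : A ≤ normalizer (X : Set G)) (h0 : ⁅⁅X, A⁆, A⁆ = ⊥) : ⁅X, A⁆ = ⊥ := by
  haveI : Fact (Nat.Prime 2) := ⟨Nat.prime_two⟩
  have pX : IsPGroup 2 X := pP.to_le hXP
  have hsolv : Group.IsSolvable ↥X := by
    haveI := pX.isNilpotent
    infer_instance
  obtain ⟨k, hk⟩ := pX.exists_card_eq
  have hoddA : Odd (Nat.card A) := by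
    have hd : Nat.card A ∣ Nat.card W := Subgroup.card_dvd_of_le hAW
    exact Odd.of_dvd_nat oddW hd
  have hcop : (Nat.card A).Coprime (Nat.card X) := by
    rw [hk]
    exact Nat.Coprime.pow_right k (Nat.coprime_two_right.mpr hoddA)
  rw [← Cfsg.Agent.Lib.Helper72.ZG.commutator_commutator_eq hAX
    (Cfsg.Agent.Lib.Helper72.ZG.le_cent_mul_commutator hAX hcop (Or.inr hsolv))]
  exact h0

/-- a `2`-element of `P W` (`P` normal, `W` of odd order) lies in `P` -/
private theorem faith_two_elt [Finite G] {P W : Subgroup G} [hP : P.Normal] (x : G)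
    (hx : x ∈ P ⊔ W) (k : ℕ) (hk : x ^ (2 ^ k) = 1) (hodd : Odd (Nat.card W)) : x ∈ P := by
  have hx' : x ∈ ((P ⊔ W : Subgroup G) : Set G) := hx
  rw [Subgroup.normal_mul] at hx'
  obtain ⟨p, hp, w, hw, rfl⟩ := Set.mem_mul.mp hx'
  have hp' : p ∈ P := hp
  have hw' : w ∈ W := hw
  have hpow : ∀ j : ℕ, ∃ p' ∈ P, (p * w) ^ j = p' * w ^ j := by
    intro j
    induction j with
    | zero => exact ⟨1, P.one_mem, by simp⟩
    | succ j ih =>
      obtain ⟨p', hp'', e⟩ := ih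
      refine ⟨p' * (w ^ j * p * (w ^ j)⁻¹), P.mul_mem hp'' (hP.conj_mem p hp' _), ?_⟩
      rw [pow_succ, e, pow_succ]
      group
  obtain ⟨p', hp'', e⟩ := hpow (Nat.card W)
  have hwn : w ^ (Nat.card W) = 1 := by
    have h1 := pow_card_eq_one' (G := ↥W) (x := ⟨w, hw'⟩)
    exact congrArg Subtype.val h1
  rw [hwn, mul_one] at e
  have hcop : Nat.Coprime (Nat.card W) (2 ^ k) :=
    Nat.Coprime.pow_right k (Nat.coprime_two_right.mpr hodd)
  exact faith_mem_of_coprime_pow P _ (Nat.card W) (2 ^ k) hcop (by rw [e]; exact hp'') hk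

-- piece FAITH
theorem faithful [Finite G] {Z Y P W T : Subgroup G} (hC : Cfg Z Y) (h : Adm Z Y P W T)
    (htop : P ⊔ W ⊔ T ⊔ Y = ⊤) : W ⊓ centralizer (P : Set G) = ⊥ := by
  haveI : Fact (Nat.Prime 2) := ⟨Nat.prime_two⟩
  have amb := hC.amb
  haveI := amb.solv
  -- `P` is normal
  have hPn : ∀ g : G, g ∈ normalizer (P : Set G) := by
    intro g
    have h1 : (⊤ : Subgroup G) ≤ normalizer (P : Set G) := by
      rw [← htop]
      exact sup_le (sup_le (sup_le le_normalizer h.WP) h.TP) h.YP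
    exact h1 (mem_top g)
  haveI hPnorm : P.Normal := Cfsg.Agent.Lib.Helper72.ZG.normal_of_forall_mem_normalizer hPn
  -- `P ⊔ W` is normal
  have hsupnorm : ∀ g : G, g ∈ normalizer (P : Set G) → g ∈ normalizer (W : Set G) →
      g ∈ normalizer ((P ⊔ W : Subgroup G) : Set G) := by
    intro g h1 h2
    rw [mem_normalizer_iff_map_conj_eq] at h1 h2 ⊢
    rw [Subgroup.map_sup, h1, h2]
  have hPWn : ∀ g : G, g ∈ normalizer ((P ⊔ W : Subgroup G) : Set G) := by
    intro g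
    have h1 : (⊤ : Subgroup G) ≤ normalizer ((P ⊔ W : Subgroup G) : Set G) := by
      rw [← htop]
      refine sup_le (sup_le (sup_le (le_trans le_sup_left le_normalizer) ?_) ?_) ?_
      · intro w hw
        exact hsupnorm w (h.WP hw) (le_normalizer hw)
      · intro t ht
        exact hsupnorm t (h.TP ht) (h.TW ht)
      · intro y hy
        exact hsupnorm y (h.YP hy) (h.YW hy)
    exact h1 (mem_top g)
  -- the `2`-core
  have hred : pPrimeCore 2 G = ⊥ := by
    haveI := Cfsg.Agent.Lib.Helper30.pPrimeCore_characteristic (G := G) 2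
    apply amb.oddcore _ inferInstance
    exact Nat.coprime_two_right.mp (Cfsg.Agent.Lib.Helper30.pPrimeCore_coprime 2)
  have hCO := Cfsg.Agent.Lib.Helper12.centralizer_pCore_two_le hred
  obtain ⟨O, hO⟩ : ∃ O : Subgroup G, O = pCore 2 G := ⟨_, rfl⟩
  rw [← hO] at hCO
  have hOp : IsPGroup 2 O := by
    rw [hO]
    exact Cfsg.Agent.Lib.Helper30.pCore_isPGroup 2
  haveI hOn : O.Normal := by
    rw [hO]
    haveI := Cfsg.Agent.Lib.Helper30.pCore_characteristic (G := G) 2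
    infer_instance
  -- `[O, W] ≤ P`
  have hOW : ⁅O, W⁆ ≤ P := by
    rw [commutator_le]
    intro o ho w hw
    have hcO : ⁅o, w⁆ ∈ O := by
      have e : ⁅o, w⁆ = o * (w * o⁻¹ * w⁻¹) := by
        rw [commutatorElement_def]
        group
      rw [e]
      exact O.mul_mem ho (hOn.conj_mem _ (O.inv_mem ho) w)
    have hcPW : ⁅o, w⁆ ∈ P ⊔ W := by
      have hwPW : w ∈ P ⊔ W := (le_sup_right : W ≤ P ⊔ W) hw
      have h1 : o * w * o⁻¹ ∈ P ⊔ W := (mem_normalizer_iff.mp (hPWn o) w).mp hwPW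
      have e : ⁅o, w⁆ = (o * w * o⁻¹) * w⁻¹ := by
        rw [commutatorElement_def]
      rw [e]
      exact (P ⊔ W).mul_mem h1 ((P ⊔ W).inv_mem hwPW)
    obtain ⟨k, hk⟩ := hOp ⟨⁅o, w⁆, hcO⟩
    have hk' : ⁅o, w⁆ ^ (2 ^ k) = 1 := by
      have h1 := congrArg Subtype.val hk
      simpa using h1
    exact faith_two_elt _ hcPW k hk' h.oddW
  obtain ⟨W₁, hW₁⟩ : ∃ W₁ : Subgroup G, W₁ = W ⊓ centralizer (P : Set G) := ⟨_, rfl⟩
  rw [← hW₁]
  have hW₁W : W₁ ≤ W := by
    rw [hW₁]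
    exact inf_le_left
  have hW₁C : W₁ ≤ centralizer (P : Set G) := by
    rw [hW₁]
    exact inf_le_right
  have h0 : ⁅⁅O, W₁⁆, W₁⁆ = ⊥ := by
    rw [Subgroup.commutator_eq_bot_iff_le_centralizer]
    intro x hx
    have hxP : x ∈ P := hOW (Subgroup.commutator_mono le_rfl hW₁W hx)
    rw [mem_centralizer_iff]
    intro w hw
    exact (mem_centralizer_iff.mp (hW₁C hw) x hxP).symm
  have h1 : ⁅O, W₁⁆ = ⊥ :=
    faith_coprime hOp h.oddW le_rfl hW₁W
      Cfsg.Agent.Lib.Helper72.ZG.le_normalizer_of_normal' h0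
  rw [Subgroup.commutator_comm, Subgroup.commutator_eq_bot_iff_le_centralizer] at h1
  rw [eq_bot_iff]
  intro x hx
  have hxO : x ∈ O := hCO (h1 hx)
  have hxW : x ∈ W := hW₁W hx
  obtain ⟨k, hk⟩ := hOp ⟨x, hxO⟩
  have hk' : x ^ (2 ^ k) = 1 := by
    have h2 := congrArg Subtype.val hk
    simpa using h2
  have hn : x ^ (Nat.card W) = 1 := by
    have h2 := pow_card_eq_one' (G := ↥W) (x := ⟨x, hxW⟩)
    exact congrArg Subtype.val h2
  exact faith_mem_of_coprime_pow ⊥ x (2 ^ k) (Nat.card W)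
    (Nat.Coprime.pow_left k (Nat.coprime_two_left.mpr h.oddW))
    (by rw [hk']; exact Subgroup.one_mem _) hn

end Cfsg.Agent.Lib.Helper18.TL
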