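import Mathlib
import Cfsg.Agent.Lib.Helper18.TLDefs

/-! # S3797 piece TL-FINAL (helper40) -/

set_option autoImplicit false
set_option maxHeartbeats 800000

namespace Cfsg.Agent.Lib.Helper18.TL

open Subgroup
open scoped commutatorElement

universe u

variable {G : Type u} [Group G]

private theorem final_conj_mem {P W B B'' : Subgroup G} (n : G)
    (hnP : n ∈ normalizer (P : Set G)) (hnW : n ∈ normalizer (W : Set G))
    (hB : ∀ b ∈ B'', n⁻¹ * b * n ∈ B) :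
    ∀ u ∈ ⁅P, W ⊓ centralizer (B : Set G)⁆,
      n * u * n⁻¹ ∈ ⁅P, W ⊓ centralizer (B'' : Set G)⁆ := by
  have key : ⁅P, W ⊓ centralizer (B : Set G)⁆ ≤
      (⁅P, W ⊓ centralizer (B'' : Set G)⁆).comap (MulAut.conj n).toMonoidHom := by
    rw [Subgroup.commutator_le]
    intro p hp w hw
    rw [Subgroup.mem_comap]
    have e : (MulAut.conj n).toMonoidHom ⁅p, w⁆ = ⁅n * p * n⁻¹, n * w * n⁻¹⁆ := by
      simp only [MulEquiv.coe_toMonoidHom, MulAut.conj_apply, commutatorElement_def]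
      group
    rw [e]
    obtain ⟨hw1, hw2⟩ := Subgroup.mem_inf.mp hw
    apply Subgroup.commutator_mem_commutator
    · exact (mem_normalizer_iff.mp hnP p).mp hp
    · refine Subgroup.mem_inf.mpr ⟨(mem_normalizer_iff.mp hnW w).mp hw1, ?_⟩
      rw [mem_centralizer_iff]
      intro b hb
      have h2 := (mem_centralizer_iff.mp hw2) (n⁻¹ * b * n) (hB b hb)
      calc b * (n * w * n⁻¹) = n * ((n⁻¹ * b * n) * w) * n⁻¹ := by group
        _ = n * (w * (n⁻¹ * b * n)) * n⁻¹ := by rw [h2]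
        _ = n * w * n⁻¹ * b := by group
  intro u hu
  exact key hu

-- piece FINAL
theorem final [Finite G] {Z Y P W T : Subgroup G} (h : Red Z Y P W T)
    (hphi : ∀ a ∈ T, ∀ x ∈ P, ∀ y ∈ P, ⁅⁅x, a⁆, ⁅y, a⁆⁆ = 1)
    (hFa : ∀ B : Subgroup G, B ≤ T →
      ∀ u ∈ ⁅P, W ⊓ centralizer (B : Set G)⁆, ∀ b ∈ B, ⁅u, b⁆ ∈ Z)
    (hFb : ∀ B B' : Subgroup G, IsMaxIn Z T B → IsMaxIn Z T B' → B ≠ B' →
      W ⊓ centralizer (B' : Set G) ≤
        centralizer ((⁅P, W ⊓ centralizer (B : Set G)⁆ : Subgroup G) : Set G))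
    (hFc : ∀ B B' : Subgroup G, IsMaxIn Z T B → IsMaxIn Z T B' → B ≠ B' →
      ∀ u ∈ ⁅P, W ⊓ centralizer (B : Set G)⁆, ∀ v ∈ ⁅P, W ⊓ centralizer (B' : Set G)⁆,
        u * v = v * u)
    (havg : ∀ B : Subgroup G, IsMaxIn Z T B → ∀ x ∈ ⁅P, W ⊓ centralizer (B : Set G)⁆,
      x ∈ centralizer ((W ⊓ centralizer (B : Set G) : Subgroup G) : Set G) → x ∈ Z)
    (B B' : Subgroup G) (hBB : B ≠ B') (hB : IsMaxIn Z T B) (hB' : IsMaxIn Z T B')
    (hex : ∃ a ∈ T, a ∉ B ∧ ∃ u ∈ ⁅P, W ⊓ centralizer (B : Set G)⁆, ⁅u, a⁆ ^ 2 ≠ 1)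
    (hex' : ∃ a ∈ T, a ∉ B' ∧ ∃ u ∈ ⁅P, W ⊓ centralizer (B' : Set G)⁆, ⁅u, a⁆ ^ 2 ≠ 1) :
    False := by
  have r0 := h.red0
  have adm := r0.adm
  have amb := r0.cfg.amb
  have memZ := amb.memZ
  -- basic facts
  have hZP : ∀ z ∈ Z, ∀ p ∈ P, z * p = p * z :=
    fun z hz p hp => (mem_centralizer_iff.mp (r0.PZ hp)) z hz
  have hZW : ∀ z ∈ Z, ∀ w ∈ W, z * w = w * z :=
    fun z hz w hw => mem_centralizer_iff.mp (adm.WZ hw) z hz
  have hZab : ∀ z ∈ Z, ∀ z' ∈ Z, z * z' = z' * z :=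
    fun z hz z' hz' => mem_centralizer_iff.mp (adm.TZ (adm.ZT hz')) z hz
  have hZsq : ∀ z ∈ Z, z * z = 1 := by
    intro z hz
    have := (memZ z).mp hz
    rwa [pow_two] at this
  have hMP : ∀ B : Subgroup G, ⁅P, W ⊓ centralizer (B : Set G)⁆ ≤ P := by
    intro B
    rw [Subgroup.commutator_le]
    intro p hp w hw
    have hw1 := (Subgroup.mem_inf.mp hw).1
    have h1 : w * p⁻¹ * w⁻¹ ∈ P := (mem_normalizer_iff.mp (adm.WP hw1) p⁻¹).mp (P.inv_mem hp)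
    have e : ⁅p, w⁆ = p * (w * p⁻¹ * w⁻¹) := by
      rw [commutatorElement_def]
      group
    rw [e]
    exact P.mul_mem hp h1
  -- `T` normalizes `M_B` for maximal `B`
  have hTM : ∀ B : Subgroup G, IsMaxIn Z T B → ∀ t ∈ T,
      ∀ u ∈ ⁅P, W ⊓ centralizer (B : Set G)⁆,
      t * u * t⁻¹ ∈ ⁅P, W ⊓ centralizer (B : Set G)⁆ := by
    intro B hB t ht
    apply final_conj_mem t (adm.TP ht) (adm.TW ht)
    intro b hb
    have hbT := hB.2.1 hb
    have hc : ⁅t⁻¹, b⁆ ∈ Z := r0.commT t⁻¹ (T.inv_mem ht) b hbT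
    have e : t⁻¹ * b * t = ⁅t⁻¹, b⁆ * b := by
      rw [commutatorElement_def]
      group
    rw [e]
    exact B.mul_mem (hB.1 hc) hb
  have hcommM : ∀ B : Subgroup G, IsMaxIn Z T B → ∀ t ∈ T,
      ∀ u ∈ ⁅P, W ⊓ centralizer (B : Set G)⁆,
      ⁅u, t⁆ ∈ ⁅P, W ⊓ centralizer (B : Set G)⁆ := by
    intro B hB t ht u hu
    have e : ⁅u, t⁆ = u * (t * u⁻¹ * t⁻¹) := by
      rw [commutatorElement_def]
      group
    rw [e]
    exact Subgroup.mul_mem _ hu (hTM B hB t ht u⁻¹ (Subgroup.inv_mem _ hu))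
  -- elements of `M_B'` are centralized by `W ⊓ C(B)`
  have hcen : ∀ B B' : Subgroup G, IsMaxIn Z T B → IsMaxIn Z T B' → B ≠ B' →
      ∀ v ∈ ⁅P, W ⊓ centralizer (B' : Set G)⁆,
      v ∈ centralizer ((W ⊓ centralizer (B : Set G) : Subgroup G) : Set G) := by
    intro B B' hB hB' hne v hv
    rw [mem_centralizer_iff]
    intro w hw
    have h1 := hFb B' B hB' hB (Ne.symm hne) hw
    exact (mem_centralizer_iff.mp h1 v hv).symm
  -- the key lemma
  have key : ∀ B : Subgroup G, IsMaxIn Z T B → ∀ x ∈ ⁅P, W ⊓ centralizer (B : Set G)⁆,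
      ∀ c : G, c ∈ centralizer ((W ⊓ centralizer (B : Set G) : Subgroup G) : Set G) →
      x * c = c * x → x ^ 2 = c ^ 2 → x ^ 2 = 1 := by
    intro B hB x hx c hc hxc hsq
    have h1 : (x * c⁻¹) ^ 2 = 1 := by
      have hxc' : Commute x c⁻¹ := Commute.inv_right hxc
      rw [hxc'.mul_pow, hsq, inv_pow, mul_inv_cancel]
    have h2 : x * c⁻¹ ∈ Z := (memZ _).mpr h1
    have h3 : x ∈ centralizer ((W ⊓ centralizer (B : Set G) : Subgroup G) : Set G) := by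
      rw [mem_centralizer_iff]
      intro w hw
      have hw' : w ∈ W ⊓ centralizer (B : Set G) := hw
      have hwW := (Subgroup.mem_inf.mp hw').1
      have e1 := hZW _ h2 w hwW
      have e2 := mem_centralizer_iff.mp hc w hw
      calc w * x = w * (x * c⁻¹) * c := by group
        _ = (x * c⁻¹) * w * c := by rw [e1]
        _ = (x * c⁻¹) * (w * c) := by group
        _ = (x * c⁻¹) * (c * w) := by rw [e2]
        _ = x * w := by group
    exact (memZ x).mp (havg B hB x hx h3)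
  -- squares of commutators with elements outside `B` agree
  have hSQ : ∀ B : Subgroup G, IsMaxIn Z T B → ∀ v ∈ ⁅P, W ⊓ centralizer (B : Set G)⁆,
      ∀ a₁ ∈ T, ∀ a₂ ∈ T, a₁ ∉ B → a₂ ∉ B → ⁅v, a₂⁆ ^ 2 = ⁅v, a₁⁆ ^ 2 := by
    intro B hB v hv a₁ ha₁ a₂ ha₂ hn₁ hn₂
    have hb : a₂ * a₁⁻¹ ∈ B :=
      hB.2.2.2 a₂ ha₂ a₁⁻¹ (T.inv_mem ha₁) hn₂ (fun hh => hn₁ (by simpa using B.inv_mem hh))
    obtain ⟨b, hbdef⟩ : ∃ b, b = a₂ * a₁⁻¹ := ⟨_, rfl⟩
    rw [← hbdef] at hb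
    obtain ⟨k, hkdef⟩ : ∃ k, k = ⁅v, a₁⁆ := ⟨_, rfl⟩
    have hk : k ∈ ⁅P, W ⊓ centralizer (B : Set G)⁆ := by
      rw [hkdef]
      exact hcommM B hB a₁ ha₁ v hv
    have hz1 : ⁅v, b⁆ ∈ Z := hFa B hB.2.1 v hv b hb
    have hz2 : ⁅k, b⁆ ∈ Z := hFa B hB.2.1 k hk b hb
    have e : ⁅v, a₂⁆ = (⁅v, b⁆ * ⁅k, b⁆⁻¹) * k := by
      rw [hkdef, hbdef]
      simp only [commutatorElement_def]
      group
    have hz : ⁅v, b⁆ * ⁅k, b⁆⁻¹ ∈ Z := Z.mul_mem hz1 (Z.inv_mem hz2)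
    rw [e, ← hkdef]
    have hc := hZP _ hz k (hMP B hk)
    have hs := hZsq _ hz
    calc ((⁅v, b⁆ * ⁅k, b⁆⁻¹) * k) ^ 2
        = (⁅v, b⁆ * ⁅k, b⁆⁻¹) * (k * (⁅v, b⁆ * ⁅k, b⁆⁻¹)) * k := by
          rw [pow_two]
          group
      _ = (⁅v, b⁆ * ⁅k, b⁆⁻¹) * ((⁅v, b⁆ * ⁅k, b⁆⁻¹) * k) * k := by rw [hc]
      _ = ((⁅v, b⁆ * ⁅k, b⁆⁻¹) * (⁅v, b⁆ * ⁅k, b⁆⁻¹)) * (k * k) := by group
      _ = k ^ 2 := by rw [hs, one_mul, pow_two]
  -- the data
  obtain ⟨a, haT, haB, u, hu, hne⟩ := hex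
  obtain ⟨a', haT', haB', u', hu', hne'⟩ := hex'
  obtain ⟨g, hg⟩ : ∃ g, g = ⁅u, a⁆ := ⟨_, rfl⟩
  obtain ⟨g', hg'⟩ : ∃ g', g' = ⁅u', a'⁆ := ⟨_, rfl⟩
  rw [← hg] at hne
  rw [← hg'] at hne'
  have hgM : g ∈ ⁅P, W ⊓ centralizer (B : Set G)⁆ := by
    rw [hg]
    exact hcommM B hB a haT u hu
  have hgM' : g' ∈ ⁅P, W ⊓ centralizer (B' : Set G)⁆ := by
    rw [hg']
    exact hcommM B' hB' a' haT' u' hu'
  have hz1 : g ^ 2 ∈ Z := r0.sqP g (hMP B hgM)
  have hz2 : g' ^ 2 ∈ Z := r0.sqP g' (hMP B' hgM')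
  have hgg' : g * g' = g' * g := hFc B B' hB hB' hBB g hgM g' hgM'
  -- (i)
  have h12 : g ^ 2 * g' ^ 2 ≠ 1 := by
    intro h12
    apply hne
    apply key B hB g hgM g'⁻¹
    · exact hcen B B' hB hB' hBB g'⁻¹ (Subgroup.inv_mem _ hgM')
    · exact (Commute.inv_right hgg').eq
    · rw [inv_pow]
      exact eq_inv_of_mul_eq_one_left h12
  -- (ii)
  obtain ⟨y, hyY, hy⟩ := r0.cfg.trans (g ^ 2) hz1 (g ^ 2 * g' ^ 2) (Z.mul_mem hz1 hz2) hne h12
  obtain ⟨B'', hB''def⟩ : ∃ B'' : Subgroup G, B'' = B.map (MulAut.conj y).toMonoidHom :=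
    ⟨_, rfl⟩
  have hmem : ∀ x : G, x ∈ B'' ↔ y⁻¹ * x * y ∈ B := by
    intro x
    rw [hB''def, Subgroup.mem_map]
    constructor
    · rintro ⟨b, hb, rfl⟩
      have e : y⁻¹ * (MulAut.conj y).toMonoidHom b * y = b := by
        simp only [MulEquiv.coe_toMonoidHom, MulAut.conj_apply]
        group
      rw [e]
      exact hb
    · intro hx
      refine ⟨y⁻¹ * x * y, hx, ?_⟩
      simp only [MulEquiv.coe_toMonoidHom, MulAut.conj_apply]
      group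
  have hyT : ∀ t : G, t ∈ T ↔ y⁻¹ * t * y ∈ T := mem_normalizer_iff''.mp (adm.YT hyY)
  have hyT' : ∀ t : G, t ∈ T ↔ y * t * y⁻¹ ∈ T := mem_normalizer_iff.mp (adm.YT hyY)
  have hB''max : IsMaxIn Z T B'' := by
    refine ⟨?_, ?_, ?_, ?_⟩
    · intro z hz
      rw [hmem]
      apply hB.1
      rw [memZ]
      have e : (y⁻¹ * z * y) ^ 2 = y⁻¹ * z ^ 2 * y := by
        rw [pow_two, pow_two]
        group
      rw [e, (memZ z).mp hz]
      group
    · intro x hx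
      rw [hmem] at hx
      exact (hyT x).mpr (hB.2.1 hx)
    · intro heq
      apply hB.2.2.1
      apply le_antisymm hB.2.1
      intro t ht
      have h1 : y * t * y⁻¹ ∈ B'' := by
        rw [heq]
        exact (hyT' t).mp ht
      rw [hmem] at h1
      have e : y⁻¹ * (y * t * y⁻¹) * y = t := by group
      rwa [e] at h1
    · intro a₁ ha₁ a₂ ha₂ hn₁ hn₂
      rw [hmem] at hn₁ hn₂ ⊢
      have h1 := hB.2.2.2 _ ((hyT a₁).mp ha₁) _ ((hyT a₂).mp ha₂) hn₁ hn₂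
      have e : y⁻¹ * (a₁ * a₂) * y = y⁻¹ * a₁ * y * (y⁻¹ * a₂ * y) := by group
      rw [e]
      exact h1
  obtain ⟨u'', hu''def⟩ : ∃ u'', u'' = y * u * y⁻¹ := ⟨_, rfl⟩
  obtain ⟨a'', ha''def⟩ : ∃ a'', a'' = y * a * y⁻¹ := ⟨_, rfl⟩
  have hu'' : u'' ∈ ⁅P, W ⊓ centralizer (B'' : Set G)⁆ := by
    rw [hu''def]
    exact final_conj_mem y (adm.YP hyY) (adm.YW hyY) (fun b hb => (hmem b).mp hb) u hu
  have ha''T : a'' ∈ T := by
    rw [ha''def]
    exact (hyT' a).mp haT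
  have ha''B : a'' ∉ B'' := by
    rw [hmem, ha''def]
    have e : y⁻¹ * (y * a * y⁻¹) * y = a := by group
    rw [e]
    exact haB
  have hg''sq : ⁅u'', a''⁆ ^ 2 = g ^ 2 * g' ^ 2 := by
    rw [← hy, hu''def, ha''def, hg]
    simp only [commutatorElement_def, pow_two]
    group
  by_cases hc1 : B'' = B
  · -- (iv)
    rw [hc1] at hu'' ha''B
    obtain ⟨g1, hg1⟩ : ∃ g1, g1 = ⁅u'', a⁆ := ⟨_, rfl⟩
    have hg1M : g1 ∈ ⁅P, W ⊓ centralizer (B : Set G)⁆ := by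
      rw [hg1]
      exact hcommM B hB a haT u'' hu''
    have hg1sq : g1 ^ 2 = g ^ 2 * g' ^ 2 := by
      rw [hg1, ← hSQ B hB u'' hu'' a haT a'' ha''T haB ha''B]
      exact hg''sq
    have hgg1 : g * g1 = g1 * g := by
      have h1 := hphi a haT u (hMP B hu) u'' (hMP B hu'')
      rw [← hg, ← hg1] at h1
      exact commutatorElement_eq_one_iff_mul_comm.mp h1
    have hg1g' : g1 * g' = g' * g1 := hFc B B' hB hB' hBB g1 hg1M g' hgM'
    apply hne'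
    apply key B' hB' g' hgM' (g * g1)
    · exact hcen B' B hB' hB (Ne.symm hBB) (g * g1) (Subgroup.mul_mem _ hgM hg1M)
    · calc g' * (g * g1) = (g' * g) * g1 := by group
        _ = (g * g') * g1 := by rw [hgg']
        _ = g * (g' * g1) := by group
        _ = g * (g1 * g') := by rw [hg1g']
        _ = g * g1 * g' := by group
    · have hc : Commute g g1 := hgg1
      rw [hc.mul_pow, hg1sq, ← mul_assoc, pow_two g, hZsq _ (by rw [← pow_two]; exact hz1),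
        one_mul]
  · by_cases hc2 : B'' = B'
    · -- (v)
      rw [hc2] at hu'' ha''B
      obtain ⟨g1, hg1⟩ : ∃ g1, g1 = ⁅u'', a'⁆ := ⟨_, rfl⟩
      have hg1M : g1 ∈ ⁅P, W ⊓ centralizer (B' : Set G)⁆ := by
        rw [hg1]
        exact hcommM B' hB' a' haT' u'' hu''
      have hg1sq : g1 ^ 2 = g ^ 2 * g' ^ 2 := by
        rw [hg1, ← hSQ B' hB' u'' hu'' a' haT' a'' ha''T haB' ha''B]
        exact hg''sq
      have hg'g1 : g' * g1 = g1 * g' := by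
        have h1 := hphi a' haT' u' (hMP B' hu') u'' (hMP B' hu'')
        rw [← hg', ← hg1] at h1
        exact commutatorElement_eq_one_iff_mul_comm.mp h1
      have hgg1 : g * g1 = g1 * g := hFc B B' hB hB' hBB g hgM g1 hg1M
      apply hne
      apply key B hB g hgM (g' * g1)
      · exact hcen B B' hB hB' hBB (g' * g1) (Subgroup.mul_mem _ hgM' hg1M)
      · calc g * (g' * g1) = (g * g') * g1 := by group
          _ = (g' * g) * g1 := by rw [hgg']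
          _ = g' * (g * g1) := by group
          _ = g' * (g1 * g) := by rw [hgg1]
          _ = g' * g1 * g := by group
      · have hc : Commute g' g1 := hg'g1
        rw [hc.mul_pow, hg1sq, hZab _ hz1 _ hz2, ← mul_assoc, pow_two g',
          hZsq _ (by rw [← pow_two]; exact hz2), one_mul]
    · -- (iii)
      obtain ⟨g'', hg''⟩ : ∃ g'', g'' = ⁅u'', a''⁆ := ⟨_, rfl⟩
      rw [← hg''] at hg''sq
      have hg''M : g'' ∈ ⁅P, W ⊓ centralizer (B'' : Set G)⁆ := by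
        rw [hg'']
        exact hcommM B'' hB''max a'' ha''T u'' hu''
      have hgg'' : g * g'' = g'' * g := hFc B B'' hB hB''max (Ne.symm hc1) g hgM g'' hg''M
      have hg'g'' : g' * g'' = g'' * g' :=
        hFc B' B'' hB' hB''max (Ne.symm hc2) g' hgM' g'' hg''M
      apply hne
      apply key B hB g hgM (g' * g'')
      · exact Subgroup.mul_mem _ (hcen B B' hB hB' hBB g' hgM')
          (hcen B B'' hB hB''max (Ne.symm hc1) g'' hg''M)
      · calc g * (g' * g'') = (g * g') * g'' := by group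
          _ = (g' * g) * g'' := by rw [hgg']
          _ = g' * (g * g'') := by group
          _ = g' * (g'' * g) := by rw [hgg'']
          _ = g' * g'' * g := by group
      · have hc : Commute g' g'' := hg'g''
        rw [hc.mul_pow, hg''sq, hZab _ hz1 _ hz2, ← mul_assoc, pow_two g',
          hZsq _ (by rw [← pow_two]; exact hz2), one_mul]

end Cfsg.Agent.Lib.Helper18.TL
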