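import Mathlib
import Cfsg.Agent.Lib.Helper18.TLDefs

/-! # S3797 piece TL-TOP (helper40) -/

set_option autoImplicit false
set_option maxHeartbeats 800000

namespace Cfsg.Agent.Lib.Helper18.TL

open Subgroup
open scoped commutatorElement

universe u

variable {G : Type u} [Group G]

private theorem top_mem_of_coprime_pow (S : Subgroup G) (x : G) (a b : ℕ)
    (hab : Nat.Coprime a b) (ha : x ^ a ∈ S) (hb : x ^ b = 1) : x ∈ S := by
  have h1 : (1 : ℤ) = a * Nat.gcdA a b + b * Nat.gcdB a b := by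
    have h2 := Nat.gcd_eq_gcd_ab a b
    rw [Nat.Coprime.gcd_eq_one hab] at h2
    exact_mod_cast h2
  have h2 : x = (x ^ a) ^ (Nat.gcdA a b) * (x ^ b) ^ (Nat.gcdB a b) := by
    rw [← zpow_natCast x a, ← zpow_natCast x b, ← zpow_mul, ← zpow_mul, ← zpow_add, ← h1,
      zpow_one]
  rw [h2, hb, one_zpow, mul_one]
  exact S.zpow_mem ha _

-- piece TOP
theorem adm_top [Finite G] {Z Y P W T : Subgroup G} (hC : Cfg Z Y) (h : Adm Z Y P W T) :
    P ⊔ W ⊔ T ⊔ Y = ⊤ := by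
  by_contra hne
  have amb := hC.amb
  obtain ⟨H, hH⟩ : ∃ H, H = P ⊔ W ⊔ T ⊔ Y := ⟨_, rfl⟩
  rw [← hH] at hne
  have hPH : P ≤ H := by
    rw [hH]
    exact le_trans le_sup_left (le_trans le_sup_left le_sup_left)
  have hWH : W ≤ H := by
    rw [hH]
    exact le_trans le_sup_right (le_trans le_sup_left le_sup_left)
  have hTH : T ≤ H := by
    rw [hH]
    exact le_trans le_sup_right le_sup_left
  have hYH : Y ≤ H := by
    rw [hH]
    exact le_sup_right
  have hHP : H ≤ normalizer (P : Set G) := by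
    rw [hH]
    exact sup_le (sup_le (sup_le le_normalizer h.WP) h.TP) h.YP
  have htrans : TransOn Z H := by
    intro z hz z' hz' h1 h1'
    obtain ⟨y, hy, e⟩ := hC.trans z hz z' hz' h1 h1'
    exact ⟨y, hYH hy, e⟩
  obtain ⟨A, B, hAB, hBH, hHA, hHB, hAodd, hB2, hHodd⟩ :=
    amb.ih H hne (le_trans h.ZT hTH) htrans
  have hTB : T ≤ B := by
    intro t ht
    obtain ⟨m, hm, hmB⟩ := hHodd t (hTH ht)
    obtain ⟨k, hk⟩ := h.pT ⟨t, ht⟩
    have hk' : t ^ (2 ^ k) = 1 := by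
      have h1 := congrArg Subtype.val hk
      simpa using h1
    exact top_mem_of_coprime_pow B t m (2 ^ k) (Nat.Coprime.pow_right k hm) hmB hk'
  have hWTA : ⁅W, T⁆ ≤ A := by
    rw [commutator_le]
    intro w hw t ht
    have hcW : ⁅w, t⁆ ∈ W := by
      have h1 : t * w⁻¹ * t⁻¹ ∈ W := (mem_normalizer_iff.mp (h.TW ht) w⁻¹).mp (W.inv_mem hw)
      have e : ⁅w, t⁆ = w * (t * w⁻¹ * t⁻¹) := by
        rw [commutatorElement_def]
        group
      rw [e]
      exact W.mul_mem hw h1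
    have hcB : ⁅w, t⁆ ∈ B := by
      have h1 : w * t * w⁻¹ ∈ B := (mem_normalizer_iff.mp (hHB (hWH hw)) t).mp (hTB ht)
      have e : ⁅w, t⁆ = (w * t * w⁻¹) * t⁻¹ := by
        rw [commutatorElement_def]
      rw [e]
      exact B.mul_mem h1 (B.inv_mem (hTB ht))
    obtain ⟨k, hk⟩ := hB2 _ hcB
    have hn : ⁅w, t⁆ ^ (Nat.card W) = 1 := by
      have h1 := pow_card_eq_one' (G := ↥W) (x := ⟨⁅w, t⁆, hcW⟩)
      exact congrArg Subtype.val h1
    have hcop : Nat.Coprime (2 ^ k) (Nat.card W) :=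
      Nat.Coprime.pow_left k (Nat.coprime_two_left.mpr h.oddW)
    exact top_mem_of_coprime_pow A _ (2 ^ k) (Nat.card W) hcop hk hn
  have hAC : A ≤ centralizer (P : Set G) := by
    intro a ha
    rw [mem_centralizer_iff]
    intro p hp
    have hcP : ⁅a, p⁆ ∈ P := by
      have h1 : a * p * a⁻¹ ∈ P := (mem_normalizer_iff.mp (hHP (hBH (hAB ha))) p).mp hp
      have e : ⁅a, p⁆ = (a * p * a⁻¹) * p⁻¹ := by
        rw [commutatorElement_def]
      rw [e]
      exact P.mul_mem h1 (P.inv_mem hp)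
    have hcA : ⁅a, p⁆ ∈ A := by
      have h1 : p * a⁻¹ * p⁻¹ ∈ A := (mem_normalizer_iff.mp (hHA (hPH hp)) a⁻¹).mp (A.inv_mem ha)
      have e : ⁅a, p⁆ = a * (p * a⁻¹ * p⁻¹) := by
        rw [commutatorElement_def]
        group
      rw [e]
      exact A.mul_mem ha h1
    obtain ⟨m, hm, hm1⟩ := hAodd _ hcA
    obtain ⟨k, hk⟩ := h.pP ⟨⁅a, p⁆, hcP⟩
    have hk' : ⁅a, p⁆ ^ (2 ^ k) = 1 := by
      have h1 := congrArg Subtype.val hk
      simpa using h1
    have h1 : ⁅a, p⁆ ∈ (⊥ : Subgroup G) :=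
      top_mem_of_coprime_pow ⊥ _ (2 ^ k) m (Nat.Coprime.pow_left k (Nat.Coprime.symm hm))
        (by rw [hk']; exact Subgroup.one_mem _) hm1
    rw [Subgroup.mem_bot] at h1
    exact (commutatorElement_eq_one_iff_mul_comm.mp h1).symm
  exact h.nontriv (le_trans hWTA hAC)

end Cfsg.Agent.Lib.Helper18.TL
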