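import Mathlib
import Cfsg.Prelude.Def_GeometricClasses
import Cfsg.Prelude.Def_LieClassical
import Cfsg.Agent.Lib.Helper71.Asch0

/-!
# Project SPP (helper71), piece TF (helper40)

A symplectic form fixed by `L = P (R ⊗ 1) P⁻¹`, `R` absolutely irreducible, is a Kronecker
product `G₁ ⊗ G₂` of Gram matrices, one symmetric and one alternating.
-/

set_option autoImplicit false

namespace Cfsg.Agent.Lib.Helper40.SPPTF

open Matrix Cfsg.Geo Cfsg.Agent.Lib.Helper71.Asch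
open scoped Kronecker

variable {n : ℕ} {F : Type*} [Field F] [Fintype F]

omit [Fintype F] in
/-- A bilinear form is given by its Gram matrix. -/
theorem gram_rep {ι : Type} [Fintype ι] [DecidableEq ι] (b : (ι → F) → (ι → F) → F)
    (hb : IsBilinearForm b) :
    ∃ G : Matrix ι ι F, (∀ u v, b u v = u ⬝ᵥ (G *ᵥ v)) ∧
      ∀ i j, G i j = b (Pi.single i 1) (Pi.single j 1) := by
  let B : (ι → F) →ₗ[F] (ι → F) →ₗ[F] F :=
    LinearMap.mk₂ F b hb.add_left hb.smul_left hb.add_right hb.smul_right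
  refine ⟨LinearMap.toMatrix₂' F B, fun u v => ?_, fun i j => ?_⟩
  · rw [← Matrix.toLinearMap₂'_apply', Matrix.toLinearMap₂'_toMatrix']
    rfl
  · rw [LinearMap.toMatrix₂'_apply]
    rfl

omit [Fintype F] in
theorem mat_ext {ι : Type} [Fintype ι] [DecidableEq ι] (M N : Matrix ι ι F)
    (h : ∀ u v : ι → F, u ⬝ᵥ (M *ᵥ v) = u ⬝ᵥ (N *ᵥ v)) : M = N := by
  ext i j
  have := h (Pi.single i 1) (Pi.single j 1)
  simpa [Matrix.mulVec_single_one, single_one_dotProduct] using this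

/-- The matrix `B` is the Gram matrix of an `R`-invariant bilinear form. -/
def Inv {d : ℕ} (R : Subgroup (GL (Fin d) F)) (B : Matrix (Fin d) (Fin d) F) : Prop :=
  ∀ y ∈ R, y.1ᵀ * B * y.1 = B

omit [Fintype F] in
theorem inv_tr_mul {d : ℕ} (y : GL (Fin d) F) :
    (y⁻¹ : GL (Fin d) F).1ᵀ * y.1ᵀ = 1 := by
  rw [← Matrix.transpose_mul, ← Units.val_mul, mul_inv_cancel, Units.val_one,
    Matrix.transpose_one]

omit [Fintype F] in
/-- A non-zero invariant matrix of an irreducible group is invertible. -/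
theorem inv_det {d : ℕ} (R : Subgroup (GL (Fin d) F)) (hR : ActsIrreducibly (matrixSet R))
    (B : Matrix (Fin d) (Fin d) F) (hB : Inv R B) (h0 : B ≠ 0) : B.det ≠ 0 := by
  intro hdet
  let W : Submodule F (Fin d → F) := LinearMap.ker (Matrix.toLin' B)
  have hW : ∀ s ∈ matrixSet R, W.map (Matrix.toLin' s) ≤ W := by
    rintro _ ⟨y, hy, rfl⟩ v hv
    obtain ⟨u, hu, rfl⟩ := hv
    have hu' : B *ᵥ u = 0 := by
      have := LinearMap.mem_ker.1 hu
      rwa [Matrix.toLin'_apply] at this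
    have h1 : y.1ᵀ *ᵥ (B *ᵥ (y.1 *ᵥ u)) = 0 := by
      rw [Matrix.mulVec_mulVec, Matrix.mulVec_mulVec, hB y hy, hu']
    have h2 := congrArg (fun w => (y⁻¹ : GL (Fin d) F).1ᵀ *ᵥ w) h1
    simp only [Matrix.mulVec_zero] at h2
    rw [Matrix.mulVec_mulVec, inv_tr_mul, Matrix.one_mulVec] at h2
    show Matrix.toLin' y.1 u ∈ LinearMap.ker (Matrix.toLin' B)
    rw [LinearMap.mem_ker, Matrix.toLin'_apply, Matrix.toLin'_apply]
    exact h2
  rcases hR W hW with h | h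
  · obtain ⟨v, hv0, hv⟩ := Matrix.exists_mulVec_eq_zero_iff.mpr hdet
    have hvW : v ∈ W := by
      show v ∈ LinearMap.ker (Matrix.toLin' B)
      rw [LinearMap.mem_ker, Matrix.toLin'_apply]
      exact hv
    rw [h] at hvW
    exact hv0 ((Submodule.mem_bot F).1 hvW)
  · apply h0
    ext i j
    have hjW : (Pi.single j 1 : Fin d → F) ∈ W := by
      rw [h]
      exact Submodule.mem_top
    have hj : B *ᵥ (Pi.single j 1) = 0 := by
      have := LinearMap.mem_ker.1 hjW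
      rwa [Matrix.toLin'_apply] at this
    have := congrFun hj i
    simpa [Matrix.mulVec_single_one] using this

omit [Fintype F] in
/-- Schur: two invariant matrices of an absolutely irreducible group, the first invertible, are
proportional. -/
theorem inv_smul {d : ℕ} (R : Subgroup (GL (Fin d) F))
    (hRa : ActsAbsolutelyIrreducibly (matrixSet R)) (B B' : Matrix (Fin d) (Fin d) F)
    (hB : Inv R B) (hB' : Inv R B') (hdet : B.det ≠ 0) : ∃ c : F, B' = c • B := by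
  have hBu : IsUnit B.det := isUnit_iff_ne_zero.2 hdet
  have key : ∀ s ∈ matrixSet R, (B⁻¹ * B') * s = s * (B⁻¹ * B') := by
    rintro _ ⟨y, hy, rfl⟩
    have h2 := inv_tr_mul y
    have e1 : B * y.1 = (y⁻¹ : GL (Fin d) F).1ᵀ * B := by
      calc B * y.1 = ((y⁻¹ : GL (Fin d) F).1ᵀ * y.1ᵀ) * (B * y.1) := by
            rw [h2, Matrix.one_mul]
        _ = (y⁻¹ : GL (Fin d) F).1ᵀ * (y.1ᵀ * B * y.1) := by simp only [Matrix.mul_assoc]
        _ = (y⁻¹ : GL (Fin d) F).1ᵀ * B := by rw [hB y hy]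
    have e2 : B' * y.1 = (y⁻¹ : GL (Fin d) F).1ᵀ * B' := by
      calc B' * y.1 = ((y⁻¹ : GL (Fin d) F).1ᵀ * y.1ᵀ) * (B' * y.1) := by
            rw [h2, Matrix.one_mul]
        _ = (y⁻¹ : GL (Fin d) F).1ᵀ * (y.1ᵀ * B' * y.1) := by simp only [Matrix.mul_assoc]
        _ = (y⁻¹ : GL (Fin d) F).1ᵀ * B' := by rw [hB' y hy]
    have h3 : B * ((B⁻¹ * B') * y.1) = B * (y.1 * (B⁻¹ * B')) := by
      calc B * ((B⁻¹ * B') * y.1) = (B * B⁻¹) * (B' * y.1) := by simp only [Matrix.mul_assoc]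
        _ = (y⁻¹ : GL (Fin d) F).1ᵀ * B' := by
            rw [Matrix.mul_nonsing_inv _ hBu, Matrix.one_mul, e2]
        _ = (y⁻¹ : GL (Fin d) F).1ᵀ * (B * B⁻¹) * B' := by
            rw [Matrix.mul_nonsing_inv _ hBu, Matrix.mul_one]
        _ = ((y⁻¹ : GL (Fin d) F).1ᵀ * B) * (B⁻¹ * B') := by simp only [Matrix.mul_assoc]
        _ = (B * y.1) * (B⁻¹ * B') := by rw [e1]
        _ = B * (y.1 * (B⁻¹ * B')) := by simp only [Matrix.mul_assoc]
    have h4 := congrArg (fun X => B⁻¹ * X) h3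
    rw [← Matrix.mul_assoc, ← Matrix.mul_assoc B⁻¹ B (y.1 * (B⁻¹ * B')),
      Matrix.nonsing_inv_mul _ hBu, Matrix.one_mul, Matrix.one_mul] at h4
    exact h4
  obtain ⟨c, hc⟩ := hRa.2 _ key
  refine ⟨c, ?_⟩
  calc B' = B * (B⁻¹ * B') := by
        rw [← Matrix.mul_assoc, Matrix.mul_nonsing_inv _ hBu, Matrix.one_mul]
    _ = B * (c • (1 : Matrix (Fin d) (Fin d) F)) := by rw [hc]
    _ = c • B := by rw [Matrix.mul_smul, Matrix.mul_one]

/-- The vector `u ⊗ e_a`. -/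
def ten {d k : ℕ} (u : Fin d → F) (a : Fin k) : Fin d × Fin k → F :=
  fun p => if p.2 = a then u p.1 else 0

omit [Fintype F] in
theorem ten_add {d k : ℕ} (u u' : Fin d → F) (a : Fin k) :
    ten (u + u') a = ten u a + ten u' a := by
  funext p
  unfold ten
  by_cases h : p.2 = a <;> simp [h]

omit [Fintype F] in
theorem ten_smul {d k : ℕ} (c : F) (u : Fin d → F) (a : Fin k) :
    ten (c • u) a = c • ten u a := by
  funext p
  unfold ten
  by_cases h : p.2 = a <;> simp [h]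

omit [Fintype F] in
theorem ten_single {d k : ℕ} (i : Fin d) (a : Fin k) :
    ten (Pi.single i (1 : F)) a = Pi.single (i, a) 1 := by
  funext p
  obtain ⟨j, b⟩ := p
  unfold ten
  by_cases h : b = a
  · subst h
    by_cases hj : j = i
    · subst hj
      simp
    · simp [hj]
  · simp [h]

omit [Fintype F] in
theorem kron_ten {d k : ℕ} (y : Matrix (Fin d) (Fin d) F) (u : Fin d → F) (a : Fin k) :
    (y ⊗ₖ (1 : Matrix (Fin k) (Fin k) F)) *ᵥ ten u a = ten (y *ᵥ u) a := by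
  funext p
  obtain ⟨i, c⟩ := p
  simp only [Matrix.mulVec, dotProduct, Fintype.sum_prod_type, Matrix.kroneckerMap_apply,
    Matrix.one_apply, ten]
  by_cases h : c = a
  · subst h
    simp
  · simp only [h, if_false]
    apply Finset.sum_eq_zero
    intro j _
    apply Finset.sum_eq_zero
    intro c' _
    by_cases h' : c' = a
    · subst h'
      simp [h]
    · simp [h']

omit [Fintype F] in
theorem tmat_mulVec {d k : ℕ} (e : Fin n ≃ Fin d × Fin k) (P : GL (Fin n) F)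
    (y : Matrix (Fin d) (Fin d) F) (x : Fin d × Fin k → F) :
    tmat e P y 1 *ᵥ (P.1 *ᵥ (x ∘ e)) = P.1 *ᵥ (((y ⊗ₖ (1 : Matrix (Fin k) (Fin k) F)) *ᵥ x) ∘ e) := by
  unfold tmat
  have hP : (P⁻¹ : GL (Fin n) F).1 * P.1 = 1 := by
    rw [← Units.val_mul, inv_mul_cancel, Units.val_one]
  have key : (Matrix.reindex e.symm e.symm (y ⊗ₖ (1 : Matrix (Fin k) (Fin k) F))) *ᵥ (x ∘ e) =
      ((y ⊗ₖ (1 : Matrix (Fin k) (Fin k) F)) *ᵥ x) ∘ e := by
    rw [Matrix.reindex_apply, Matrix.submatrix_mulVec_equiv]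
    have hx : (x ∘ ⇑e) ∘ ⇑e.symm = x := by
      funext p
      simp
    show ((y ⊗ₖ (1 : Matrix (Fin k) (Fin k) F)) *ᵥ ((x ∘ ⇑e) ∘ ⇑e.symm)) ∘ ⇑e = _
    rw [hx]
  rw [Matrix.mulVec_mulVec, Matrix.mul_assoc, Matrix.mul_assoc, hP, Matrix.mul_one,
    ← Matrix.mulVec_mulVec, key]

/-- TF: a symplectic form fixed by `L = P (R ⊗ 1) P⁻¹`, `R` absolutely irreducible, is a tensor
product of a form on each factor, one symmetric and one alternating. -/
theorem TF (f : (Fin n → F) → (Fin n → F) → F) (hf : IsSymplecticForm f) {d k : ℕ}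
    (e : Fin n ≃ Fin d × Fin k) (P : GL (Fin n) F) (R : Subgroup (GL (Fin d) F))
    (L : Subgroup (GL (Fin n) F)) (hRa : ActsAbsolutelyIrreducibly (matrixSet R))
    (h1 : ∀ x ∈ L, ∃ y ∈ R, x.1 = tmat e P y.1 1) (h2 : ∀ y ∈ R, ∃ x ∈ L, x.1 = tmat e P y.1 1)
    (hfix : FixesForm (matrixSet L) f) :
    ∃ (G₁ : Matrix (Fin d) (Fin d) F) (G₂ : Matrix (Fin k) (Fin k) F), G₁.det ≠ 0 ∧ G₂.det ≠ 0 ∧
      ((G₁ᵀ = G₁ ∧ G₂ᵀ = -G₂ ∧ ∀ a, G₂ a a = 0) ∨ (G₁ᵀ = -G₁ ∧ (∀ i, G₁ i i = 0) ∧ G₂ᵀ = G₂)) ∧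
      ∀ x y : Fin d × Fin k → F,
        f (P.1 *ᵥ (x ∘ e)) (P.1 *ᵥ (y ∘ e)) = formOfGram id (G₁ ⊗ₖ G₂) x y := by
  classical
  rcases Nat.eq_zero_or_pos d with hd0 | hdpos
  · -- `d = 0`
    subst hd0
    have : IsEmpty (Fin n) := e.isEmpty
    refine ⟨0, 1, by simp, by simp, Or.inr ⟨by ext i; exact i.elim0, fun i => i.elim0,
      Matrix.transpose_one⟩, fun x y => ?_⟩
    have hxy : P.1 *ᵥ (x ∘ e) = P.1 *ᵥ (y ∘ e) := Subsingleton.elim _ _
    rw [hxy, hf.alternating]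
    unfold formOfGram
    simp
  rcases Nat.eq_zero_or_pos k with hk0 | hkpos
  · -- `k = 0`
    subst hk0
    have : IsEmpty (Fin n) := e.isEmpty
    refine ⟨1, 0, by simp, by simp, Or.inl ⟨Matrix.transpose_one, by ext i; exact i.elim0,
      fun i => i.elim0⟩, fun x y => ?_⟩
    have hxy : P.1 *ᵥ (x ∘ e) = P.1 *ᵥ (y ∘ e) := Subsingleton.elim _ _
    rw [hxy, hf.alternating]
    unfold formOfGram
    simp
  -- the form on `Fin d × Fin k → F`
  set β : (Fin d × Fin k → F) → (Fin d × Fin k → F) → F :=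
    fun x y => f (P.1 *ᵥ (x ∘ e)) (P.1 *ᵥ (y ∘ e)) with hβ
  have hβb : IsBilinearForm β := by
    refine ⟨fun x y v => ?_, fun c x v => ?_, fun v x y => ?_, fun c v x => ?_⟩
    · show f (P.1 *ᵥ ((x + y) ∘ e)) _ = f (P.1 *ᵥ (x ∘ e)) _ + f (P.1 *ᵥ (y ∘ e)) _
      rw [show (x + y) ∘ e = x ∘ e + y ∘ e from rfl, Matrix.mulVec_add, hf.bilinear.add_left]
    · show f (P.1 *ᵥ ((c • x) ∘ e)) _ = c * f (P.1 *ᵥ (x ∘ e)) _
      rw [show (c • x) ∘ e = c • (x ∘ e) from rfl, Matrix.mulVec_smul, hf.bilinear.smul_left]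
    · show f _ (P.1 *ᵥ ((x + y) ∘ e)) = f _ (P.1 *ᵥ (x ∘ e)) + f _ (P.1 *ᵥ (y ∘ e))
      rw [show (x + y) ∘ e = x ∘ e + y ∘ e from rfl, Matrix.mulVec_add, hf.bilinear.add_right]
    · show f _ (P.1 *ᵥ ((c • x) ∘ e)) = c * f _ (P.1 *ᵥ (x ∘ e))
      rw [show (c • x) ∘ e = c • (x ∘ e) from rfl, Matrix.mulVec_smul, hf.bilinear.smul_right]
  have hβskew : ∀ x y, β x y = - β y x := fun x y => hf.skew _ _
  have hβalt : ∀ x, β x x = 0 := fun x => hf.alternating _
  have hPinv : (P⁻¹ : GL (Fin n) F).1 * P.1 = 1 := by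
    rw [← Units.val_mul, inv_mul_cancel, Units.val_one]
  have hPinv' : P.1 * (P⁻¹ : GL (Fin n) F).1 = 1 := by
    rw [← Units.val_mul, mul_inv_cancel, Units.val_one]
  have hβnd : ∀ v : Fin d × Fin k → F, v ≠ 0 → ∃ x, β x v ≠ 0 := by
    intro v hv
    have hPv : P.1 *ᵥ (v ∘ e) ≠ 0 := by
      intro h0
      have h3 := congrArg (fun w => (P⁻¹ : GL (Fin n) F).1 *ᵥ w) h0
      simp only [Matrix.mulVec_zero] at h3
      rw [Matrix.mulVec_mulVec, hPinv, Matrix.one_mulVec] at h3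
      apply hv
      funext p
      have := congrFun h3 (e.symm p)
      simpa using this
    obtain ⟨w, hw⟩ := (hf.nondegenerate _ hPv).1
    refine ⟨((P⁻¹ : GL (Fin n) F).1 *ᵥ w) ∘ e.symm, ?_⟩
    show f (P.1 *ᵥ ((((P⁻¹ : GL (Fin n) F).1 *ᵥ w) ∘ e.symm) ∘ e)) (P.1 *ᵥ (v ∘ e)) ≠ 0
    have h4 : (((P⁻¹ : GL (Fin n) F).1 *ᵥ w) ∘ e.symm) ∘ e = (P⁻¹ : GL (Fin n) F).1 *ᵥ w := by
      funext i
      simp
    rw [h4, Matrix.mulVec_mulVec, hPinv', Matrix.one_mulVec]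
    exact hw
  -- invariance
  have hinv : ∀ y ∈ R, ∀ x x' : Fin d × Fin k → F,
      β ((y.1 ⊗ₖ (1 : Matrix (Fin k) (Fin k) F)) *ᵥ x)
        ((y.1 ⊗ₖ (1 : Matrix (Fin k) (Fin k) F)) *ᵥ x') = β x x' := by
    intro y hy x x'
    obtain ⟨g, hg, hgy⟩ := h2 y hy
    have h5 := hfix g.1 ⟨g, hg, rfl⟩ (P.1 *ᵥ (x ∘ e)) (P.1 *ᵥ (x' ∘ e))
    rw [hgy, tmat_mulVec, tmat_mulVec] at h5
    exact h5
  -- the blocks
  set γ : Fin k → Fin k → (Fin d → F) → (Fin d → F) → F :=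
    fun a b u u' => β (ten u a) (ten u' b) with hγ
  have hγb : ∀ a b, IsBilinearForm (γ a b) := by
    intro a b
    refine ⟨fun x y v => ?_, fun c x v => ?_, fun v x y => ?_, fun c v x => ?_⟩
    · show β (ten (x + y) a) _ = β (ten x a) _ + β (ten y a) _
      rw [ten_add, hβb.add_left]
    · show β (ten (c • x) a) _ = c * β (ten x a) _
      rw [ten_smul, hβb.smul_left]
    · show β _ (ten (x + y) b) = β _ (ten x b) + β _ (ten y b)
      rw [ten_add, hβb.add_right]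
    · show β _ (ten (c • x) b) = c * β _ (ten x b)
      rw [ten_smul, hβb.smul_right]
  choose G hG hG' using fun a b => gram_rep (γ a b) (hγb a b)
  have hGinv : ∀ a b, Inv R (G a b) := by
    intro a b y hy
    apply mat_ext
    intro u v
    have h6 : u ⬝ᵥ ((y.1ᵀ * G a b * y.1) *ᵥ v) = (y.1 *ᵥ u) ⬝ᵥ (G a b *ᵥ (y.1 *ᵥ v)) := by
      rw [← Matrix.mulVec_mulVec, ← Matrix.mulVec_mulVec, Matrix.dotProduct_mulVec,
        Matrix.vecMul_transpose]
    rw [h6, ← hG, ← hG]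
    show β (ten (y.1 *ᵥ u) a) (ten (y.1 *ᵥ v) b) = β (ten u a) (ten v b)
    rw [← kron_ten, ← kron_ten]
    exact hinv y hy _ _
  obtain ⟨J, hJ, hJ'⟩ := gram_rep β hβb
  have hJG : ∀ p p' : Fin d × Fin k, J p p' = G p.2 p'.2 p.1 p'.1 := by
    intro p p'
    rw [hJ', hG']
    show _ = β (ten (Pi.single p.1 1) p.2) (ten (Pi.single p'.1 1) p'.2)
    rw [ten_single, ten_single]
  -- a non-zero block
  have hex : ∃ a₀ b₀, G a₀ b₀ ≠ 0 := by
    by_contra hcon
    push Not at hcon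
    have hJ0 : J = 0 := by
      ext p p'
      rw [hJG, hcon]
      rfl
    have hv : (Pi.single ((⟨0, hdpos⟩ : Fin d), (⟨0, hkpos⟩ : Fin k)) (1 : F) :
        Fin d × Fin k → F) ≠ 0 := by
      intro h0
      have := congrFun h0 ((⟨0, hdpos⟩ : Fin d), (⟨0, hkpos⟩ : Fin k))
      simp at this
    obtain ⟨x, hx⟩ := hβnd _ hv
    apply hx
    rw [hJ, hJ0, Matrix.zero_mulVec, dotProduct_zero]
  obtain ⟨a₀, b₀, hne⟩ := hex
  set G₁ : Matrix (Fin d) (Fin d) F := G a₀ b₀ with hG₁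
  have hdet₁ : G₁.det ≠ 0 := inv_det R hRa.1 G₁ (hGinv a₀ b₀) hne
  choose M hM using fun a b => inv_smul R hRa G₁ (G a b) (hGinv a₀ b₀) (hGinv a b) hdet₁
  set G₂ : Matrix (Fin k) (Fin k) F := fun a b => M a b with hG₂
  have hJK : J = G₁ ⊗ₖ G₂ := by
    ext ⟨i, a⟩ ⟨j, b⟩
    rw [hJG, hM, Matrix.smul_apply, Matrix.kroneckerMap_apply, smul_eq_mul, mul_comm]
  have hJdet : J.det ≠ 0 := by
    intro h0
    obtain ⟨v, hv0, hv⟩ := Matrix.exists_mulVec_eq_zero_iff.mpr h0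
    obtain ⟨x, hx⟩ := hβnd v hv0
    apply hx
    rw [hJ, hv, dotProduct_zero]
  have hdet₂ : G₂.det ≠ 0 := by
    intro h0
    apply hJdet
    rw [hJK, Matrix.det_kronecker, h0, zero_pow (by rw [Fintype.card_fin]; omega), mul_zero]
  -- the symmetry type of `G₁`
  have hGt : Inv R G₁ᵀ := by
    intro y hy
    have h7 := congrArg Matrix.transpose (hGinv a₀ b₀ y hy)
    rw [Matrix.transpose_mul, Matrix.transpose_mul, Matrix.transpose_transpose] at h7
    rw [Matrix.mul_assoc]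
    exact h7
  obtain ⟨ε, hε⟩ := inv_smul R hRa G₁ G₁ᵀ (hGinv a₀ b₀) hGt hdet₁
  obtain ⟨i₀, j₀, hij⟩ : ∃ i j, G₁ i j ≠ 0 := by
    by_contra hcon
    push Not at hcon
    exact hne (Matrix.ext hcon)
  have hT : ∀ i j, G₁ j i = ε * G₁ i j := by
    intro i j
    have := congrFun (congrFun hε i) j
    simpa [Matrix.transpose_apply, Matrix.smul_apply] using this
  have hε2 : ε * ε = 1 := by
    have h8 : G₁ i₀ j₀ = ε * (ε * G₁ i₀ j₀) := by
      conv_lhs => rw [hT j₀ i₀, hT i₀ j₀]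
    have h9 : (ε * ε - 1) * G₁ i₀ j₀ = 0 := by linear_combination -h8
    rcases mul_eq_zero.1 h9 with h | h
    · linear_combination h
    · exact absurd h hij
  have hJskew : ∀ p p', J p p' = - J p' p := by
    intro p p'
    rw [hJ', hJ']
    exact hβskew _ _
  have hJdiag : ∀ p, J p p = 0 := by
    intro p
    rw [hJ']
    exact hβalt _
  have hJe : ∀ i a j b, J (i, a) (j, b) = G₁ i j * G₂ a b := by
    intro i a j b
    rw [hJK, Matrix.kroneckerMap_apply]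
  have hskew2 : ∀ a b, G₂ a b = -(ε * G₂ b a) := by
    intro a b
    have h10 := hJskew (i₀, a) (j₀, b)
    rw [hJe, hJe, hT i₀ j₀] at h10
    have h11 : (G₂ a b + ε * G₂ b a) * G₁ i₀ j₀ = 0 := by linear_combination h10
    rcases mul_eq_zero.1 h11 with h | h
    · linear_combination h
    · exact absurd h hij
  have hdiag : ∀ i a, G₁ i i * G₂ a a = 0 := by
    intro i a
    rw [← hJe]
    exact hJdiag _
  have hid : ∀ x y : Fin d × Fin k → F,
      f (P.1 *ᵥ (x ∘ e)) (P.1 *ᵥ (y ∘ e)) = formOfGram id (G₁ ⊗ₖ G₂) x y := by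
    intro x y
    show β x y = _
    rw [hJ, hJK]
    unfold formOfGram
    simp only [dotProduct, Matrix.mulVec, Finset.mul_sum, id, mul_assoc]
  have two_zero : ∀ z : F, z = -z → z ≠ 0 → ∀ w : F, -w = w := by
    intro z hz hz0 w
    have h12 : (2 : F) * z = 0 := by linear_combination hz
    have h13 : (2 : F) = 0 := by
      rcases mul_eq_zero.1 h12 with h | h
      · exact h
      · exact absurd h hz0
    linear_combination (-w) * h13
  refine ⟨G₁, G₂, hdet₁, hdet₂, ?_, hid⟩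
  rcases mul_self_eq_one_iff.1 hε2 with h1' | h1'
  · -- `ε = 1`
    subst h1'
    have hs1 : G₁ᵀ = G₁ := by rw [hε, one_smul]
    have hs2 : G₂ᵀ = -G₂ := by
      ext a b
      rw [Matrix.transpose_apply, Matrix.neg_apply, hskew2 b a, one_mul]
    by_cases hz : ∀ a, G₂ a a = 0
    · exact Or.inl ⟨hs1, hs2, hz⟩
    · push Not at hz
      obtain ⟨a, ha⟩ := hz
      have hneg := two_zero (G₂ a a) (by have := hskew2 a a; rw [one_mul] at this; exact this) ha
      refine Or.inr ⟨?_, fun i => ?_, ?_⟩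
      · rw [hs1]
        ext i j
        rw [Matrix.neg_apply, hneg]
      · rcases mul_eq_zero.1 (hdiag i a) with h | h
        · exact h
        · exact absurd h ha
      · rw [hs2]
        ext i j
        rw [Matrix.neg_apply, hneg]
  · -- `ε = -1`
    subst h1'
    have hs1 : G₁ᵀ = -G₁ := by rw [hε, neg_smul, one_smul]
    have hs2 : G₂ᵀ = G₂ := by
      ext a b
      rw [Matrix.transpose_apply, hskew2 b a]
      ring
    by_cases hz : ∀ i, G₁ i i = 0
    · exact Or.inr ⟨hs1, hz, hs2⟩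
    · push Not at hz
      obtain ⟨i, hi⟩ := hz
      have hneg := two_zero (G₁ i i) (by have := hT i i; rw [neg_one_mul] at this; exact this) hi
      refine Or.inl ⟨?_, ?_, fun a => ?_⟩
      · rw [hs1]
        ext i j
        rw [Matrix.neg_apply, hneg]
      · rw [hs2]
        ext i j
        rw [Matrix.neg_apply, hneg]
      · rcases mul_eq_zero.1 (hdiag i a) with h | h
        · exact absurd h hi
        · exact h

end Cfsg.Agent.Lib.Helper40.SPPTF
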