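import Cfsg.Agent.Lib.Helper96.HyDefs
import Cfsg.Agent.Lib.Helper29.QuadEXIST
import Cfsg.Agent.Lib.Helper47.SpPrime
import Cfsg.Agent.Lib.Helper47.OrthPrime

/-!
Project HY (S5992, helper96), piece FPF (helper40): a nondegenerate subspace of dimension
`blk * b` and of the right type carries a fixed-point-free isometry of order `r`.
-/

set_option autoImplicit false
set_option linter.unusedSectionVars false
set_option linter.unusedVariables false

namespace Cfsg.Agent.Lib.Helper40.Hy

open Module Polynomial Cfsg.Agent.Lib.Helper96.Sp Cfsg.Agent.Lib.Helper96.Hy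
  Cfsg.Agent.Lib.Helper47

universe u

theorem fpf_blk_of_even (q r : ℕ) (h : Even (orderOf (q : ZMod r))) :
    blk q r = orderOf (q : ZMod r) := by
  unfold blk
  rw [if_pos h]

theorem fpf_blk_of_odd (q r : ℕ) (h : ¬ Even (orderOf (q : ZMod r))) :
    blk q r = 2 * orderOf (q : ZMod r) := by
  unfold blk
  rw [if_neg h]

theorem fpf_exists_cyc {F : Type*} [Field F] (r : ℕ) (hr : r.Prime) :
    ∃ f : F[X], IsCycFactor r f := by
  have hnu : ¬ IsUnit (cyclotomic r F) := by
    intro hu
    have h1 := natDegree_eq_zero_of_isUnit hu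
    rw [natDegree_cyclotomic, Nat.totient_prime hr] at h1
    have := hr.two_le
    omega
  obtain ⟨g, hgm, hgi, hgd⟩ := Polynomial.exists_monic_irreducible_factor _ hnu
  exact ⟨g, hgm, hgi, hgd⟩

variable {F : Type u} [Field F] [Fintype F] {V : Type u} [AddCommGroup V] [Module F V]
  [FiniteDimensional F V] {B : LinearMap.BilinForm F V}

-- PIECE FPF
theorem exists_fpf (p : ℕ) [Fact p.Prime] [CharP F p] (hS : B.IsSymm) (h2 : (2 : F) ≠ 0)
    (r : ℕ) [Fact r.Prime] (hr2 : r ≠ 2) (hrp : r ≠ p) (H : Submodule F V) (hH : ND B H)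
    (b : ℕ) (hb : 1 ≤ b) (hfin : finrank F H = blk (Fintype.card F) r * b)
    (htyp : Typ B H (if Even (orderOf ((Fintype.card F : ℕ) : ZMod r)) then (-1) ^ b else 1)) :
    ∃ g : Module.End F ↥H, (∀ v : H, B (g v : V) (g v : V) = B (v : V) (v : V)) ∧ g ^ r = 1 ∧
      ∀ v : H, g v = v → v = 0 := by
  classical
  have hp : p.Prime := Fact.out
  have hr : r.Prime := Fact.out
  obtain ⟨k, hk, hT⟩ := htyp
  obtain ⟨f, hf⟩ := fpf_exists_cyc (F := F) r hr
  have hfd : f.natDegree = orderOf ((Fintype.card F : ℕ) : ZMod r) := hf.natDegree_eq rfl hr hrp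
  have hσ : ∀ x : F, (RingHom.id F) ((RingHom.id F) x) = x := fun _ => rfl
  have hex : ∃ u : Multiset F[X], (∀ g ∈ u, IsCycFactor r g) ∧ u ≠ 0 ∧
      u.map (dualP (RingHom.id F)) = u ∧ u.prod.natDegree = 2 * k + 2 ∧
      tauSign u =
        (if Even (orderOf ((Fintype.card F : ℕ) : ZMod r)) then (-1) ^ b else 1) := by
    by_cases he : Even (orderOf ((Fintype.card F : ℕ) : ZMod r))
    · have hsd : dualP (RingHom.id F) f = f := (dualP_id_eq_self_iff rfl hr hr2 hrp hf).mpr he
      refine ⟨Multiset.replicate b f, ?_, ?_, ?_, ?_, ?_⟩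
      · intro g hg
        rw [Multiset.eq_of_mem_replicate hg]
        exact hf
      · intro h0
        have := congrArg Multiset.card h0
        rw [Multiset.card_replicate, Multiset.card_zero] at this
        omega
      · rw [Multiset.map_replicate, hsd]
      · have h3 := natDegree_cyc_prod (F := F)
          (i := orderOf ((Fintype.card F : ℕ) : ZMod r)) 0 (Multiset.replicate b f)
          (fun g hg => by rw [Multiset.eq_of_mem_replicate hg]; exact ⟨hf.1, hfd⟩)
        rw [pow_zero, one_mul, zero_add, Multiset.card_replicate] at h3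
        rw [h3, ← hk, hfin, fpf_blk_of_even _ _ he]
      · rw [if_pos he, tauSign_of_forall_self
          (fun g hg => by rw [Multiset.eq_of_mem_replicate hg]; exact hsd),
          Multiset.card_replicate]
    · have hf' : IsCycFactor r (dualP (RingHom.id F) f) := dualP_isCycFactor p hσ hr hrp hf
      have hdd : dualP (RingHom.id F) (dualP (RingHom.id F) f) = f :=
        (dualP_props p hσ f hf.1 (hf.coeff_zero_ne hr.pos)).2.2.2
      have hmem : ∀ g ∈ Multiset.replicate b f + Multiset.replicate b (dualP (RingHom.id F) f),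
          IsCycFactor r g := by
        intro g hg
        rcases Multiset.mem_add.1 hg with h | h
        · rw [Multiset.eq_of_mem_replicate h]
          exact hf
        · rw [Multiset.eq_of_mem_replicate h]
          exact hf'
      refine ⟨Multiset.replicate b f + Multiset.replicate b (dualP (RingHom.id F) f), hmem,
        ?_, ?_, ?_, ?_⟩
      · intro h0
        have := congrArg Multiset.card h0
        rw [Multiset.card_add, Multiset.card_replicate, Multiset.card_replicate,
          Multiset.card_zero] at this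
        omega
      · rw [Multiset.map_add, Multiset.map_replicate, Multiset.map_replicate, hdd, add_comm]
      · have h3 := natDegree_cyc_prod (F := F)
          (i := orderOf ((Fintype.card F : ℕ) : ZMod r)) 0 _
          (fun g hg => ⟨(hmem g hg).1, (hmem g hg).natDegree_eq rfl hr hrp⟩)
        rw [pow_zero, one_mul, zero_add, Multiset.card_add, Multiset.card_replicate,
          Multiset.card_replicate] at h3
        rw [h3, ← hk, hfin, fpf_blk_of_odd _ _ he]
        ring
      · rw [if_neg he]
        exact tauSign_of_forall_ne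
          (fun g hg h => he ((dualP_id_eq_self_iff rfl hr hr2 hrp (hmem g hg)).mp h))
  obtain ⟨u, hu, hu0, hdual, hdeg, hτ⟩ := hex
  have hε : (if Even (orderOf ((Fintype.card F : ℕ) : ZMod r)) then (-1 : ℤ) ^ b else 1) = 1 ∨
      (if Even (orderOf ((Fintype.card F : ℕ) : ZMod r)) then (-1 : ℤ) ^ b else 1) = -1 := by
    split_ifs
    · exact neg_one_pow_eq_or ℤ b
    · exact Or.inl rfl
  obtain ⟨g, hgQ, hgr, hgc⟩ := Cfsg.Agent.Lib.Helper29.QuadEXIST.quad_exists_of_multiset
    (qfacts (F := F) p) (isQuad_sub hS H) (nondeg_sub h2 H hH) k hk _ hε hT p r hr hr2 hrp u hu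
    hu0 hdual (by rw [hdeg]) (fun _ => hτ)
  refine ⟨g, fun v => hgQ v, hgr, ?_⟩
  intro v hv
  by_contra hv0
  have he1 : u.prod.eval 1 ≠ 0 := cyc_prod_eval_one_ne p hr hrp u hu
  apply he1
  have hev : g.HasEigenvalue 1 :=
    Module.End.hasEigenvalue_of_hasEigenvector
      ⟨Module.End.mem_eigenspace_iff.mpr (by rw [hv, one_smul]), hv0⟩
  have hroot := (Module.End.hasEigenvalue_iff_isRoot_charpoly g 1).mp hev
  rw [hgc, hdeg, Nat.sub_self, pow_zero, one_mul] at hroot
  exact hroot

end Cfsg.Agent.Lib.Helper40.Hy
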