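import Mathlib
import Cfsg.Prelude.Def_GeometricClasses
import Cfsg.Prelude.Def_LieClassical
import Cfsg.Agent.Lib.Helper71.Asch5
import Cfsg.Agent.Lib.Helper82.ASB8UNITS
import Cfsg.Agent.Lib.Helper44.BADDefs

/-! Project BAD (helper44), piece GUOUT: an isometry which is a tensor product is a tensor
product of two unitary matrices (field with 4 elements). -/

set_option autoImplicit false

namespace Cfsg.Agent.Lib.Helper44.BAD

open Matrix Cfsg.Geo Cfsg.Agent.Lib.Helper71.Asch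
open scoped Kronecker

variable {n : ℕ} {F : Type*} [Field F] [Fintype F] {q : ℕ}

omit [Fintype F] in
theorem GUOUT_mulVec (e : Fin n ≃ Fin 3 × Fin 3) (P : GL (Fin n) F)
    (a b : Matrix (Fin 3) (Fin 3) F) (x : Fin 3 × Fin 3 → F) :
    tmat e P a b *ᵥ (P.1 *ᵥ (x ∘ e)) = P.1 *ᵥ (((a ⊗ₖ b) *ᵥ x) ∘ e) := by
  unfold tmat
  have hP : (P⁻¹ : GL (Fin n) F).1 * P.1 = 1 := by
    rw [← Units.val_mul, inv_mul_cancel, Units.val_one]
  have key : (Matrix.reindex e.symm e.symm (a ⊗ₖ b)) *ᵥ (x ∘ e) = ((a ⊗ₖ b) *ᵥ x) ∘ e := by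
    rw [Matrix.reindex_apply, Matrix.submatrix_mulVec_equiv]
    have hx : (x ∘ ⇑e) ∘ ⇑e.symm = x := by
      funext p
      simp
    show ((a ⊗ₖ b) *ᵥ ((x ∘ ⇑e) ∘ ⇑e.symm)) ∘ ⇑e = _
    rw [hx]
  rw [Matrix.mulVec_mulVec, Matrix.mul_assoc, Matrix.mul_assoc, hP, Matrix.mul_one,
    ← Matrix.mulVec_mulVec, key]

omit [Fintype F] in
theorem GUOUT_single (k l k' l' : Fin 3) :
    ∑ α, (Pi.single (k, l) (1 : F) : Fin 3 × Fin 3 → F) α
        * ((Pi.single (k', l') (1 : F) : Fin 3 × Fin 3 → F) α) ^ 2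
      = if (k, l) = (k', l') then 1 else 0 := by
  rw [Finset.sum_eq_single (k, l)]
  · by_cases h : (k, l) = (k', l')
    · rw [h]; simp
    · simp [h]
  · intro β _ hβ
    simp [Pi.single_apply, hβ]
  · simp

omit [Fintype F] in
theorem GUOUT_entries (a b : Matrix (Fin 3) (Fin 3) F) (k l k' l' : Fin 3) :
    ∑ α, ((a ⊗ₖ b) *ᵥ Pi.single (k, l) 1) α * (((a ⊗ₖ b) *ᵥ Pi.single (k', l') 1) α) ^ 2
      = (∑ i, a i k * (a i k') ^ 2) * (∑ j, b j l * (b j l') ^ 2) := by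
  rw [Matrix.mulVec_single_one, Matrix.mulVec_single_one, Finset.sum_mul_sum,
    Fintype.sum_prod_type]
  apply Finset.sum_congr rfl
  intro i _
  apply Finset.sum_congr rfl
  intro j _
  simp only [Matrix.col_apply, Matrix.kroneckerMap_apply]
  ring

theorem GUOUT_two (hF : Fintype.card F = 4) : (2 : F) = 0 := by
  have h4 : ((4 : ℕ) : F) = 0 := by
    rw [← hF]
    exact Nat.cast_card_eq_zero F
  have h : (2 : F) ^ 2 = 0 := by
    have : (2 : F) ^ 2 = ((4 : ℕ) : F) := by norm_num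
    rw [this, h4]
  exact pow_eq_zero_iff (two_ne_zero) |>.mp h

theorem GUOUT_cube (hF : Fintype.card F = 4) (x : F) : (x ^ 3) ^ 2 = x ^ 3 := by
  by_cases hx : x = 0
  · rw [hx]; simp
  · have h := FiniteField.pow_card_sub_one_eq_one x hx
    rw [hF] at h
    have h3 : x ^ 3 = 1 := h
    rw [h3, one_pow]

/-- GUOUT: an isometry which is a tensor product is a tensor product of two unitary matrices. -/
theorem GUOUT (hF : Fintype.card F = q ^ 2) (hq : q = 2) (e : Fin n ≃ Fin 3 × Fin 3)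
    (P' : GL (Fin n) F) (c : F) (hc : c ≠ 0) (hstd : StdF q e P' c) (g : GL (Fin n) F)
    (hg : g ∈ Cfsg.GU n F q) (hT : g ∈ tensorProductSubgroup 3 3 e P') :
    ∃ a b : GL (Fin 3) F, a.1 ∈ bU F q ∧ b.1 ∈ bU F q ∧ g.1 = tmat e P' a.1 b.1 := by
  subst hq
  have hF4 : Fintype.card F = 4 := by rw [hF]; norm_num
  have h2 : (2 : F) = 0 := GUOUT_two hF4
  obtain ⟨a, b, hab⟩ := (mem_tensorProductSubgroup_iff e P' g).mp hT
  have key : ∀ x y : Fin 3 × Fin 3 → F,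
      ∑ α, ((a.1 ⊗ₖ b.1) *ᵥ x) α * (((a.1 ⊗ₖ b.1) *ᵥ y) α) ^ 2 = ∑ α, x α * (y α) ^ 2 := by
    intro x y
    have h1 := hg (P'.1 *ᵥ (x ∘ e)) (P'.1 *ᵥ (y ∘ e))
    change Cfsg.hermForm n F 2 (g.1 *ᵥ _) (g.1 *ᵥ _) = _ at h1
    rw [hab, GUOUT_mulVec, GUOUT_mulVec, hstd, hstd] at h1
    exact mul_left_cancel₀ hc h1
  obtain ⟨A, hA⟩ : ∃ A : Fin 3 → Fin 3 → F, ∀ k k', A k k' = ∑ i, a.1 i k * (a.1 i k') ^ 2 :=
    ⟨_, fun _ _ => rfl⟩
  obtain ⟨B, hB⟩ : ∃ B : Fin 3 → Fin 3 → F, ∀ l l', B l l' = ∑ j, b.1 j l * (b.1 j l') ^ 2 :=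
    ⟨_, fun _ _ => rfl⟩
  have hAB : ∀ k k' l l', A k k' * B l l' = if (k, l) = (k', l') then 1 else 0 := by
    intro k k' l l'
    rw [hA, hB, ← GUOUT_entries, key, GUOUT_single]
  have h00 : A 0 0 * B 0 0 = 1 := by
    rw [hAB]
    simp
  -- `A 0 0` is `0` or `1`
  have hlam : A 0 0 ^ 2 = A 0 0 := by
    rw [hA, Fin.sum_univ_three]
    have e0 := GUOUT_cube hF4 (a.1 0 0)
    have e1 := GUOUT_cube hF4 (a.1 1 0)
    have e2 := GUOUT_cube hF4 (a.1 2 0)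
    linear_combination e0 + e1 + e2
      + (a.1 0 0 ^ 3 * a.1 1 0 ^ 3 + a.1 0 0 ^ 3 * a.1 2 0 ^ 3 + a.1 1 0 ^ 3 * a.1 2 0 ^ 3) * h2
  have hA0 : A 0 0 ≠ 0 := by
    intro h
    rw [h, zero_mul] at h00
    exact zero_ne_one h00
  have hA1 : A 0 0 = 1 := by
    have h : A 0 0 * (A 0 0 - 1) = 0 := by linear_combination hlam
    rcases mul_eq_zero.mp h with h | h
    · exact absurd h hA0
    · linear_combination h
  have hB1 : B 0 0 = 1 := by
    rw [hA1, one_mul] at h00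
    exact h00
  refine ⟨a, b, ?_, ?_, hab⟩
  · show a.1ᵀ * a.1.map (fun x : F => x ^ 2) = 1
    ext k k'
    have h := hAB k k' 0 0
    rw [hB1, mul_one] at h
    rw [Matrix.mul_apply]
    simp only [Matrix.transpose_apply, Matrix.map_apply]
    rw [← hA, h, Matrix.one_apply]
    by_cases hk : k = k'
    · simp [hk]
    · simp [hk]
  · show b.1ᵀ * b.1.map (fun x : F => x ^ 2) = 1
    ext l l'
    have h := hAB 0 0 l l'
    rw [hA1, one_mul] at h
    rw [Matrix.mul_apply]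
    simp only [Matrix.transpose_apply, Matrix.map_apply]
    rw [← hB, h, Matrix.one_apply]
    by_cases hl : l = l'
    · simp [hl]
    · simp [hl]

end Cfsg.Agent.Lib.Helper44.BAD
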