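import Mathlib
import Cfsg.Agent.Lib.Helper22.BFDefs
import Cfsg.Agent.Lib.Helper82.CharCore
import Cfsg.Agent.Lib.Helper83.Codeg

/-! # S4503 piece CASEA1 (helper40): the per-constituent inequality. -/

set_option autoImplicit false

namespace Cfsg.Agent.Lib.Helper40.BFT

open Cfsg Cfsg.Agent.Lib.Helper22.BFD
open scoped ComplexConjugate

universe u

section

variable {G : Type u} [Group G] [Fintype G]

/-- multiplying by an element of the kernel does not change a character value -/
theorem char_mul_of_eq_one {χ : G → ℂ} (h : IsCharacter G χ) (y : G) (hy : χ y = χ 1) (g : G) :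
    χ (g * y) = χ g := by
  obtain ⟨n, ρ, rfl⟩ := h
  have h1 := (Cfsg.Agent.Lib.Helper83.char_eq_iff_rho_eq_one ρ y).mp hy
  simp only [Representation.character, map_mul, h1, mul_one]

theorem one_mem_Kf (p : ℕ) [Fact p.Prime] (z : G) : (1 : G) ∈ Kf p z := by
  classical
  simp only [Kf, Finset.mem_filter, Finset.mem_univ, true_and, one_mul, mul_one, orderOf_one,
    Nat.dvd_one]
  exact (Fact.out : p.Prime).ne_one

/-- `sP` split at `t = 0` -/
theorem sP_split (p : ℕ) [Fact p.Prime] (z : G) (φ : G → ℂ) :
    sP p z φ = φ 1 + ∑ t ∈ (Finset.univ : Finset (ZMod p)).erase 0, φ (z ^ t.val) := by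
  unfold sP
  rw [← Finset.add_sum_erase Finset.univ _ (Finset.mem_univ (0 : ZMod p))]
  simp

theorem card_erase_zero (p : ℕ) [Fact p.Prime] :
    ((Finset.univ : Finset (ZMod p)).erase 0).card = p - 1 := by
  rw [Finset.card_erase_of_mem (Finset.mem_univ _), Finset.card_univ, ZMod.card]

/-- PIECE CASEA1 -/
theorem case_a_ineq (p : ℕ) [Fact p.Prime] (z : G) (hz : orderOf z = p)
    (hncl : Subgroup.normalClosure ({z} : Set G) = ⊤) (hf : 2 * (Ef p z).card + 1 < p)
    (φ : IrrCharacter G) (hφ1 : φ.1 ≠ fun _ => 1) (hK : ∀ y ∈ Kf p z, φ.1 y = φ.1 1)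
    (htri : Tri p z φ.1) (m : ℕ) (hm : sP p z φ.1 = ((p * m : ℕ) : ℂ)) :
    (p + 1) * m ≤ 2 * charDegree φ.1 := by
  classical
  have hp : p.Prime := Fact.out
  have hp2 := hp.two_le
  obtain ⟨hN, hN0⟩ := Cfsg.Agent.Lib.Helper82.irr_charDegree φ
  set N := charDegree φ.1 with hNdef
  have hchar : IsCharacter G φ.1 := by
    obtain ⟨n, ρ, -, h⟩ := φ.2
    exact ⟨n, ρ, h⟩
  have hmul : ∀ y ∈ Kf p z, ∀ g : G, φ.1 (g * y) = φ.1 g := fun y hy g =>
    char_mul_of_eq_one hchar y (hK y hy) g
  have h1K := one_mem_Kf p z
  have hsplit := sP_split p z φ.1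
  have hcard := card_erase_zero p
  obtain ⟨q, rfl⟩ : ∃ q, p = q + 1 := ⟨p - 1, by omega⟩
  rcases htri with hflat | ⟨ε, hε, hconst⟩ | ⟨-, hs⟩
  · -- flat
    have hzero : ∀ t : ZMod (q + 1), t ≠ 0 → φ.1 (z ^ t.val) = 0 := by
      intro t ht
      have h := hflat t ht
      rw [Finset.sum_congr rfl (fun y hy => hmul y hy (z ^ t.val)), Finset.sum_const,
        nsmul_eq_mul] at h
      rcases mul_eq_zero.mp h with h | h
      · have : (Kf (q + 1) z).card = 0 := by exact_mod_cast h
        rw [Finset.card_eq_zero] at this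
        rw [this] at h1K
        exact absurd h1K (Finset.notMem_empty _)
      · exact h
    have hsum : ∑ t ∈ (Finset.univ : Finset (ZMod (q + 1))).erase 0, φ.1 (z ^ t.val) = 0 :=
      Finset.sum_eq_zero (fun t ht => hzero t (Finset.ne_of_mem_erase ht))
    rw [hsplit, hsum, add_zero, ← hN] at hm
    have hNm : N = (q + 1) * m := by exact_mod_cast hm
    have e : (q + 1 + 1) * m = q * m + 2 * m := by ring
    have e2 : (q + 1) * m = q * m + m := by ring
    have e3 : 0 ≤ q * m := Nat.zero_le _
    omega
  · -- constant ε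
    have hval : ∀ t : ZMod (q + 1), t ≠ 0 → φ.1 (z ^ t.val) = ε := by
      intro t ht
      have := hconst t ht 1 h1K
      rwa [mul_one] at this
    have hsum : ∑ t ∈ (Finset.univ : Finset (ZMod (q + 1))).erase 0, φ.1 (z ^ t.val) =
        (q : ℂ) * ε := by
      rw [Finset.sum_congr rfl (fun t ht => hval t (Finset.ne_of_mem_erase ht)), Finset.sum_const,
        hcard, nsmul_eq_mul]
      simp
    rw [hsplit, hsum, ← hN] at hm
    rcases hε with rfl | rfl
    · have hNm : N + q = (q + 1) * m := by
        have : ((N + q : ℕ) : ℂ) = (((q + 1) * m : ℕ) : ℂ) := by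
          push_cast
          push_cast at hm
          linear_combination hm
        exact_mod_cast this
      have hm0 : m ≠ 0 := by
        rintro rfl
        omega
      have hm1 : m ≠ 1 := by
        rintro rfl
        have hN1 : N = 1 := by omega
        apply hφ1
        have hone : (1 : ZMod (q + 1)) ≠ 0 := by
          haveI : Fact (1 < q + 1) := ⟨by omega⟩
          exact one_ne_zero
        have hz1 : φ.1 z = 1 := by
          have hv := hval 1 hone
          haveI : Fact (1 < q + 1) := ⟨by omega⟩
          rw [ZMod.val_one, pow_one] at hv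
          exact hv
        have hφ11 : φ.1 1 = 1 := by rw [← hN, hN1]; simp
        have hzker : z ∈ Cfsg.Agent.Lib.Helper83.irrKer φ := by
          rw [Cfsg.Agent.Lib.Helper83.mem_irrKer, hz1, hφ11]
        have htop : Cfsg.Agent.Lib.Helper83.irrKer φ = ⊤ := by
          rw [eq_top_iff, ← hncl]
          apply Subgroup.normalClosure_le_normal
          rw [Set.singleton_subset_iff]
          exact hzker
        have := (Cfsg.Agent.Lib.Helper83.irrKer_eq_top_iff φ).mp htop
        rw [this]
        rfl
      have hm2 : 2 ≤ m := by omega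
      have e : (q + 1 + 1) * m = q * m + 2 * m := by ring
      have e2 : (q + 1) * m = q * m + m := by ring
      have e3 : q * 2 ≤ q * m := Nat.mul_le_mul_left q hm2
      omega
    · have hNm : N = (q + 1) * m + q := by
        have : ((N : ℕ) : ℂ) = (((q + 1) * m + q : ℕ) : ℂ) := by
          push_cast
          push_cast at hm
          linear_combination hm
        exact_mod_cast this
      have e : (q + 1 + 1) * m = q * m + 2 * m := by ring
      have e2 : (q + 1) * m = q * m + m := by ring
      have e3 : 0 ≤ q * m := Nat.zero_le _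
      omega
  · -- third alternative
    rcases hs with hs | hs
    · rw [hs, ← hN] at hm
      have hNm : N + (Ef (q + 1) z).card = (q + 1) * m := by
        have : ((N + (Ef (q + 1) z).card : ℕ) : ℂ) = (((q + 1) * m : ℕ) : ℂ) := by
          push_cast
          push_cast at hm
          linear_combination hm
        exact_mod_cast this
      have hm0 : m ≠ 0 := by
        rintro rfl
        omega
      have e : (q + 1 + 1) * m = q * m + 2 * m := by ring
      have e2 : (q + 1) * m = q * m + m := by ring
      have e3 : q * 1 ≤ q * m := Nat.mul_le_mul_left q (by omega)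
      omega
    · rw [hs, ← hN] at hm
      have hNm : N = (q + 1) * m + (Ef (q + 1) z).card := by
        have : ((N : ℕ) : ℂ) = (((q + 1) * m + (Ef (q + 1) z).card : ℕ) : ℂ) := by
          push_cast
          push_cast at hm
          linear_combination hm
        exact_mod_cast this
      have e : (q + 1 + 1) * m = q * m + 2 * m := by ring
      have e2 : (q + 1) * m = q * m + m := by ring
      have e3 : 0 ≤ q * m := Nat.zero_le _
      omega

end

end Cfsg.Agent.Lib.Helper40.BFT
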