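import Mathlib
import Cfsg.Agent.Lib.Helper22.BFDefs
import Cfsg.Agent.Lib.Helper82.CharCore
import Cfsg.Agent.Lib.Helper83.Codeg
import Cfsg.Agent.Lib.Helper83.Linear
import Cfsg.Agent.Lib.Helper83.IrrBasic
import Cfsg.Agent.Lib.Helper4.CharDecomp
import Cfsg.Agent.Lib.Helper4.BrSpan
import Cfsg.Agent.Lib.Helper4.CharDual

/-! # S4503 piece CASEA2 (helper40): a small character is impossible. -/

set_option autoImplicit false
set_option maxHeartbeats 1600000

namespace Cfsg.Agent.Lib.Helper40.BFT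

open Cfsg Cfsg.Agent.Lib.Helper22.BFD
open scoped ComplexConjugate

universe u

/-- sum of the values of the additive character over `t` -/
theorem sum_zeta_pow (p : ℕ) [Fact p.Prime] (ζ : ℂ) (hζ : IsPrimitiveRoot ζ p) (u : ZMod p) :
    ∑ t : ZMod p, ζ ^ (u * t).val = if u = 0 then (p : ℂ) else 0 := by
  classical
  have h1 : ∀ t : ZMod p, ζ ^ (u * t).val =
      (AddChar.zmodChar p hζ.pow_eq_one) (t * u) := by
    intro t
    rw [AddChar.zmodChar_apply, mul_comm]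
  rw [Finset.sum_congr rfl (fun t _ => h1 t),
    AddChar.sum_mulShift u (AddChar.zmodChar_primitive_of_primitive_root p hζ), ZMod.card]
  split_ifs <;> simp

theorem zeta_mul_conj (p : ℕ) [Fact p.Prime] (ζ : ℂ) (hζ : IsPrimitiveRoot ζ p)
    (u v t : ZMod p) :
    ζ ^ (u * t).val * conj (ζ ^ (v * t).val) = ζ ^ ((u - v) * t).val := by
  have h1 : ∀ x : ZMod p, ζ ^ x.val = (AddChar.zmodChar p hζ.pow_eq_one) x :=
    fun x => (AddChar.zmodChar_apply hζ.pow_eq_one x).symm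
  rw [h1, h1, h1, ← AddChar.map_neg_eq_conj, ← AddChar.map_add_eq_mul]
  congr 1
  ring

/-- Parseval on `ZMod p` -/
theorem parseval_zmod (p : ℕ) [Fact p.Prime] (ζ : ℂ) (hζ : IsPrimitiveRoot ζ p)
    (a : ZMod p → ℕ) :
    ∑ t : ZMod p, (∑ u : ZMod p, (a u : ℂ) * ζ ^ (u * t).val) *
      conj (∑ u : ZMod p, (a u : ℂ) * ζ ^ (u * t).val) =
      ((p * ∑ u : ZMod p, a u ^ 2 : ℕ) : ℂ) := by
  classical
  have e1 : ∀ t : ZMod p, (∑ u : ZMod p, (a u : ℂ) * ζ ^ (u * t).val) *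
      conj (∑ u : ZMod p, (a u : ℂ) * ζ ^ (u * t).val) =
      ∑ u : ZMod p, ∑ v : ZMod p, ((a u : ℂ) * (a v : ℂ)) * ζ ^ ((u - v) * t).val := by
    intro t
    rw [map_sum, Finset.sum_mul]
    refine Finset.sum_congr rfl (fun u _ => ?_)
    rw [Finset.mul_sum]
    refine Finset.sum_congr rfl (fun v _ => ?_)
    rw [map_mul, Complex.conj_natCast, ← zeta_mul_conj p ζ hζ u v t]
    ring
  rw [Finset.sum_congr rfl (fun t _ => e1 t), Finset.sum_comm]
  have e2 : ∀ u : ZMod p, ∑ t : ZMod p, ∑ v : ZMod p,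
      ((a u : ℂ) * (a v : ℂ)) * ζ ^ ((u - v) * t).val = (p : ℂ) * ((a u : ℂ) * (a u : ℂ)) := by
    intro u
    rw [Finset.sum_comm]
    have e3 : ∀ v : ZMod p, ∑ t : ZMod p, ((a u : ℂ) * (a v : ℂ)) * ζ ^ ((u - v) * t).val =
        if v = u then (p : ℂ) * ((a u : ℂ) * (a u : ℂ)) else 0 := by
      intro v
      rw [← Finset.mul_sum, sum_zeta_pow p ζ hζ (u - v)]
      by_cases h : v = u
      · subst h
        simp [mul_comm]
      · have : u - v ≠ 0 := fun h' => h (sub_eq_zero.mp h').symm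
        simp [this, h]
    rw [Finset.sum_congr rfl (fun v _ => e3 v)]
    simp
  rw [Finset.sum_congr rfl (fun u _ => e2 u), ← Finset.mul_sum]
  push_cast
  congr 1
  refine Finset.sum_congr rfl (fun u _ => ?_)
  ring

section

variable {G : Type u} [Group G] [Fintype G]

/-- `sP` of a function with a decomposition on the powers of `z` -/
theorem sP_of_dec (p : ℕ) [Fact p.Prime] (ζ : ℂ) (hζ : IsPrimitiveRoot ζ p) (z : G)
    (φ : G → ℂ) (b : ZMod p → ℕ)
    (hb : ∀ t : ZMod p, φ (z ^ t.val) = ∑ u : ZMod p, (b u : ℂ) * ζ ^ (u * t).val) :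
    sP p z φ = ((p * b 0 : ℕ) : ℂ) := by
  classical
  unfold sP
  rw [Finset.sum_congr rfl (fun t _ => hb t), Finset.sum_comm]
  simp_rw [← Finset.mul_sum, sum_zeta_pow p ζ hζ]
  simp [mul_comm]

theorem irr_isCharacter (φ : IrrCharacter G) : IsCharacter G φ.1 := by
  obtain ⟨n, ρ, -, h⟩ := φ.2
  exact ⟨n, ρ, h⟩

/-- a complex number with real part `N` and norm at most `N` is `N` -/
theorem eq_of_re_eq_of_norm_le (w : ℂ) (N : ℝ) (h1 : w.re = N) (h2 : ‖w‖ ≤ N) : w = (N : ℂ) := by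
  have h3 : ‖w‖ ^ 2 = w.re ^ 2 + w.im ^ 2 := by
    rw [Complex.sq_norm, Complex.normSq_apply]
    ring
  have hN : 0 ≤ N := le_trans (norm_nonneg w) h2
  have h4 : ‖w‖ ^ 2 ≤ N ^ 2 := pow_le_pow_left₀ (norm_nonneg w) h2 2
  have h5 : w.im ^ 2 ≤ 0 := by
    rw [h3, h1] at h4
    linarith
  have h6 : w.im = 0 := by
    have := sq_nonneg w.im
    have h7 : w.im ^ 2 = 0 := le_antisymm h5 this
    exact pow_eq_zero_iff (two_ne_zero) |>.mp h7
  apply Complex.ext
  · simp [h1]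
  · simp [h6]

/-- PIECE CASEA2 -/
theorem case_a_sum (p : ℕ) [Fact p.Prime] (ζ : ℂ) (hζ : IsPrimitiveRoot ζ p) (z : G)
    (hz : orderOf z = p) (hf : 2 * (Ef p z).card + 1 < p) (hf2 : 2 ≤ (Ef p z).card)
    (hpdec : ∀ φ : G → ℂ, IsCharacter G φ → ∃ a : ZMod p → ℕ, ∀ t : ZMod p,
      φ (z ^ t.val) = ∑ u : ZMod p, (a u : ℂ) * ζ ^ (u * t).val)
    (hineq : ∀ φ : IrrCharacter G, φ.1 ≠ (fun _ => 1) → (∀ y ∈ Kf p z, φ.1 y = φ.1 1) →
      ∀ m : ℕ, sP p z φ.1 = ((p * m : ℕ) : ℂ) → (p + 1) * m ≤ 2 * charDegree φ.1)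
    (ψ : IrrCharacter G) (hψ : Small p z ψ.1) : False := by
  classical
  have hp : p.Prime := Fact.out
  have hp0 : (p : ℂ) ≠ 0 := by exact_mod_cast hp.ne_zero
  haveI := Cfsg.Agent.Lib.Helper4.irr_finite (G := G)
  letI : Fintype (IrrCharacter G) := Fintype.ofFinite _
  obtain ⟨hψ1, hψ0, hψK⟩ := hψ
  set f := (Ef p z).card with hfdef
  have hψc : IsCharacter G ψ.1 := irr_isCharacter ψ
  obtain ⟨a, ha⟩ := hpdec ψ.1 hψc
  -- Σ a = f
  have hasum : ∑ u : ZMod p, a u = f := by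
    have h := ha 0
    simp only [ZMod.val_zero, pow_zero, mul_zero, mul_one] at h
    rw [hψ1] at h
    exact_mod_cast h.symm
  -- the square sum
  set S := ∑ u : ZMod p, a u ^ 2 with hSdef
  have hSf : f ≤ S := by
    rw [← hasum, hSdef]
    apply Finset.sum_le_sum
    intro u _
    nlinarith [Nat.zero_le (a u)]
  -- Ξ
  set Ξ : G → ℂ := ψ.1 * (fun g => conj (ψ.1 g)) with hΞdef
  have hΞc : IsCharacter G Ξ :=
    Cfsg.Agent.Lib.Helper4.isCharacter_mul _ _ hψc
      (Cfsg.Agent.Lib.Helper4.isCharacter_conj _ hψc)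
  have hΞv : ∀ g : G, Ξ g = ψ.1 g * conj (ψ.1 g) := fun g => rfl
  have hsPΞ : sP p z Ξ = ((p * S : ℕ) : ℂ) := by
    unfold sP
    rw [← parseval_zmod p ζ hζ a]
    refine Finset.sum_congr rfl (fun t _ => ?_)
    rw [hΞv, ha t]
  -- decomposition of Ξ
  obtain ⟨m, hm⟩ := Cfsg.Agent.Lib.Helper4.exists_decomp_of_isCharacter Ξ hΞc
  have hΞsum : ∀ g : G, Ξ g = ∑ φ : IrrCharacter G, (m φ : ℂ) * φ.1 g := by
    intro g
    conv_lhs => rw [hm]
    simp [Finset.sum_apply]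
  set τ : IrrCharacter G := Cfsg.Agent.Lib.Helper83.trivIrr G with hτdef
  have hτv : ∀ g : G, τ.1 g = 1 := fun g => rfl
  have hmτ : m τ = 1 := by
    have h1 : classInner Ξ τ.1 = (m τ : ℂ) := by
      conv_lhs => rw [hm]
      exact Cfsg.Agent.Lib.Helper4.classInner_sum_irr (fun φ => (m φ : ℂ)) τ
    have h2 : classInner Ξ τ.1 = classInner ψ.1 ψ.1 := by
      unfold classInner
      congr 1
      refine Finset.sum_congr rfl (fun g _ => ?_)
      rw [hΞv, hτv]
      simp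
    rw [h2, Cfsg.Agent.Lib.Helper83.irr_orthonormal ψ ψ, if_pos rfl] at h1
    exact_mod_cast h1.symm
  -- constituents are trivial on Kf
  have hcK : ∀ φ : IrrCharacter G, m φ ≠ 0 → ∀ y ∈ Kf p z, φ.1 y = φ.1 1 := by
    intro φ hmφ y hy
    have hΞy : Ξ y = Ξ 1 := by rw [hΞv, hΞv, hψK y hy]
    rw [hΞsum, hΞsum] at hΞy
    have hre : ∑ φ : IrrCharacter G, (m φ : ℝ) * ((charDegree φ.1 : ℝ) - (φ.1 y).re) = 0 := by
      have h1 := congrArg Complex.re hΞy
      simp only [Complex.re_sum, Complex.mul_re, Complex.natCast_re, Complex.natCast_im,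
        zero_mul, sub_zero] at h1
      have h2 : ∀ φ : IrrCharacter G, (φ.1 1).re = (charDegree φ.1 : ℝ) := by
        intro φ
        rw [← (Cfsg.Agent.Lib.Helper82.irr_charDegree φ).1]
        simp
      simp only [h2] at h1
      simp only [mul_sub, Finset.sum_sub_distrib]
      linarith
    have hnn : ∀ φ ∈ (Finset.univ : Finset (IrrCharacter G)),
        0 ≤ (m φ : ℝ) * ((charDegree φ.1 : ℝ) - (φ.1 y).re) := by
      intro φ _
      apply mul_nonneg (Nat.cast_nonneg _)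
      have h1 := Cfsg.Agent.Lib.Helper83.irr_norm_le φ.2 y
      have h2 := Complex.re_le_norm (φ.1 y)
      linarith
    have h0 := (Finset.sum_eq_zero_iff_of_nonneg hnn).mp hre φ (Finset.mem_univ _)
    have hm0 : (m φ : ℝ) ≠ 0 := by exact_mod_cast hmφ
    have h1 : (φ.1 y).re = (charDegree φ.1 : ℝ) := by
      rcases mul_eq_zero.mp h0 with h | h
      · exact absurd h hm0
      · linarith
    have h2 := eq_of_re_eq_of_norm_le (φ.1 y) (charDegree φ.1 : ℝ) h1
      (Cfsg.Agent.Lib.Helper83.irr_norm_le φ.2 y)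
    rw [h2, ← (Cfsg.Agent.Lib.Helper82.irr_charDegree φ).1]
    simp
  -- the fixed point multiplicities of the constituents
  choose b hb using fun φ : IrrCharacter G => hpdec φ.1 (irr_isCharacter φ)
  have hsPφ : ∀ φ : IrrCharacter G, sP p z φ.1 = ((p * b φ 0 : ℕ) : ℂ) :=
    fun φ => sP_of_dec p ζ hζ z φ.1 (b φ) (hb φ)
  have hbτ : b τ 0 = 1 := by
    have h := hsPφ τ
    unfold sP at h
    simp only [hτv, Finset.sum_const, Finset.card_univ, ZMod.card, nsmul_eq_mul, mul_one] at h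
    have h' : p = p * b τ 0 := by exact_mod_cast h
    have : p * 1 = p * b τ 0 := by rw [mul_one]; exact h'
    exact (Nat.eq_of_mul_eq_mul_left hp.pos this).symm
  have hNτ : charDegree τ.1 = 1 := by
    have h := (Cfsg.Agent.Lib.Helper82.irr_charDegree τ).1
    rw [hτv] at h
    exact_mod_cast h
  -- S = Σ m b
  have hS : S = ∑ φ : IrrCharacter G, m φ * b φ 0 := by
    have h1 : sP p z Ξ = ∑ φ : IrrCharacter G, (m φ : ℂ) * sP p z φ.1 := by
      unfold sP
      rw [Finset.sum_congr rfl (fun t _ => hΞsum (z ^ t.val)), Finset.sum_comm]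
      refine Finset.sum_congr rfl (fun φ _ => ?_)
      rw [Finset.mul_sum]
    rw [hsPΞ, Finset.sum_congr rfl (fun φ _ => by rw [hsPφ φ])] at h1
    have h2 : ((p * S : ℕ) : ℂ) = ((p * ∑ φ : IrrCharacter G, m φ * b φ 0 : ℕ) : ℂ) := by
      rw [h1]
      push_cast
      rw [Finset.mul_sum]
      refine Finset.sum_congr rfl (fun φ _ => ?_)
      ring
    have h3 : p * S = p * ∑ φ : IrrCharacter G, m φ * b φ 0 := by exact_mod_cast h2
    exact Nat.eq_of_mul_eq_mul_left hp.pos h3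
  -- f² = Σ m N
  have hF : f * f = ∑ φ : IrrCharacter G, m φ * charDegree φ.1 := by
    have h1 := hΞsum 1
    rw [hΞv, hψ1] at h1
    have h2 : ((f * f : ℕ) : ℂ) = ((∑ φ : IrrCharacter G, m φ * charDegree φ.1 : ℕ) : ℂ) := by
      push_cast
      simp only [Complex.conj_natCast] at h1
      rw [h1]
      refine Finset.sum_congr rfl (fun φ _ => ?_)
      rw [(Cfsg.Agent.Lib.Helper82.irr_charDegree φ).1]
    exact_mod_cast h2
  -- split off the trivial character
  rw [← Finset.add_sum_erase Finset.univ _ (Finset.mem_univ τ), hmτ, hbτ] at hS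
  rw [← Finset.add_sum_erase Finset.univ _ (Finset.mem_univ τ), hmτ, hNτ] at hF
  set A := ∑ φ ∈ (Finset.univ : Finset (IrrCharacter G)).erase τ, m φ * b φ 0 with hAdef
  set B := ∑ φ ∈ (Finset.univ : Finset (IrrCharacter G)).erase τ, m φ * charDegree φ.1
    with hBdef
  have hAB : (p + 1) * A ≤ 2 * B := by
    rw [hAdef, hBdef, Finset.mul_sum, Finset.mul_sum]
    apply Finset.sum_le_sum
    intro φ hφ
    have hne : φ ≠ τ := Finset.ne_of_mem_erase hφ
    by_cases hm0 : m φ = 0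
    · simp [hm0]
    · have hne' : φ.1 ≠ fun _ => 1 := by
        intro h
        apply hne
        apply Subtype.ext
        rw [h]
        rfl
      have h1 := hineq φ hne' (hcK φ hm0) (b φ 0) (hsPφ φ)
      calc (p + 1) * (m φ * b φ 0) = m φ * ((p + 1) * b φ 0) := by ring
        _ ≤ m φ * (2 * charDegree φ.1) := Nat.mul_le_mul_left _ h1
        _ = 2 * (m φ * charDegree φ.1) := by ring
  -- arithmetic
  obtain ⟨k, hk⟩ : ∃ k, f = k + 2 := ⟨f - 2, by omega⟩
  have hA : k + 1 ≤ A := by omega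
  have hp' : 2 * k + 6 ≤ p := by omega
  have hB : 2 * B = 2 * k * k + 8 * k + 6 := by
    have : 1 * 1 + B = (k + 2) * (k + 2) := by rw [← hk]; exact hF.symm
    nlinarith
  have h1 : (2 * k + 7) * (k + 1) ≤ (p + 1) * A :=
    Nat.mul_le_mul (by omega) hA
  nlinarith

end

end Cfsg.Agent.Lib.Helper40.BFT
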