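import Mathlib
import Cfsg.Agent.Lib.Helper22.BFDefs

/-! # S4503 piece FIXA (helper40): sums of a character over nested subgroups. -/

set_option autoImplicit false

namespace Cfsg.Agent.Lib.Helper40.BFT

open Cfsg Cfsg.Agent.Lib.Helper22.BFD
open scoped ComplexConjugate

universe u

section

variable {G : Type u} [Group G] [Fintype G]

open scoped Classical in
/-- the sum of a character over a subgroup is `|H|` times the dimension of the fixed space -/
theorem sum_char_subgroup {n : ℕ} (ρ : Representation ℂ G (Fin n → ℂ)) (H : Subgroup G) :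
    ∑ g : G, (if g ∈ H then ρ.character g else 0) =
      ((Module.finrank ℂ (Representation.invariants (ρ.comp H.subtype)) * Nat.card H : ℕ) : ℂ) := by
  haveI : Invertible (Fintype.card H : ℂ) :=
    invertibleOfNonzero (by exact_mod_cast Fintype.card_ne_zero)
  have h1 : ∑ g : G, (if g ∈ H then ρ.character g else 0) = ∑ h : H, ρ.character (h : G) := by
    rw [← Finset.sum_filter]
    exact Finset.sum_subtype (Finset.univ.filter (· ∈ H)) (by simp) _
  have h2 : ∑ h : H, ρ.character (h : G) =
      LinearMap.trace ℂ (Fin n → ℂ) (∑ h : H, (ρ.comp H.subtype) h) := by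
    rw [map_sum]
    rfl
  have h3 : ∑ h : H, (ρ.comp H.subtype) h =
      (Fintype.card H : ℂ) • Representation.averageMap (ρ.comp H.subtype) := by
    simp only [Representation.averageMap, GroupAlgebra.average, map_smul, map_sum,
      MonoidAlgebra.of_apply, Representation.asAlgebraHom_single_one, smul_smul]
    rw [mul_invOf_self, one_smul]
  rw [h1, h2, h3, map_smul, (Representation.isProj_averageMap (ρ.comp H.subtype)).trace,
    Nat.card_eq_fintype_card]
  push_cast
  rw [smul_eq_mul, mul_comm]

open scoped Classical in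
/-- PIECE FIXA -/
theorem fix_le (φ : G → ℂ) (hφ : IsCharacter G φ) (H₁ H₂ : Subgroup G) (h : H₁ ≤ H₂) :
    ∃ m₁ m₂ : ℕ, m₂ ≤ m₁ ∧
      ∑ g : G, (if g ∈ H₁ then φ g else 0) = ((m₁ * Nat.card H₁ : ℕ) : ℂ) ∧
      ∑ g : G, (if g ∈ H₂ then φ g else 0) = ((m₂ * Nat.card H₂ : ℕ) : ℂ) := by
  obtain ⟨n, ρ, rfl⟩ := hφ
  refine ⟨Module.finrank ℂ (Representation.invariants (ρ.comp H₁.subtype)),
    Module.finrank ℂ (Representation.invariants (ρ.comp H₂.subtype)), ?_,
    sum_char_subgroup ρ H₁, sum_char_subgroup ρ H₂⟩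
  apply Submodule.finrank_mono
  intro v hv
  rw [Representation.mem_invariants] at hv ⊢
  intro g
  exact hv ⟨g, h g.2⟩

end

end Cfsg.Agent.Lib.Helper40.BFT
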