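import Mathlib
import Cfsg.Agent.Lib.Helper29.CharP
import Cfsg.Agent.Lib.Helper30.PType

/-! `F* = O_p` passes from `C_H(U)` to `H` for `U ≤ O_p(H)`, and the even-characteristic chain
(helper40). -/

set_option autoImplicit false
open scoped commutatorElement
open Cfsg
open Cfsg.Agent.Lib

namespace Cfsg.Agent.Lib.Helper40

universe u

/-- If `U ≤ O_p(H)` and `F*(C_H(U)) = O_p(C_H(U))` then `F*(H) = O_p(H)`. -/
theorem genFitting_eq_pCore_of_centralizer_subgroup {H : Type u} [Group H] [Finite H] (p : ℕ)
    [Fact p.Prime] {U : Subgroup H} (hU : U ≤ pCore p H)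
    (h : generalizedFittingSubgroup ↥(Subgroup.centralizer (U : Set H)) =
      pCore p ↥(Subgroup.centralizer (U : Set H))) :
    generalizedFittingSubgroup H = pCore p H := by
  rw [Helper30.genFitting_eq_pCore_iff_cores] at h ⊢
  obtain ⟨h1, h2⟩ := h
  constructor
  · have hWC : pPrimeCore p H ≤ Subgroup.centralizer (U : Set H) := by
      intro w hw
      rw [Subgroup.mem_centralizer_iff]
      intro x hx
      exact ((Helper30.pPrimeCore_commute_pCore p w hw x (hU hx)).eq).symm
    have hn := Helper30.pPrimeCore_normal p H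
    have hn' : ((pPrimeCore p H).subgroupOf (Subgroup.centralizer (U : Set H))).Normal :=
      inferInstance
    have hc : (Nat.card ((pPrimeCore p H).subgroupOf
        (Subgroup.centralizer (U : Set H)))).Coprime p := by
      rw [Nat.card_congr (Subgroup.subgroupOfEquivOfLe hWC).toEquiv]
      exact Helper30.pPrimeCore_coprime p
    have := Helper30.le_pPrimeCore_of_normal hn' hc
    rw [h1, le_bot_iff] at this
    exact Helper30.eq_bot_of_subgroupOf_eq_bot hWC this
  · rw [Helper30.layer_eq_bot_iff]
    intro K hK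
    have hKC : K ≤ Subgroup.centralizer (U : Set H) := by
      intro k hk
      rw [Subgroup.mem_centralizer_iff]
      intro x hx
      exact (Helper30.commute_of_commutator_eq_bot (Helper30.comp_commutator_fitting hK) k hk x
        (Helper30.pCore_le_fitting p (hU hx))).symm
    have := Helper30.comp_le_layer (Helper30.isComponent_subgroupOf hK hKC)
    rw [h2, le_bot_iff] at this
    exact Helper30.comp_ne_bot hK (Helper30.eq_bot_of_subgroupOf_eq_bot hKC this)

/-- If `F*(C_G(U)) = O_p(C_G(U))` for the `p`-subgroup `U` of `G`, then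
`F*(N_G(U)) = O_p(N_G(U))`. -/
theorem genFitting_eq_pCore_normalizer_of_centralizer {G : Type u} [Group G] [Finite G] (p : ℕ)
    [Fact p.Prime] (U : Subgroup G) (hU : IsPGroup p U)
    (h : generalizedFittingSubgroup ↥(Subgroup.centralizer (U : Set G)) =
      pCore p ↥(Subgroup.centralizer (U : Set G))) :
    generalizedFittingSubgroup ↥(Subgroup.normalizer (U : Set G)) =
      pCore p ↥(Subgroup.normalizer (U : Set G)) := by
  obtain ⟨N, hN⟩ : ∃ N : Subgroup G, N = Subgroup.normalizer (U : Set G) := ⟨_, rfl⟩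
  rw [← hN]
  have hUN : U ≤ N := hN ▸ Subgroup.le_normalizer
  have hU' : U.subgroupOf N ≤ pCore p ↥N :=
    Helper30.le_pCore_of_normal
      (Subgroup.normal_subgroupOf_of_le_normalizer (le_of_eq hN)) hU.comap_subtype
  apply genFitting_eq_pCore_of_centralizer_subgroup p hU'
  obtain ⟨D, hD⟩ : ∃ D : Subgroup ↥N, D =
      Subgroup.centralizer ((U.subgroupOf N : Subgroup ↥N) : Set ↥N) := ⟨_, rfl⟩
  rw [← hD]
  have hmap : D.map N.subtype = Subgroup.centralizer (U : Set G) := by
    ext g
    constructor
    · rintro ⟨d, hd, rfl⟩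
      rw [hD] at hd
      rw [Subgroup.mem_centralizer_iff]
      intro u hu
      have := Subgroup.mem_centralizer_iff.mp hd ⟨u, hUN hu⟩ (Subgroup.mem_subgroupOf.mpr hu)
      exact congrArg Subtype.val this
    · intro hg
      have hgN : g ∈ N := by
        rw [hN]
        exact Subgroup.centralizer_le_normalizer _ hg
      refine ⟨⟨g, hgN⟩, ?_, rfl⟩
      rw [hD, SetLike.mem_coe, Subgroup.mem_centralizer_iff]
      intro u hu
      exact Subtype.ext (Subgroup.mem_centralizer_iff.mp hg u (Subgroup.mem_subgroupOf.mp hu))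
  exact Helper30.genFitting_eq_pCore_of_mulEquiv p
    ((D.equivMapOfInjective N.subtype (Subgroup.subtype_injective _)).trans
      (MulEquiv.subgroupCongr hmap)).symm h

/-- **Even characteristic chain.** Let `M = N_G(⟨z⟩)` satisfy `C_M(O_p(M)) ≤ O_p(M)` and let `U`
be a `p`-subgroup containing `z`. Then `F*(N_G(U)) = O_p(N_G(U))`. -/
theorem genFitting_eq_pCore_normalizer_of_elt {G : Type u} [Group G] [Finite G] (p : ℕ)
    [Fact p.Prime] (U : Subgroup G) (hU : IsPGroup p U) {z : G} (hz : z ∈ U)
    (hM : Subgroup.centralizer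
        (pCore p ↥(Subgroup.normalizer ((Subgroup.zpowers z : Subgroup G) : Set G)) : Set _) ≤
      pCore p ↥(Subgroup.normalizer ((Subgroup.zpowers z : Subgroup G) : Set G))) :
    generalizedFittingSubgroup ↥(Subgroup.normalizer (U : Set G)) =
      pCore p ↥(Subgroup.normalizer (U : Set G)) := by
  obtain ⟨V, hV⟩ : ∃ V : Subgroup G, V = Subgroup.zpowers z := ⟨_, rfl⟩
  rw [← hV] at hM
  have hVU : V ≤ U := by
    rw [hV, Subgroup.zpowers_le]; exact hz
  obtain ⟨M, hMd⟩ : ∃ M : Subgroup G, M = Subgroup.normalizer (V : Set G) := ⟨_, rfl⟩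
  rw [← hMd] at hM
  have hMF : generalizedFittingSubgroup ↥M = pCore p ↥M :=
    (Helper30.genFitting_eq_pCore_iff_centralizer p).mpr hM
  obtain ⟨C, hC⟩ : ∃ C : Subgroup G, C = Subgroup.centralizer (V : Set G) := ⟨_, rfl⟩
  have hCM : C ≤ M := by
    rw [hC, hMd]; exact Subgroup.centralizer_le_normalizer _
  have hCn : (C.subgroupOf M).Normal := by
    refine (Subgroup.normal_subgroupOf_iff_le_normalizer hCM).mpr ?_
    rw [hC, hMd]
    exact Helper30.normalizer_le_normalizer_centralizer V
  have h1 := Helper29.genFitting_eq_pCore_of_subnormal p hCn.isSubnormal hMF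
  have h2 : generalizedFittingSubgroup ↥C = pCore p ↥C :=
    Helper30.genFitting_eq_pCore_of_mulEquiv p (Subgroup.subgroupOfEquivOfLe hCM) h1
  rw [hC] at h2
  have h3 := Helper29.charp_centralizer_of_le p U hU V hVU h2
  exact genFitting_eq_pCore_normalizer_of_centralizer p U hU h3

end Cfsg.Agent.Lib.Helper40
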