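import Mathlib
import Cfsg.Agent.Lib.Helper26.Gross2DefsC

/-! # S3795 piece TOWER (helper40): the second layer set-up -/

set_option autoImplicit false
set_option maxHeartbeats 1600000
set_option linter.unusedSectionVars false
open scoped commutatorElement

namespace Cfsg.Agent.Lib.Helper26.Gross2

open Cfsg.Agent.Lib.Helper26
open Cfsg.Agent.Lib.Helper94.GrossKPAut

universe u

private theorem tower_mem_of_coprime_pow {Γ : Type u} [Group Γ] (S : Subgroup Γ) (x : Γ)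
    (a b : ℕ) (hab : Nat.Coprime a b) (ha : x ^ a ∈ S) (hb : x ^ b = 1) : x ∈ S := by
  have h1 : (1 : ℤ) = a * Nat.gcdA a b + b * Nat.gcdB a b := by
    have h2 := Nat.gcd_eq_gcd_ab a b
    rw [Nat.Coprime.gcd_eq_one hab] at h2
    exact_mod_cast h2
  have h2 : x = (x ^ a) ^ (Nat.gcdA a b) * (x ^ b) ^ (Nat.gcdB a b) := by
    rw [← zpow_natCast x a, ← zpow_natCast x b, ← zpow_mul, ← zpow_mul, ← zpow_add, ← h1,
      zpow_one]
  rw [h2, hb, one_zpow, mul_one]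
  exact S.zpow_mem ha _

/-- an element centralising `Q` acts trivially on the additive maps -/
private theorem tower_lam_eq_one {Γ : Type u} [Group Γ] (Q : Subgroup Γ) (k : Type) [Field k]
    (g : ↥(Subgroup.normalizer (Q : Set Γ))) (hg : ∀ x ∈ Q, (g : Γ) * x = x * (g : Γ)) :
    lam Q k g = 1 := by
  apply Units.ext
  apply LinearMap.ext
  intro f
  apply Subtype.ext
  funext x
  rw [lam_apply]
  have e : ((conjQ Q g)⁻¹ : MulAut ↥Q) x = x := by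
    apply Subtype.ext
    rw [conjQ_inv_apply, mul_assoc, ← hg x x.2, inv_mul_cancel_left]
  rw [e]
  rfl

private theorem tower_of_lam_eq_one {Γ : Type u} [Group Γ] (Q : Subgroup Γ) (k : Type)
    [Field k] (g : ↥(Subgroup.normalizer (Q : Set Γ))) (h : lam Q k g = 1)
    (f : ↥(addMaps ↥Q k)) (x : ↥Q) :
    f.1 (((conjQ Q g)⁻¹ : MulAut ↥Q) x) = f.1 x := by
  rw [← lam_apply, h]
  rfl

/-- an element of `Q` killed by all additive maps is central -/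
private theorem tower_central {Γ : Type u} [Group Γ] (q : ℕ) [Fact q.Prime] (Q : Subgroup Γ)
    (h1 : ∀ x ∈ Q, ∀ y ∈ Q, ∀ w ∈ Q, ⁅x, y⁆ * w = w * ⁅x, y⁆)
    (h2 : ∀ x ∈ Q, ∀ w ∈ Q, x ^ q * w = w * x ^ q)
    (k : Type) [Field k] [Algebra (ZMod q) k] (w : ↥Q)
    (hw : ∀ f : ↥(addMaps ↥Q k), f.1 w = 0) : ∀ v ∈ Q, (w : Γ) * v = v * (w : Γ) := by
  have hcen : ∀ z : ↥Q, z ∈ Subgroup.center ↥Q ↔ ∀ v ∈ Q, (z : Γ) * v = v * (z : Γ) := by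
    intro z
    rw [Subgroup.mem_center_iff]
    constructor
    · intro h v hv
      have h3 := h ⟨v, hv⟩
      exact (congrArg Subtype.val h3).symm
    · intro h v
      apply Subtype.ext
      exact (h v v.2).symm
  rw [← hcen]
  by_contra hne
  have hcomm : ∀ a b : ↥Q ⧸ Subgroup.center ↥Q, a * b = b * a := by
    intro a b
    obtain ⟨x, rfl⟩ := QuotientGroup.mk_surjective a
    obtain ⟨y, rfl⟩ := QuotientGroup.mk_surjective b
    rw [← QuotientGroup.mk_mul, ← QuotientGroup.mk_mul, QuotientGroup.eq, hcen]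
    intro v hv
    have e : (((x * y)⁻¹ * (y * x) : ↥Q) : Γ) = ⁅(y : Γ)⁻¹, (x : Γ)⁻¹⁆ := by
      simp only [Subgroup.coe_mul, Subgroup.coe_inv, commutatorElement_def]
      group
    rw [e]
    exact h1 _ (Q.inv_mem y.2) _ (Q.inv_mem x.2) v hv
  have hexp : ∀ a : ↥Q ⧸ Subgroup.center ↥Q, a ^ q = 1 := by
    intro a
    obtain ⟨x, rfl⟩ := QuotientGroup.mk_surjective a
    rw [← QuotientGroup.mk_pow, QuotientGroup.eq_one_iff, hcen]
    intro v hv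
    rw [Subgroup.coe_pow]
    exact h2 _ x.2 v hv
  have hne' : (QuotientGroup.mk w : ↥Q ⧸ Subgroup.center ↥Q) ≠ 1 := by
    rw [Ne, QuotientGroup.eq_one_iff]
    exact hne
  obtain ⟨g, hg⟩ := exists_addMap_ne_zero (k := k) hcomm q hexp _ hne'
  apply hg
  exact hw ⟨fun x => g.1 (QuotientGroup.mk x), fun x y => by
    show g.1 (QuotientGroup.mk (x * y)) = _
    rw [QuotientGroup.mk_mul]
    exact g.2 _ _⟩

/-- the kernel lemma -/
private theorem tower_kernel {Γ : Type u} [Group Γ] (q s : ℕ) [Fact q.Prime] (hs : s.Prime)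
    (hqs : q ≠ s) (Q S : Subgroup Γ) (hQ : IsPGroup q Q) (hS : IsPGroup s S)
    (h1 : ∀ x ∈ Q, ∀ y ∈ Q, ∀ w ∈ Q, ⁅x, y⁆ * w = w * ⁅x, y⁆)
    (h2 : ∀ x ∈ Q, ∀ w ∈ Q, x ^ q * w = w * x ^ q)
    (h5 : ∀ y ∈ S, ∀ z ∈ Q, (∀ w ∈ Q, z * w = w * z) → y * z = z * y)
    (k : Type) [Field k] [Algebra (ZMod q) k]
    (g : ↥(Subgroup.normalizer (Q : Set Γ))) (hgS : (g : Γ) ∈ S) (hΛ : lam Q k g = 1) :
    ∀ x ∈ Q, (g : Γ) * x = x * (g : Γ) := by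
  intro x hx
  obtain ⟨y, hy⟩ : ∃ y : Γ, y = (g : Γ) := ⟨_, rfl⟩
  rw [← hy] at hgS ⊢
  obtain ⟨w, hwdef⟩ : ∃ w : ↥Q, w = (⟨x, hx⟩ : ↥Q)⁻¹ * ((conjQ Q g)⁻¹ : MulAut ↥Q) ⟨x, hx⟩ :=
    ⟨_, rfl⟩
  have hwf : ∀ f : ↥(addMaps ↥Q k), f.1 w = 0 := by
    intro f
    rw [hwdef, addMaps_mul, addMaps_inv, tower_of_lam_eq_one Q k g hΛ f ⟨x, hx⟩, neg_add_cancel]
  have hwc := tower_central q Q h1 h2 k w hwf
  obtain ⟨z, hz⟩ : ∃ z : Γ, z = x⁻¹ * (y⁻¹ * x * y) := ⟨_, rfl⟩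
  have hwval : (w : Γ) = z := by
    rw [hwdef, hz, hy]
    rfl
  have hzQ : z ∈ Q := by
    rw [← hwval]
    exact w.2
  have hzc : ∀ v ∈ Q, z * v = v * z := by
    rw [← hwval]
    exact hwc
  have hyz : y * z = z * y := h5 y hgS z hzQ hzc
  have hconj : y⁻¹ * x * y = x * z := by
    rw [hz]
    group
  have hpow : ∀ i : ℕ, (y ^ i)⁻¹ * x * y ^ i = x * z ^ i := by
    intro i
    induction i with
    | zero => simp
    | succ i ih =>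
      have hyzi : y⁻¹ * z ^ i * y = z ^ i := by
        have hc : Commute y (z ^ i) := Commute.pow_right hyz i
        rw [mul_assoc, ← hc.eq, inv_mul_cancel_left]
      calc (y ^ (i + 1))⁻¹ * x * y ^ (i + 1) = y⁻¹ * ((y ^ i)⁻¹ * x * y ^ i) * y := by
            rw [pow_succ]
            group
        _ = y⁻¹ * (x * z ^ i) * y := by rw [ih]
        _ = (y⁻¹ * x * y) * (y⁻¹ * z ^ i * y) := by group
        _ = x * z * z ^ i := by rw [hconj, hyzi]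
        _ = x * z ^ (i + 1) := by
            rw [pow_succ']
            group
  obtain ⟨j, hj⟩ := hS ⟨y, hgS⟩
  have hj' : y ^ (s ^ j) = 1 := by
    have h3 := congrArg Subtype.val hj
    simpa using h3
  have hzs : z ^ (s ^ j) = 1 := by
    have h3 := hpow (s ^ j)
    rw [hj'] at h3
    simpa using h3
  obtain ⟨m, hm⟩ := hQ ⟨z, hzQ⟩
  have hm' : z ^ (q ^ m) = 1 := by
    have h3 := congrArg Subtype.val hm
    simpa using h3
  have hz1 : z = 1 := by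
    have hq : q.Prime := Fact.out
    have hcop : Nat.Coprime (q ^ m) (s ^ j) :=
      Nat.Coprime.pow _ _ ((Nat.coprime_primes hq hs).mpr hqs)
    have h3 := tower_mem_of_coprime_pow ⊥ z (q ^ m) (s ^ j) hcop
      (by rw [hm']; exact Subgroup.one_mem _) hzs
    exact Subgroup.mem_bot.mp h3
  rw [hz1, mul_one] at hconj
  calc y * x = y * (y⁻¹ * x * y) := by rw [hconj]
    _ = x * y := by group

/-- the Lang map of a fixed-point-free element on a finite invariant subgroup is onto -/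
private theorem tower_lang {Γ : Type u} [Group Γ] (C : Subgroup Γ) [Finite C] (φ : Γ)
    (hnorm : ∀ c ∈ C, φ * c * φ⁻¹ ∈ C) (hfix : ∀ c ∈ C, φ * c = c * φ → c = 1) :
    ∀ d ∈ C, ∃ c ∈ C, c⁻¹ * (φ * c * φ⁻¹) = d := by
  have hinj : Function.Injective (fun c : ↥C =>
      (⟨(c : Γ)⁻¹ * (φ * c * φ⁻¹), C.mul_mem (C.inv_mem c.2) (hnorm c c.2)⟩ : ↥C)) := by
    intro c c' h
    have h' : (c : Γ)⁻¹ * (φ * c * φ⁻¹) = (c' : Γ)⁻¹ * (φ * c' * φ⁻¹) := congrArg Subtype.val h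
    have he : φ * ((c' : Γ) * (c : Γ)⁻¹) = ((c' : Γ) * (c : Γ)⁻¹) * φ := by
      calc φ * ((c' : Γ) * (c : Γ)⁻¹)
          = (c' : Γ) * ((c' : Γ)⁻¹ * (φ * c' * φ⁻¹)) * φ * (c : Γ)⁻¹ := by group
        _ = (c' : Γ) * ((c : Γ)⁻¹ * (φ * c * φ⁻¹)) * φ * (c : Γ)⁻¹ := by rw [h']
        _ = ((c' : Γ) * (c : Γ)⁻¹) * φ := by group
    have h1 := hfix _ (C.mul_mem c'.2 (C.inv_mem c.2)) he
    apply Subtype.ext
    exact (mul_inv_eq_one.mp h1).symm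
  have hsurj := Finite.injective_iff_surjective.mp hinj
  intro d hd
  obtain ⟨c, hc⟩ := hsurj ⟨d, hd⟩
  exact ⟨c, c.2, congrArg Subtype.val hc⟩

/-- PIECE TOWER -/
theorem gross2_tower : TowerStmt.{u} := by
  intro Γ _ q s n Q S φ hT h1 h2 h4 h5 k _ _ _ _ hφN hSN
  have tow := hT.tow
  haveI := tow.hfinQ
  haveI := tow.hfinS
  have hK1 : ∀ g : ↥(Subgroup.normalizer (Q : Set Γ)), (g : Γ) ∈ S → lam Q k g = 1 →
      ∀ x ∈ Q, (g : Γ) * x = x * (g : Γ) :=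
    fun g hg hΛ => tower_kernel q s tow.hs tow.hqs Q S tow.hQ tow.hS h1 h2 h5 k g hg hΛ
  have hK2 : ∀ g : ↥(Subgroup.normalizer (Q : Set Γ)),
      (∀ x ∈ Q, (g : Γ) * x = x * (g : Γ)) → lam Q k g = 1 :=
    fun g hg => tower_lam_eq_one Q k g hg
  have hψS : ∀ y ∈ S, φ ^ 2 ^ n * y * (φ ^ 2 ^ n)⁻¹ ∈ S :=
    gross_pow_conj_mem S tow.hnormS (2 ^ n)
  refine ⟨⟨Nat.prime_two, tow.hs, tow.hs2, ?_, ?_, ?_, ?_, ?_, ?_, ?_⟩, ?_, ?_⟩
  · -- finiteness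
    haveI : Finite ↥(S.subgroupOf (Subgroup.normalizer (Q : Set Γ))) :=
      Finite.of_injective
        (fun g : ↥(S.subgroupOf (Subgroup.normalizer (Q : Set Γ))) =>
          (⟨((g : ↥(Subgroup.normalizer (Q : Set Γ))) : Γ), Subgroup.mem_subgroupOf.mp g.2⟩ : ↥S))
        (by
          intro a b h
          apply Subtype.ext
          apply Subtype.ext
          exact congrArg (fun z : ↥S => (z : Γ)) h)
    exact Finite.of_surjective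
      (fun g : ↥(S.subgroupOf (Subgroup.normalizer (Q : Set Γ))) =>
        (⟨lam Q k g, Subgroup.mem_map_of_mem _ g.2⟩ :
          ↥((S.subgroupOf (Subgroup.normalizer (Q : Set Γ))).map (lam Q k))))
      (by
        rintro ⟨x, hx⟩
        obtain ⟨g, hg, rfl⟩ := Subgroup.mem_map.mp hx
        exact ⟨⟨g, hg⟩, rfl⟩)
  · -- `s`-group
    exact (tow.hS.comap_subtype (K := Subgroup.normalizer (Q : Set Γ))).map (lam Q k)
  · -- order of `φ`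
    rw [← map_pow]
    have e : (⟨φ, hφN⟩ : ↥(Subgroup.normalizer (Q : Set Γ))) ^ 2 ^ (n + 1) = 1 := by
      apply Subtype.ext
      rw [Subgroup.coe_pow]
      exact tow.hφ
    rw [e, map_one]
  · -- `φ` normalises
    rintro x ⟨g, hg, rfl⟩
    refine ⟨⟨φ, hφN⟩ * g * (⟨φ, hφN⟩ : ↥(Subgroup.normalizer (Q : Set Γ)))⁻¹, ?_, ?_⟩
    · exact tow.hnormS _ (Subgroup.mem_subgroupOf.mp hg)
    · rw [map_mul, map_mul, map_inv]
  · -- fixed points of `φ`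
    rintro x ⟨g, hg, rfl⟩ hcomm
    have hgS : (g : Γ) ∈ S := Subgroup.mem_subgroupOf.mp hg
    obtain ⟨c₀, hc₀⟩ : ∃ c₀ : ↥(Subgroup.normalizer (Q : Set Γ)),
        c₀ = g⁻¹ * (⟨φ, hφN⟩ * g * (⟨φ, hφN⟩ : ↥(Subgroup.normalizer (Q : Set Γ)))⁻¹) :=
      ⟨_, rfl⟩
    have hc₀Λ : lam Q k c₀ = 1 := by
      rw [hc₀, map_mul, map_mul, map_mul, map_inv, map_inv, hcomm]
      group
    have hc₀val : (c₀ : Γ) = (g : Γ)⁻¹ * (φ * (g : Γ) * φ⁻¹) := by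
      rw [hc₀]
      rfl
    have hc₀S : (c₀ : Γ) ∈ S := by
      rw [hc₀val]
      exact S.mul_mem (S.inv_mem hgS) (tow.hnormS _ hgS)
    have hc₀Q := hK1 c₀ hc₀S hc₀Λ
    -- the subgroup `C = S ⊓ C(Q)`
    haveI : Finite ↥(S ⊓ Subgroup.centralizer (Q : Set Γ)) :=
      Finite.of_injective (Subgroup.inclusion (inf_le_left : S ⊓ Subgroup.centralizer (Q : Set Γ) ≤ S))
        (Subgroup.inclusion_injective _)
    have hCnorm : ∀ c ∈ S ⊓ Subgroup.centralizer (Q : Set Γ),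
        φ * c * φ⁻¹ ∈ S ⊓ Subgroup.centralizer (Q : Set Γ) := by
      intro c hc
      obtain ⟨hcS, hcC⟩ := Subgroup.mem_inf.mp hc
      refine Subgroup.mem_inf.mpr ⟨tow.hnormS c hcS, ?_⟩
      rw [Subgroup.mem_centralizer_iff]
      intro x hx
      have hx' : φ⁻¹ * x * φ ∈ Q := (Subgroup.mem_normalizer_iff''.mp hφN x).mp hx
      have e := Subgroup.mem_centralizer_iff.mp hcC _ hx'
      calc x * (φ * c * φ⁻¹) = φ * ((φ⁻¹ * x * φ) * c) * φ⁻¹ := by group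
        _ = φ * (c * (φ⁻¹ * x * φ)) * φ⁻¹ := by rw [e]
        _ = φ * c * φ⁻¹ * x := by group
    have hCfix : ∀ c ∈ S ⊓ Subgroup.centralizer (Q : Set Γ), φ * c = c * φ → c = 1 :=
      fun c hc => tow.hCS c (Subgroup.mem_inf.mp hc).1
    have hc₀C : (c₀ : Γ) ∈ S ⊓ Subgroup.centralizer (Q : Set Γ) := by
      refine Subgroup.mem_inf.mpr ⟨hc₀S, ?_⟩
      rw [Subgroup.mem_centralizer_iff]
      intro x hx
      exact (hc₀Q x hx).symm
    obtain ⟨c₁, hc₁C, hc₁⟩ := tower_lang _ φ hCnorm hCfix _ hc₀C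
    obtain ⟨hc₁S, hc₁Q⟩ := Subgroup.mem_inf.mp hc₁C
    rw [hc₀val] at hc₁
    have he : φ * ((g : Γ) * c₁⁻¹) = ((g : Γ) * c₁⁻¹) * φ := by
      calc φ * ((g : Γ) * c₁⁻¹)
          = (g : Γ) * ((g : Γ)⁻¹ * (φ * (g : Γ) * φ⁻¹)) * φ * c₁⁻¹ := by group
        _ = (g : Γ) * (c₁⁻¹ * (φ * c₁ * φ⁻¹)) * φ * c₁⁻¹ := by rw [hc₁]
        _ = ((g : Γ) * c₁⁻¹) * φ := by group
    have hg1 := tow.hCS _ (S.mul_mem hgS (S.inv_mem hc₁S)) he
    have hgc : (g : Γ) = c₁ := mul_inv_eq_one.mp hg1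
    apply hK2
    intro x hx
    rw [hgc]
    exact (Subgroup.mem_centralizer_iff.mp hc₁Q x hx).symm
  · -- proper invariant subgroups
    intro Q₀ hQ₀le hQ₀ne hQ₀φ x hx
    obtain ⟨S₀, hS₀def⟩ : ∃ S₀ : Subgroup Γ, S₀ =
        (S.subgroupOf (Subgroup.normalizer (Q : Set Γ)) ⊓ Q₀.comap (lam Q k)).map
          (Subgroup.normalizer (Q : Set Γ)).subtype := ⟨_, rfl⟩
    have hS₀mem : ∀ y : Γ, y ∈ S₀ ↔ ∃ g : ↥(Subgroup.normalizer (Q : Set Γ)),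
        ((g : Γ) ∈ S ∧ lam Q k g ∈ Q₀) ∧ (g : Γ) = y := by
      intro y
      rw [hS₀def, Subgroup.mem_map]
      constructor
      · rintro ⟨g, hg, rfl⟩
        obtain ⟨hg1, hg2⟩ := Subgroup.mem_inf.mp hg
        exact ⟨g, ⟨Subgroup.mem_subgroupOf.mp hg1, Subgroup.mem_comap.mp hg2⟩, rfl⟩
      · rintro ⟨g, ⟨hg1, hg2⟩, rfl⟩
        exact ⟨g, Subgroup.mem_inf.mpr ⟨Subgroup.mem_subgroupOf.mpr hg1,
          Subgroup.mem_comap.mpr hg2⟩, rfl⟩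
    have hS₀S : S₀ ≤ S := by
      intro y hy
      obtain ⟨g, ⟨hg1, -⟩, rfl⟩ := (hS₀mem y).mp hy
      exact hg1
    have hS₀ne : S₀ ≠ S := by
      intro heq
      apply hQ₀ne
      apply le_antisymm hQ₀le
      rintro x ⟨g, hg, rfl⟩
      have hgS₀ : (g : Γ) ∈ S₀ := by
        rw [heq]
        exact Subgroup.mem_subgroupOf.mp hg
      obtain ⟨g₂, ⟨-, hg₂⟩, e⟩ := (hS₀mem _).mp hgS₀
      have e' : g₂ = g := Subtype.ext e
      rw [← e']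
      exact hg₂
    have hS₀φ : ∀ y ∈ S₀, φ * y * φ⁻¹ ∈ S₀ := by
      intro y hy
      obtain ⟨g, ⟨hg1, hg2⟩, rfl⟩ := (hS₀mem y).mp hy
      rw [hS₀mem]
      refine ⟨⟨φ, hφN⟩ * g * (⟨φ, hφN⟩ : ↥(Subgroup.normalizer (Q : Set Γ)))⁻¹,
        ⟨tow.hnormS _ hg1, ?_⟩, rfl⟩
      rw [map_mul, map_mul, map_inv]
      exact hQ₀φ _ hg2
    have hδ := hT.hsubS S₀ hS₀S hS₀ne hS₀φ
    obtain ⟨g, hg, rfl⟩ := hQ₀le hx
    have hgS : (g : Γ) ∈ S := Subgroup.mem_subgroupOf.mp hg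
    have hgS₀ : (g : Γ) ∈ S₀ := (hS₀mem _).mpr ⟨g, ⟨hgS, hx⟩, rfl⟩
    have hδg := hδ (g : Γ) hgS₀
    obtain ⟨d, hd⟩ : ∃ d : ↥(Subgroup.normalizer (Q : Set Γ)),
        d = g⁻¹ * ((⟨φ, hφN⟩ : ↥(Subgroup.normalizer (Q : Set Γ))) ^ 2 ^ n * g *
          ((⟨φ, hφN⟩ : ↥(Subgroup.normalizer (Q : Set Γ))) ^ 2 ^ n)⁻¹) := ⟨_, rfl⟩
    have hdval : (d : Γ) = (g : Γ)⁻¹ * (φ ^ 2 ^ n * (g : Γ) * (φ ^ 2 ^ n)⁻¹) := by
      rw [hd]
      rfl
    have hdΛ : lam Q k d = 1 := by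
      apply hK2
      intro x hx
      rw [hdval]
      exact hδg x hx
    rw [hd] at hdΛ
    simp only [map_mul, map_inv, map_pow] at hdΛ
    have h3 := inv_mul_eq_one.mp hdΛ
    calc lam Q k ⟨φ, hφN⟩ ^ 2 ^ n * lam Q k g
        = (lam Q k ⟨φ, hφN⟩ ^ 2 ^ n * lam Q k g * (lam Q k ⟨φ, hφN⟩ ^ 2 ^ n)⁻¹) *
            lam Q k ⟨φ, hφN⟩ ^ 2 ^ n := by group
      _ = lam Q k g * lam Q k ⟨φ, hφN⟩ ^ 2 ^ n := by rw [← h3]
  · -- `ψ` does not centralise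
    intro hall
    apply hT.hnot
    intro y hy x hx
    obtain ⟨g, hgdef⟩ : ∃ g : ↥(Subgroup.normalizer (Q : Set Γ)), g = ⟨y, hSN hy⟩ := ⟨_, rfl⟩
    have hgval : (g : Γ) = y := by
      rw [hgdef]
    have hgS' : g ∈ S.subgroupOf (Subgroup.normalizer (Q : Set Γ)) := by
      rw [Subgroup.mem_subgroupOf, hgval]
      exact hy
    have hcomm := hall (lam Q k g) (Subgroup.mem_map_of_mem _ hgS')
    obtain ⟨d, hd⟩ : ∃ d : ↥(Subgroup.normalizer (Q : Set Γ)),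
        d = g⁻¹ * ((⟨φ, hφN⟩ : ↥(Subgroup.normalizer (Q : Set Γ))) ^ 2 ^ n * g *
          ((⟨φ, hφN⟩ : ↥(Subgroup.normalizer (Q : Set Γ))) ^ 2 ^ n)⁻¹) := ⟨_, rfl⟩
    have hdval : (d : Γ) = y⁻¹ * (φ ^ 2 ^ n * y * (φ ^ 2 ^ n)⁻¹) := by
      rw [hd, ← hgval]
      rfl
    have hdΛ : lam Q k d = 1 := by
      rw [hd]
      simp only [map_mul, map_inv, map_pow]
      rw [hcomm]
      group
    have hdS : (d : Γ) ∈ S := by
      rw [hdval]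
      exact S.mul_mem (S.inv_mem hy) (hψS y hy)
    have h3 := hK1 d hdS hdΛ x hx
    rw [hdval] at h3
    exact h3
  · -- no fixed functionals for `φ`
    intro f hf
    have hfix : ∀ x : ↥Q, f.1 (((conjQ Q ⟨φ, hφN⟩)⁻¹ : MulAut ↥Q) x) = f.1 x := by
      intro x
      rw [← lam_apply, hf]
    have hnorm' : ∀ c ∈ Q, φ⁻¹ * c * φ⁻¹⁻¹ ∈ Q := by
      intro c hc
      rw [inv_inv]
      exact (Subgroup.mem_normalizer_iff''.mp hφN c).mp hc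
    have hfix' : ∀ c ∈ Q, φ⁻¹ * c = c * φ⁻¹ → c = 1 := by
      intro c hc h
      apply tow.hCQ c hc
      calc φ * c = φ * (c * φ⁻¹) * φ := by group
        _ = φ * (φ⁻¹ * c) * φ := by rw [h]
        _ = c * φ := by group
    apply Subtype.ext
    funext x
    obtain ⟨c, hc, hcx⟩ := tower_lang Q φ⁻¹ hnorm' hfix' x x.2
    have e : x = (⟨c, hc⟩ : ↥Q)⁻¹ * ((conjQ Q ⟨φ, hφN⟩)⁻¹ : MulAut ↥Q) ⟨c, hc⟩ := by
      apply Subtype.ext
      rw [Subgroup.coe_mul, Subgroup.coe_inv, conjQ_inv_apply, ← hcx, inv_inv]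
    show f.1 x = 0
    rw [e, addMaps_mul, addMaps_inv, hfix, neg_add_cancel]
  · -- no fixed functionals for `S`
    intro f hf
    have hfix : ∀ (y : Γ) (hy : y ∈ S) (u : ↥Q),
        f.1 (((conjQ Q ⟨y, hSN hy⟩)⁻¹ : MulAut ↥Q) u) = f.1 u := by
      intro y hy u
      rw [← lam_apply, hf y hy]
    let K₀ : Subgroup Γ :=
      { carrier := {x | ∃ hx : x ∈ Q, f.1 ⟨x, hx⟩ = 0}
        one_mem' := ⟨Q.one_mem, addMaps_one f⟩
        mul_mem' := by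
          rintro a b ⟨ha, ha0⟩ ⟨hb, hb0⟩
          refine ⟨Q.mul_mem ha hb, ?_⟩
          have e : (⟨a * b, Q.mul_mem ha hb⟩ : ↥Q) = ⟨a, ha⟩ * ⟨b, hb⟩ := rfl
          rw [e, addMaps_mul, ha0, hb0, add_zero]
        inv_mem' := by
          rintro a ⟨ha, ha0⟩
          refine ⟨Q.inv_mem ha, ?_⟩
          have e : (⟨a⁻¹, Q.inv_mem ha⟩ : ↥Q) = (⟨a, ha⟩ : ↥Q)⁻¹ := rfl
          rw [e, addMaps_inv, ha0, neg_zero] }
    have hgen : Subgroup.closure {c | ∃ u ∈ Q, ∃ y ∈ S, u⁻¹ * (y * u * y⁻¹) = c} ≤ K₀ := by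
      rw [Subgroup.closure_le]
      rintro c ⟨u, hu, y, hy, rfl⟩
      have hmem : u⁻¹ * (y * u * y⁻¹) ∈ Q := Q.mul_mem (Q.inv_mem hu) (tow.hSQ y hy u hu)
      refine ⟨hmem, ?_⟩
      have e : (⟨u⁻¹ * (y * u * y⁻¹), hmem⟩ : ↥Q) =
          (⟨u, hu⟩ : ↥Q)⁻¹ * ((conjQ Q ⟨y⁻¹, hSN (S.inv_mem hy)⟩)⁻¹ : MulAut ↥Q) ⟨u, hu⟩ := by
        apply Subtype.ext
        rw [Subgroup.coe_mul, Subgroup.coe_inv, conjQ_inv_apply]
        simp
      rw [e, addMaps_mul, addMaps_inv, hfix y⁻¹ (S.inv_mem hy), neg_add_cancel]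
    apply Subtype.ext
    funext x
    obtain ⟨hx, hx0⟩ := hgen (h4 x x.2)
    exact hx0

end Cfsg.Agent.Lib.Helper26.Gross2
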