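import Cfsg.Agent.Lib.Helper98.H74Defs
import Cfsg.Agent.Lib.Helper77.H74HYPTYP

/-!
# Project H74 (S5974), piece CSQ (third copy): isometries with `g² = -1`, `-1` a square
-/

set_option autoImplicit false

namespace Cfsg.Agent.Lib.Helper98.H74

open Cfsg.Agent.Lib.Helper47 Cfsg.Agent.Lib.Helper98.T73 Module Polynomial

universe u

variable {F : Type u} [Field F] [Fintype F] {V : Type u} [AddCommGroup V] [Module F V]
  [FiniteDimensional F V] {Q : V → F} {B : V → V → F}

/-- the eigenspace of `g` for `c` -/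
def csqc_eig (g : Module.End F V) (c : F) : Submodule F V :=
  LinearMap.ker (g - c • (1 : Module.End F V))

omit [Fintype F] [FiniteDimensional F V] in
theorem csqc_mem_eig (g : Module.End F V) (c : F) (v : V) :
    v ∈ csqc_eig g c ↔ g v = c • v := by
  unfold csqc_eig
  rw [LinearMap.mem_ker, LinearMap.sub_apply, LinearMap.smul_apply, Module.End.one_apply,
    sub_eq_zero]

omit [Fintype F] [FiniteDimensional F V] in
theorem csqc_sing (h2 : (2 : F) ≠ 0) (hQ : IsQuad Q B) (g : Module.End F V) (hgQ : QI Q g)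
    (c : F) (hc : c * c = -1) (v : V) (hv : g v = c • v) : Q v = 0 := by
  have h1 := hgQ v
  rw [hv, hQ.smul] at h1
  have h3 : (2 : F) * Q v = 0 := by linear_combination (-1 : F) * h1 + Q v * hc
  rcases mul_eq_zero.mp h3 with h | h
  · exact absurd h h2
  · exact h

omit [Fintype F] [FiniteDimensional F V] in
theorem csqc_iso (h2 : (2 : F) ≠ 0) (hQ : IsQuad Q B) (g : Module.End F V) (hgQ : QI Q g)
    (c : F) (hc : c * c = -1) (x y : V) (hx : g x = c • x) (hy : g y = c • y) : B x y = 0 := by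
  have hxy : g (x + y) = c • (x + y) := by rw [map_add, hx, hy, smul_add]
  have h1 := csqc_sing h2 hQ g hgQ c hc (x + y) hxy
  rw [hQ.polar, csqc_sing h2 hQ g hgQ c hc x hx, csqc_sing h2 hQ g hgQ c hc y hy] at h1
  linear_combination h1

omit [Fintype F] [FiniteDimensional F V] in
theorem csqc_proj (g : Module.End F V) (hg : g * g = -1) (c : F) (hc : c * c = -1) (v : V) :
    g (g v + c • v) = c • (g v + c • v) := by
  have hgg : g (g v) = -v := by
    have := congrArg (fun T : Module.End F V => T v) hg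
    simpa using this
  rw [map_add, map_smul, hgg, smul_add, smul_smul, hc, neg_one_smul]
  abel

/-- CSQ -/
theorem cpx_fix_sq (hf : QFacts F) (h2 : (2 : F) ≠ 0) (hsq : IsSquare (-1 : F))
    (hQ : IsQuad Q B) (hnd : Nondeg B) (d : ℕ) (hdim : finrank F V = 2 * d) (p : ℕ)
    [Fact p.Prime] [CharP F p] (g : Module.End F V) (hgQ : QI Q g) (hg : g * g = -1) (k : ℕ)
    (hk : 2 * k + 2 < d) :
    ∃ W : Submodule F V, SubTyp Q B W k 1 ∧ W.map g ≤ W := by
  classical
  obtain ⟨ι, hι⟩ := hsq
  have hB := hQ.form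
  have hc1 : ι * ι = -1 := hι.symm
  have hc2 : (-ι) * (-ι) = -1 := by rw [neg_mul_neg]; exact hc1
  have hι0 : ι ≠ 0 := by
    rintro rfl
    simp at hc1
  -- the two eigenspaces are complementary
  have hdisj : csqc_eig g ι ⊓ csqc_eig g (-ι) = ⊥ := by
    rw [eq_bot_iff]
    intro v hv
    obtain ⟨h1, h2'⟩ := Submodule.mem_inf.mp hv
    rw [csqc_mem_eig] at h1 h2'
    rw [Submodule.mem_bot]
    have h3 : (2 * ι) • v = 0 := by
      have : ι • v = (-ι) • v := h1.symm.trans h2'
      rw [neg_smul] at this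
      rw [mul_smul, two_smul]
      nth_rewrite 1 [this]
      exact neg_add_cancel _
    rcases smul_eq_zero.mp h3 with h | h
    · exact absurd h (mul_ne_zero h2 hι0)
    · exact h
  have hsup : csqc_eig g ι ⊔ csqc_eig g (-ι) = ⊤ := by
    rw [eq_top_iff]
    intro v _
    have h1 : (2 * ι)⁻¹ • (g v + ι • v) ∈ csqc_eig g ι :=
      Submodule.smul_mem _ _ ((csqc_mem_eig g ι _).mpr (csqc_proj g hg ι hc1 v))
    have h2' : (2 * ι)⁻¹ • (g v + (-ι) • v) ∈ csqc_eig g (-ι) :=
      Submodule.smul_mem _ _ ((csqc_mem_eig g (-ι) _).mpr (csqc_proj g hg (-ι) hc2 v))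
    have hv : v = (2 * ι)⁻¹ • (g v + ι • v) - (2 * ι)⁻¹ • (g v + (-ι) • v) := by
      rw [← smul_sub]
      have : g v + ι • v - (g v + (-ι) • v) = (2 * ι) • v := by
        rw [neg_smul, mul_smul, two_smul]
        abel
      rw [this, smul_smul, inv_mul_cancel₀ (mul_ne_zero h2 hι0), one_smul]
    rw [hv]
    exact Submodule.sub_mem _ (Submodule.mem_sup_left h1) (Submodule.mem_sup_right h2')
  have hcompl : IsCompl (csqc_eig g ι) (csqc_eig g (-ι)) :=
    ⟨disjoint_iff.mpr hdisj, codisjoint_iff.mpr hsup⟩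
  have hTS1 : TS Q (csqc_eig g ι) := fun v hv =>
    csqc_sing h2 hQ g hgQ ι hc1 v ((csqc_mem_eig g ι v).mp hv)
  have hTS2 : TS Q (csqc_eig g (-ι)) := fun v hv =>
    csqc_sing h2 hQ g hgQ (-ι) hc2 v ((csqc_mem_eig g (-ι) v).mp hv)
  have hndT : Nondeg (resForm B (⊤ : Submodule F V)) := by
    intro x hx
    apply Subtype.ext
    exact hnd x.1 (fun y => hx ⟨y, Submodule.mem_top⟩)
  have hb1 := half_bound hQ ⊤ (csqc_eig g ι) hndT le_top hTS1
  have hb2 := half_bound hQ ⊤ (csqc_eig g (-ι)) hndT le_top hTS2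
  rw [finrank_top, hdim] at hb1 hb2
  have hadd := Submodule.finrank_add_eq_of_isCompl hcompl
  rw [hdim] at hadd
  have hd1 : finrank F (csqc_eig g ι) = d := by omega
  have hd2 : finrank F (csqc_eig g (-ι)) = d := by omega
  have hkd : k + 1 ≤ finrank F (csqc_eig g ι) := by omega
  -- a basis of the first eigenspace and dual vectors in the second
  obtain ⟨b⟩ : Nonempty (Basis (Fin (finrank F (csqc_eig g ι))) F (csqc_eig g ι)) :=
    ⟨Module.finBasis F _⟩
  have hcard : Nat.card (csqc_eig g ι) ≤ Nat.card (csqc_eig g (-ι)) := by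
    rw [Module.natCard_eq_pow_finrank (K := F) (V := csqc_eig g ι),
      Module.natCard_eq_pow_finrank (K := F) (V := csqc_eig g (-ι)), hd1, hd2]
  have hrep : ∀ j : Fin (k + 1), ∃ y : csqc_eig g (-ι), ∀ x : csqc_eig g ι,
      B (x : V) (y : V) = b.coord (Fin.castLE hkd j) x := by
    intro j
    refine exists_repr (F := F) (X := csqc_eig g ι) (Y := csqc_eig g (-ι))
      (fun x y => B (x : V) (y : V)) (fun x y y' => hB.add_right _ _ _)
      (fun y => ⟨fun x x' => hB.add_left _ _ _, fun c x => hB.smul_left _ _ _⟩) ?_ hcard _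
    intro y hy
    apply Subtype.ext
    apply hB.nondeg_right hnd
    intro x
    have hx : x ∈ csqc_eig g ι ⊔ csqc_eig g (-ι) := by rw [hsup]; exact Submodule.mem_top
    obtain ⟨x1, hx1, x2, hx2, rfl⟩ := Submodule.mem_sup.mp hx
    rw [hB.add_left, hy ⟨x1, hx1⟩,
      csqc_iso h2 hQ g hgQ (-ι) hc2 x2 y ((csqc_mem_eig g (-ι) x2).mp hx2)
        ((csqc_mem_eig g (-ι) y).mp y.2), add_zero]
  choose f hf' using hrep
  -- the two families
  obtain ⟨v, hv⟩ : ∃ v : Fin (k + 1) ⊕ Fin (k + 1) → V,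
      v = Sum.elim (fun i => (b (Fin.castLE hkd i) : V)) (fun i => (f i : V)) := ⟨_, rfl⟩
  obtain ⟨w, hw⟩ : ∃ w : Fin (k + 1) ⊕ Fin (k + 1) → V,
      w = Sum.elim (fun i => (f i : V)) (fun i => (b (Fin.castLE hkd i) : V)) := ⟨_, rfl⟩
  have hbf : ∀ i j : Fin (k + 1), B (b (Fin.castLE hkd i) : V) (f j : V)
      = if i = j then 1 else 0 := by
    intro i j
    rw [hf' j, Basis.coord_apply, Basis.repr_self_apply]
    by_cases hij : i = j
    · subst hij; simp
    · have : Fin.castLE hkd i ≠ Fin.castLE hkd j := fun h => hij (Fin.castLE_injective hkd h)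
      rw [if_neg this, if_neg hij]
  have hpair : ∀ a a', B (v a) (w a') = if a = a' then 1 else 0 := by
    intro a a'
    rw [hv, hw]
    rcases a with i | i <;> rcases a' with j | j
    · simp only [Sum.elim_inl, Sum.inl.injEq]
      exact hbf i j
    · simp only [Sum.elim_inl, Sum.elim_inr, reduceCtorEq, if_false]
      exact csqc_iso h2 hQ g hgQ ι hc1 _ _ ((csqc_mem_eig g ι _).mp (b _).2)
        ((csqc_mem_eig g ι _).mp (b _).2)
    · simp only [Sum.elim_inl, Sum.elim_inr, reduceCtorEq, if_false]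
      exact csqc_iso h2 hQ g hgQ (-ι) hc2 _ _ ((csqc_mem_eig g (-ι) _).mp (f _).2)
        ((csqc_mem_eig g (-ι) _).mp (f _).2)
    · simp only [Sum.elim_inr, Sum.inr.injEq]
      rw [sym_comm hB, hbf j i]
      by_cases hij : i = j
      · subst hij; simp
      · rw [if_neg hij, if_neg (fun h => hij h.symm)]
  have hcoef : ∀ (c : Fin (k + 1) ⊕ Fin (k + 1) → F) (a' : Fin (k + 1) ⊕ Fin (k + 1)),
      B (∑ a, c a • v a) (w a') = c a' := by
    intro c a'
    have h := map_sum (hB.lin (w a')) (fun a => c a • v a) Finset.univ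
    simp only [IsSForm.lin_apply] at h
    rw [h]
    have h' : ∀ a ∈ Finset.univ, B (c a • v a) (w a') = if a = a' then c a else 0 := by
      intro a _
      rw [hB.smul_left, hpair]
      by_cases haa : a = a'
      · rw [if_pos haa, if_pos haa, mul_one]
      · rw [if_neg haa, if_neg haa, mul_zero]
    rw [Finset.sum_congr rfl h', Finset.sum_ite_eq' Finset.univ a' c, if_pos (Finset.mem_univ _)]
  have hli : LinearIndependent F v := by
    rw [Fintype.linearIndependent_iff]
    intro c hc a'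
    have := hcoef c a'
    rw [hc, hB.zero_left] at this
    exact this.symm
  have hwmem : ∀ a, w a ∈ Submodule.span F (Set.range v) := by
    intro a
    apply Submodule.subset_span
    refine ⟨a.swap, ?_⟩
    rw [hv, hw]
    rcases a with i | i <;> rfl
  have hpol : ∀ x y : V, QuadraticMap.polar Q x y = B x y := by
    intro x y
    unfold QuadraticMap.polar
    rw [hQ.polar]
    ring
  have hvE : ∀ i : Fin (k + 1), g (v (Sum.inl i)) = ι • v (Sum.inl i) := by
    intro i
    rw [hv]
    exact (csqc_mem_eig g ι _).mp (b _).2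
  have hvE' : ∀ i : Fin (k + 1), g (v (Sum.inr i)) = (-ι) • v (Sum.inr i) := by
    intro i
    rw [hv]
    exact (csqc_mem_eig g (-ι) _).mp (f _).2
  refine ⟨Submodule.span F (Set.range v), (hyp_iff hf hQ p _ k).mp ⟨?_, ?_, ?_⟩, ?_⟩
  · rw [finrank_span_eq_card hli, Fintype.card_sum, Fintype.card_fin]
    omega
  · intro x hx hx0
    obtain ⟨c, rfl⟩ := (Submodule.mem_span_range_iff_exists_fun F).mp hx
    by_contra hall
    apply hx0
    have hc0 : ∀ a', c a' = 0 := by
      intro a'
      rw [← hcoef c a', ← hpol]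
      by_contra hne
      exact hall ⟨_, hwmem a', hne⟩
    simp [hc0]
  · refine ⟨Submodule.span F (Set.range (v ∘ Sum.inl)), ?_, ?_, ?_⟩
    · apply Submodule.span_mono
      exact Set.range_comp_subset_range _ _
    · rw [finrank_span_eq_card (hli.comp Sum.inl Sum.inl_injective), Fintype.card_fin]
      ring
    · have hle : Submodule.span F (Set.range (v ∘ Sum.inl)) ≤ csqc_eig g ι := by
        rw [Submodule.span_le]
        rintro _ ⟨i, rfl⟩
        exact (csqc_mem_eig g ι _).mpr (hvE i)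
      intro x hx
      exact hTS1 x (hle hx)
  · rw [Submodule.map_span_le]
    rintro _ ⟨a, rfl⟩
    rcases a with i | i
    · rw [hvE i]
      exact Submodule.smul_mem _ _ (Submodule.subset_span ⟨_, rfl⟩)
    · rw [hvE' i]
      exact Submodule.smul_mem _ _ (Submodule.subset_span ⟨_, rfl⟩)

end Cfsg.Agent.Lib.Helper98.H74
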