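import Mathlib
import Cfsg.Agent.Lib.Helper22.HPDefs
import Cfsg.Agent.Lib.Helper22.HPDefs2
import Cfsg.Agent.Lib.Helper63.HPVAN
import Cfsg.Agent.Lib.Helper16.HPDEC
import Cfsg.Agent.Lib.Helper31.HPETA
import Cfsg.Agent.Lib.Helper6.HPBUDGET
import Cfsg.Agent.Lib.Helper83.Linear
import Cfsg.Agent.Lib.Helper83.IrrBasic
import Cfsg.Agent.Lib.Helper4.CharDecomp
import Cfsg.Agent.Lib.Helper4.CharClosure
import Cfsg.Agent.Lib.Helper80.Twisted
import Cfsg.Agent.Lib.Helper87.HPSSZORTH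
import Cfsg.Agent.Lib.Helper82.CharCore

/-!
# S4504 (helper22 project), piece HP-STAR-MULT (helper40)

`Pi1 = χ χ̄` is multiplicity free on its non-trivial constituents: restriction to
`N = N_G(⟨z⟩)`, the linear characters `ψ ∘ κ` of `N` (`κ : N → (ZMod p)ˣ` the action on `⟨z⟩`),
and the vanishing of `χ` on `N ∖ C_G(z)`.

`mult_core` is the statement with the conclusion of piece LAN1 as a hypothesis.
-/

set_option autoImplicit false
set_option linter.style.haveILetI false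
set_option linter.unusedSectionVars false
set_option linter.unusedVariables false

namespace Cfsg.Agent.Lib.Helper40.HPT

open Cfsg Cfsg.Agent.Lib.Helper22.BFD Cfsg.Agent.Lib.Helper22.HPD
open scoped ComplexConjugate

universe u

section grp

variable {G : Type u} [Group G] {p : ℕ} [Fact p.Prime] {z : G}

theorem mult_pow_inj (hz : orderOf z = p) {a b : ZMod p} (h : z ^ a.val = z ^ b.val) :
    a = b := by
  have ha : a.val < orderOf z := hz ▸ ZMod.val_lt a
  have hb : b.val < orderOf z := hz ▸ ZMod.val_lt b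
  exact ZMod.val_injective p (pow_injOn_Iio_orderOf (Set.mem_Iio.2 ha) (Set.mem_Iio.2 hb) h)

theorem mult_z_ne_one (hz : orderOf z = p) : z ≠ 1 := by
  intro h
  rw [h, orderOf_one] at hz
  exact (Fact.out : p.Prime).one_lt.ne hz

theorem mult_pow_one (hz : orderOf z = p) : z ^ (1 : ZMod p).val = z := by
  haveI : Fact (1 < p) := ⟨(Fact.out : p.Prime).one_lt⟩
  rw [ZMod.val_one, pow_one]

theorem mult_exists_kappa (hz : orderOf z = p) (n : G)
    (hn : n ∈ Subgroup.normalizer ((Subgroup.zpowers z : Subgroup G) : Set G)) :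
    ∃ k : (ZMod p)ˣ, n * z * n⁻¹ = z ^ (k : ZMod p).val := by
  have hp : p.Prime := Fact.out
  haveI : NeZero p := ⟨hp.ne_zero⟩
  have h1 : n * z * n⁻¹ ∈ Subgroup.zpowers z :=
    (Subgroup.mem_normalizer_iff.mp hn z).mp (Subgroup.mem_zpowers z)
  obtain ⟨i, hi⟩ := Subgroup.mem_zpowers_iff.mp h1
  have h2 : z ^ ((i : ZMod p)).val = z ^ i := by
    rw [← zpow_natCast, ZMod.val_intCast, ← hz]
    exact zpow_mod_orderOf z i
  have h3 : (i : ZMod p) ≠ 0 := by
    intro h0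
    rw [h0, ZMod.val_zero, pow_zero] at h2
    rw [← h2] at hi
    apply mult_z_ne_one hz
    have h4 : n * z * n⁻¹ = 1 := hi.symm
    calc z = n⁻¹ * (n * z * n⁻¹) * n := by group
      _ = 1 := by rw [h4]; group
  exact ⟨Units.mk0 _ h3, by rw [Units.val_mk0, h2, hi]⟩

/-- the action of `N_G(⟨z⟩)` on `⟨z⟩`: `n z n⁻¹ = z ^ κ(n)` -/
noncomputable def multKap (hz : orderOf z = p)
    (n : ↥(Subgroup.normalizer ((Subgroup.zpowers z : Subgroup G) : Set G))) : (ZMod p)ˣ :=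
  Classical.choose (mult_exists_kappa hz n.1 n.2)

theorem multKap_spec (hz : orderOf z = p)
    (n : ↥(Subgroup.normalizer ((Subgroup.zpowers z : Subgroup G) : Set G))) :
    (n : G) * z * (n : G)⁻¹ = z ^ ((multKap hz n : (ZMod p)ˣ) : ZMod p).val :=
  Classical.choose_spec (mult_exists_kappa hz n.1 n.2)

theorem multKap_unique (hz : orderOf z = p)
    (n : ↥(Subgroup.normalizer ((Subgroup.zpowers z : Subgroup G) : Set G))) (k : (ZMod p)ˣ)
    (h : (n : G) * z * (n : G)⁻¹ = z ^ (k : ZMod p).val) : multKap hz n = k :=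
  Units.ext (mult_pow_inj hz (by rw [← multKap_spec, h]))

theorem multKap_mul (hz : orderOf z = p)
    (n m : ↥(Subgroup.normalizer ((Subgroup.zpowers z : Subgroup G) : Set G))) :
    multKap hz (n * m) = multKap hz n * multKap hz m := by
  apply multKap_unique
  have h1 := multKap_spec hz n
  have h2 := multKap_spec hz m
  calc ((n * m : ↥(Subgroup.normalizer ((Subgroup.zpowers z : Subgroup G) : Set G))) : G) * z *
        ((n * m : ↥(Subgroup.normalizer ((Subgroup.zpowers z : Subgroup G) : Set G))) : G)⁻¹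
      = (n : G) * ((m : G) * z * (m : G)⁻¹) * (n : G)⁻¹ := by
        rw [Subgroup.coe_mul]; group
    _ = (n : G) * z ^ ((multKap hz m : (ZMod p)ˣ) : ZMod p).val * (n : G)⁻¹ := by rw [h2]
    _ = ((n : G) * z * (n : G)⁻¹) ^ ((multKap hz m : (ZMod p)ˣ) : ZMod p).val := conj_pow.symm
    _ = (z ^ ((multKap hz n : (ZMod p)ˣ) : ZMod p).val) ^
          ((multKap hz m : (ZMod p)ˣ) : ZMod p).val := by rw [h1]
    _ = z ^ ((multKap hz n * multKap hz m : (ZMod p)ˣ) : ZMod p).val := by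
        rw [Units.val_mul]
        exact (Cfsg.Agent.Lib.Helper6.HPT.hpb_pow_mul hz _ _).symm

/-- `κ` as a homomorphism -/
noncomputable def multKapHom (hz : orderOf z = p) :
    ↥(Subgroup.normalizer ((Subgroup.zpowers z : Subgroup G) : Set G)) →* (ZMod p)ˣ :=
  MonoidHom.mk' (multKap hz) (multKap_mul hz)

theorem multKapHom_apply (hz : orderOf z = p)
    (n : ↥(Subgroup.normalizer ((Subgroup.zpowers z : Subgroup G) : Set G))) :
    multKapHom hz n = multKap hz n := rfl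

theorem multKap_eq_one_iff (hz : orderOf z = p)
    (n : ↥(Subgroup.normalizer ((Subgroup.zpowers z : Subgroup G) : Set G))) :
    multKap hz n = 1 ↔ (n : G) * z = z * (n : G) := by
  constructor
  · intro h
    have h1 := multKap_spec hz n
    rw [h, Units.val_one, mult_pow_one hz] at h1
    exact mul_inv_eq_iff_eq_mul.mp h1
  · intro h
    apply multKap_unique
    rw [Units.val_one, mult_pow_one hz]
    exact mul_inv_eq_iff_eq_mul.mpr h

theorem multKap_mem_Sq (hz : orderOf z = p)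
    (hE : ∀ k : ZMod p, IsConj (z ^ k.val) z ↔ k ∈ Sq p)
    (n : ↥(Subgroup.normalizer ((Subgroup.zpowers z : Subgroup G) : Set G))) :
    ((multKap hz n : (ZMod p)ˣ) : ZMod p) ∈ Sq p := by
  rw [← hE]
  rw [isConj_iff]
  refine ⟨(n : G)⁻¹, ?_⟩
  rw [← multKap_spec hz n]
  group

theorem mult_comm_mem_normalizer (g : G) (h : g * z = z * g) :
    g ∈ Subgroup.normalizer ((Subgroup.zpowers z : Subgroup G) : Set G) := by
  apply Subgroup.centralizer_le_normalizer
  rw [Subgroup.mem_centralizer_iff]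
  intro x hx
  obtain ⟨i, rfl⟩ := Subgroup.mem_zpowers_iff.mp hx
  have hc : Commute g z := h
  exact (hc.zpow_right i).eq.symm

theorem multKap_surj (hz : orderOf z = p)
    (hE : ∀ k : ZMod p, IsConj (z ^ k.val) z ↔ k ∈ Sq p) (k : ZMod p) (hk : k ∈ Sq p) :
    ∃ n : ↥(Subgroup.normalizer ((Subgroup.zpowers z : Subgroup G) : Set G)),
      ((multKap hz n : (ZMod p)ˣ) : ZMod p) = k := by
  classical
  have hk0 : k ≠ 0 := by
    unfold Sq at hk
    exact (Finset.mem_filter.1 hk).2.1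
  obtain ⟨c, hc⟩ := isConj_iff.mp ((hE k).mpr hk)
  -- `n = c⁻¹` satisfies `n z n⁻¹ = z ^ k`
  have h1 : c⁻¹ * z * c⁻¹⁻¹ = z ^ k.val := by
    calc c⁻¹ * z * c⁻¹⁻¹ = c⁻¹ * (c * z ^ k.val * c⁻¹) * c⁻¹⁻¹ := by rw [hc]
      _ = z ^ k.val := by group
  have h2 : c * z * c⁻¹ = z ^ (k⁻¹).val := by
    have h3 : z = (z ^ k.val) ^ (k⁻¹).val := by
      rw [← Cfsg.Agent.Lib.Helper6.HPT.hpb_pow_mul hz, mul_inv_cancel₀ hk0, mult_pow_one hz]
    have h4 : c * z ^ k.val * c⁻¹ = z := hc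
    calc c * z * c⁻¹ = c * (z ^ k.val) ^ (k⁻¹).val * c⁻¹ := by rw [← h3]
      _ = (c * z ^ k.val * c⁻¹) ^ (k⁻¹).val := conj_pow.symm
      _ = z ^ (k⁻¹).val := by rw [h4]
  have hmem : c⁻¹ ∈ Subgroup.normalizer ((Subgroup.zpowers z : Subgroup G) : Set G) := by
    rw [Subgroup.mem_normalizer_iff]
    intro x
    constructor
    · intro hx
      obtain ⟨i, rfl⟩ := Subgroup.mem_zpowers_iff.mp hx
      rw [← conj_zpow, h1]
      exact Subgroup.zpow_mem _ (Subgroup.npow_mem_zpowers z _) i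
    · intro hx
      obtain ⟨j, hj⟩ := Subgroup.mem_zpowers_iff.mp hx
      have h5 : x = c * z ^ j * c⁻¹ := by
        rw [hj]; group
      rw [h5, ← conj_zpow, h2]
      exact Subgroup.zpow_mem _ (Subgroup.npow_mem_zpowers z _) j
  refine ⟨⟨c⁻¹, hmem⟩, ?_⟩
  have h6 := multKap_unique hz ⟨c⁻¹, hmem⟩ (Units.mk0 k hk0) (by rw [Units.val_mk0]; exact h1)
  rw [h6, Units.val_mk0]

end grp

section cnt

variable {G : Type u} [Group G] [Fintype G] {p : ℕ} [Fact p.Prime] {z : G}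

/-- the normalizer of `⟨z⟩` -/
abbrev multN (z : G) : Subgroup G :=
  Subgroup.normalizer ((Subgroup.zpowers z : Subgroup G) : Set G)

/-- the parametrisation `(t, u) ↦ z ^ t * u` of `C_G(z)`, with values in `N_G(⟨z⟩)` -/
def multF (z : G) (x : ZMod p × Subgroup.center G) : ↥(multN z) :=
  ⟨z ^ x.1.val * (x.2 : G), mult_comm_mem_normalizer _ (by
    have hu := Subgroup.mem_center_iff.mp x.2.2 z
    rw [mul_assoc, ← hu, ← mul_assoc, ← mul_assoc, ← pow_succ, ← pow_succ'])⟩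

theorem multF_coe (z : G) (x : ZMod p × Subgroup.center G) :
    ((multF z x : ↥(multN z)) : G) = z ^ x.1.val * (x.2 : G) := rfl

theorem multF_comm (z : G) (x : ZMod p × Subgroup.center G) :
    ((multF z x : ↥(multN z)) : G) * z = z * ((multF z x : ↥(multN z)) : G) := by
  have hu := Subgroup.mem_center_iff.mp x.2.2 z
  rw [multF_coe, mul_assoc, ← hu, ← mul_assoc, ← mul_assoc, ← pow_succ, ← pow_succ']

theorem multF_inj (hz : orderOf z = p) (hnn : ∀ H : Subgroup G, H.Normal → Nat.card H ≠ p) :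
    Function.Injective (multF (p := p) z) := by
  rintro ⟨a, u⟩ ⟨b, u'⟩ hab
  have h0 : z ^ a.val * (u : G) = z ^ b.val * (u' : G) := congrArg Subtype.val hab
  have hab' : a = b := by
    by_contra hne
    have hd : a - b ≠ 0 := sub_ne_zero.mpr hne
    have h1 : z ^ a.val = z ^ (a - b).val * z ^ b.val := by
      rw [← Cfsg.Agent.Lib.Helper6.HPT.hpb_pow_add hz, sub_add_cancel]
    have h2 : z ^ (a - b).val = (u' : G) * (u : G)⁻¹ := by
      have hu' := Subgroup.mem_center_iff.mp u'.2 (z ^ b.val)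
      have hu := Subgroup.mem_center_iff.mp u.2 (z ^ b.val)
      rw [h1, hu', mul_assoc, hu, ← mul_assoc] at h0
      have h3 := mul_right_cancel h0
      rw [← h3]
      group
    have h3 : z ^ (a - b).val ∈ Subgroup.center G := by
      rw [h2]
      exact Subgroup.mul_mem _ u'.2 (Subgroup.inv_mem _ u.2)
    have h4 : z ∈ Subgroup.center G := by
      have h5 : (z ^ (a - b).val) ^ ((a - b)⁻¹).val = z := by
        rw [← Cfsg.Agent.Lib.Helper6.HPT.hpb_pow_mul hz, mul_inv_cancel₀ hd, mult_pow_one hz]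
      rw [← h5]
      exact Subgroup.pow_mem _ h3 _
    exact Cfsg.Agent.Lib.Helper6.HPT.hpb_not_central hnn z h4 hz
  subst hab'
  have h4 : (u : G) = (u' : G) := mul_left_cancel h0
  rw [Prod.mk.injEq]
  exact ⟨rfl, Subtype.ext h4⟩

open Classical in
theorem mult_filter_eq [Fintype ↥(multN z)] [Fintype (Subgroup.center G)]
    (hC : ∀ g : G, g * z = z * g → ∃ t : ZMod p, ∃ u ∈ Subgroup.center G, g = z ^ t.val * u) :
    Finset.univ.filter (fun n : ↥(multN z) => (n : G) * z = z * (n : G)) =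
      Finset.univ.image (multF (p := p) z) := by
  ext n
  simp only [Finset.mem_filter, Finset.mem_univ, true_and, Finset.mem_image]
  constructor
  · intro h
    obtain ⟨t, u, hu, hg⟩ := hC n h
    exact ⟨(t, ⟨u, hu⟩), Subtype.ext hg.symm⟩
  · rintro ⟨x, rfl⟩
    exact multF_comm z x

/-- a sum over `N_G(⟨z⟩)` of a function vanishing off `C_G(z)` -/
theorem mult_sum_cent [Fintype ↥(multN z)] [Fintype (Subgroup.center G)]
    (hz : orderOf z = p) (hnn : ∀ H : Subgroup G, H.Normal → Nat.card H ≠ p)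
    (hC : ∀ g : G, g * z = z * g → ∃ t : ZMod p, ∃ u ∈ Subgroup.center G, g = z ^ t.val * u)
    (F : G → ℂ) (hF : ∀ n : ↥(multN z), (n : G) * z ≠ z * (n : G) → F n = 0) :
    ∑ n : ↥(multN z), F n =
      ∑ t : ZMod p, ∑ u : Subgroup.center G, F (z ^ t.val * (u : G)) := by
  classical
  have h1 : ∑ x : ZMod p × Subgroup.center G, F ((multF z x : ↥(multN z)) : G) =
      ∑ n ∈ Finset.univ.image (multF (p := p) z), F n :=
    (Finset.sum_image (s := Finset.univ) (g := multF (p := p) z)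
      (f := fun n : ↥(multN z) => F n) (fun x _ y _ h => multF_inj hz hnn h)).symm
  have h2 : ∑ n : ↥(multN z), F n =
      ∑ n ∈ Finset.univ.filter (fun n : ↥(multN z) => (n : G) * z = z * (n : G)), F n := by
    rw [Finset.sum_filter]
    refine Finset.sum_congr rfl fun n _ => ?_
    split_ifs with h
    · rfl
    · exact hF n h
  rw [h2, mult_filter_eq hC, ← h1, Fintype.sum_prod_type]
  rfl

theorem mult_card_ker (hz : orderOf z = p)
    (hnn : ∀ H : Subgroup G, H.Normal → Nat.card H ≠ p)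
    (hC : ∀ g : G, g * z = z * g → ∃ t : ZMod p, ∃ u ∈ Subgroup.center G, g = z ^ t.val * u) :
    Nat.card (multKapHom hz).ker = p * Nat.card (Subgroup.center G) := by
  classical
  haveI : Fintype ↥(multN z) := Fintype.ofFinite _
  haveI : Fintype (Subgroup.center G) := Fintype.ofFinite _
  have e : ↥(multKapHom hz).ker ≃ {n : ↥(multN z) // (n : G) * z = z * (n : G)} :=
    Equiv.subtypeEquivRight (fun n => by
      rw [MonoidHom.mem_ker, multKapHom_apply]
      exact multKap_eq_one_iff hz n)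
  rw [Nat.card_congr e, Nat.card_eq_fintype_card, Fintype.card_subtype, mult_filter_eq hC,
    Finset.card_image_of_injective _ (multF_inj hz hnn), Finset.card_univ, Fintype.card_prod,
    ZMod.card, Nat.card_eq_fintype_card]

theorem mult_card_range (hz : orderOf z = p)
    (hE : ∀ k : ZMod p, IsConj (z ^ k.val) z ↔ k ∈ Sq p) :
    Nat.card (multKapHom hz).range = (Sq p).card := by
  classical
  rw [← Nat.card_eq_finsetCard (Sq p)]
  refine Nat.card_congr (Equiv.ofBijective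
    (fun a : ↥(multKapHom hz).range => (⟨((a : (ZMod p)ˣ) : ZMod p), by
        obtain ⟨n, hn⟩ := a.2
        rw [← hn]
        exact multKap_mem_Sq hz hE n⟩ : ↥(Sq p))) ⟨?_, ?_⟩)
  · intro a b hab
    exact Subtype.ext (Units.ext (congrArg Subtype.val hab))
  · rintro ⟨k, hk⟩
    obtain ⟨n, hn⟩ := multKap_surj hz hE k hk
    exact ⟨⟨multKap hz n, ⟨n, rfl⟩⟩, Subtype.ext hn⟩

theorem mult_card_N (hz : orderOf z = p)
    (hnn : ∀ H : Subgroup G, H.Normal → Nat.card H ≠ p)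
    (hC : ∀ g : G, g * z = z * g → ∃ t : ZMod p, ∃ u ∈ Subgroup.center G, g = z ^ t.val * u)
    (hE : ∀ k : ZMod p, IsConj (z ^ k.val) z ↔ k ∈ Sq p) :
    Nat.card ↥(multN z) = (Sq p).card * (p * Nat.card (Subgroup.center G)) := by
  rw [Subgroup.card_eq_card_quotient_mul_card_subgroup (multKapHom hz).ker,
    Nat.card_congr (QuotientGroup.quotientKerEquivRange (multKapHom hz)).toEquiv,
    mult_card_range hz hE, mult_card_ker hz hnn hC]

end cnt

/-- orthogonality of the characters of `(ZMod p)ˣ` -/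
theorem mult_orth (p : ℕ) [Fact p.Prime] [Fintype ((ZMod p)ˣ →* ℂˣ)] (a : (ZMod p)ˣ)
    (ha : a ≠ 1) : ∑ ψ : (ZMod p)ˣ →* ℂˣ, ((ψ a : ℂˣ) : ℂ) = 0 := by
  obtain ⟨ψ₀, h0⟩ := CommGroup.exists_apply_ne_one_of_hasEnoughRootsOfUnity (ZMod p)ˣ ℂ ha
  have h1 : ∑ ψ : (ZMod p)ˣ →* ℂˣ, ((ψ a : ℂˣ) : ℂ) =
      ((ψ₀ a : ℂˣ) : ℂ) * ∑ ψ : (ZMod p)ˣ →* ℂˣ, ((ψ a : ℂˣ) : ℂ) := by
    rw [Finset.mul_sum]
    exact (Fintype.sum_bijective (fun ψ => ψ₀ * ψ) (Group.mulLeft_bijective ψ₀)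
      (fun ψ => ((ψ₀ a : ℂˣ) : ℂ) * ((ψ a : ℂˣ) : ℂ)) (fun ψ => ((ψ a : ℂˣ) : ℂ))
      (fun ψ => by rw [MonoidHom.mul_apply, Units.val_mul])).symm
  have h2 : ((ψ₀ a : ℂˣ) : ℂ) ≠ 1 := fun h => h0 (Units.ext h)
  have h3 : (1 - ((ψ₀ a : ℂˣ) : ℂ)) * ∑ ψ : (ZMod p)ˣ →* ℂˣ, ((ψ a : ℂˣ) : ℂ) = 0 := by
    rw [sub_mul, one_mul, ← h1, sub_self]
  rcases mul_eq_zero.mp h3 with h | h
  · exact absurd (sub_eq_zero.mp h).symm h2
  · exact h

section chars

variable {G : Type u} [Group G] [Fintype G] {p : ℕ} [Fact p.Prime] {z : G}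

/-- the linear character `ψ ∘ κ` of `N_G(⟨z⟩)` -/
noncomputable def multMu (hz : orderOf z = p) (ψ : (ZMod p)ˣ →* ℂˣ) : ↥(multN z) → ℂ :=
  fun n => ((ψ (multKap hz n) : ℂˣ) : ℂ)

theorem multMu_irr (hz : orderOf z = p) (ψ : (ZMod p)ˣ →* ℂˣ) :
    IsIrrCharacter ↥(multN z) (multMu hz ψ) :=
  Cfsg.Agent.Lib.Helper83.isIrr_of_hom (ψ.comp (multKapHom hz))

theorem mult_inner_nat [Fintype ↥(multN z)] (hz : orderOf z = p) (ψ : (ZMod p)ˣ →* ℂˣ)
    (θ : G → ℂ) (hθ : IsCharacter G θ) :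
    ∃ k : ℕ, classInner (fun n : ↥(multN z) => θ n) (multMu hz ψ) = k := by
  haveI : Finite (IrrCharacter ↥(multN z)) := Cfsg.Agent.Lib.Helper82.finite_irrCharacter _
  letI : Fintype (IrrCharacter ↥(multN z)) := Fintype.ofFinite _
  exact Cfsg.Agent.Lib.Helper4.classInner_isCharacter_nat _
    (Cfsg.Agent.Lib.Helper4.isCharacter_restrict _ θ hθ) ⟨multMu hz ψ, multMu_irr hz ψ⟩

theorem mult_inner_Pi1 [Fintype ↥(multN z)] (hp5 : 5 ≤ p)
    (hnn : ∀ H : Subgroup G, H.Normal → Nat.card H ≠ p) (χ : IrrCharacter G) (ζ : ℂ)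
    (hHP : HP p ζ z χ.1) (ψ : (ZMod p)ˣ →* ℂˣ) :
    classInner (fun n : ↥(multN z) => Pi1 χ.1 n) (multMu hHP.hz ψ) = 1 := by
  classical
  haveI : Fintype (Subgroup.center G) := Fintype.ofFinite _
  have hz := hHP.hz
  have hp : p.Prime := Fact.out
  have hp2 : p ≠ 2 := by omega
  obtain ⟨hcard, -, -, -, hpars, -⟩ := Cfsg.Agent.Lib.Helper31.HPT.eta_facts p hp2 ζ hHP.hζ
  unfold classInner
  have h1 : ∑ n : ↥(multN z), Pi1 χ.1 n * conj (multMu hz ψ n) =
      ∑ n : ↥(multN z), Pi1 χ.1 n := by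
    refine Finset.sum_congr rfl fun n _ => ?_
    by_cases hc : (n : G) * z = z * (n : G)
    · have h : multMu hz ψ n = 1 := by
        unfold multMu
        rw [(multKap_eq_one_iff hz n).mpr hc, map_one, Units.val_one]
      rw [h, map_one, mul_one]
    · have h : χ.1 n = 0 := Cfsg.Agent.Lib.Helper63.HPT.hp_van p χ z ζ hHP n n.2 hc
      unfold Pi1
      rw [h, zero_mul, zero_mul]
  rw [h1, mult_sum_cent hz hnn hHP.hC (Pi1 χ.1) (fun n hc => by
      unfold Pi1
      rw [Cfsg.Agent.Lib.Helper63.HPT.hp_van p χ z ζ hHP n n.2 hc, zero_mul])]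
  have h2 : ∀ (t : ZMod p) (u : Subgroup.center G),
      Pi1 χ.1 (z ^ t.val * (u : G)) = eta p ζ t * conj (eta p ζ t) := by
    intro t u
    unfold Pi1
    rw [Cfsg.Agent.Lib.Helper80.irr_mul_central χ u.2, hHP.hval, map_mul]
    have h := Cfsg.Agent.Lib.Helper87.HPT.zorth_norm χ u u.2
    calc Cfsg.Agent.Lib.Helper80.cc χ u * eta p ζ t *
          (conj (Cfsg.Agent.Lib.Helper80.cc χ u) * conj (eta p ζ t))
        = (Cfsg.Agent.Lib.Helper80.cc χ u * conj (Cfsg.Agent.Lib.Helper80.cc χ u)) *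
            (eta p ζ t * conj (eta p ζ t)) := by ring
      _ = eta p ζ t * conj (eta p ζ t) := by rw [h, one_mul]
  rw [Finset.sum_congr rfl (fun t _ => Finset.sum_congr rfl (fun u _ => h2 t u))]
  simp only [Finset.sum_const, Finset.card_univ, nsmul_eq_mul]
  rw [← Finset.mul_sum, hpars, mult_card_N hz hnn hHP.hC hHP.hE, hcard,
    ← Nat.card_eq_fintype_card]
  have hZ : (Nat.card (Subgroup.center G) : ℂ) ≠ 0 := by
    exact_mod_cast (Nat.card_pos (α := Subgroup.center G)).ne'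
  have hpc : (p : ℂ) ≠ 0 := by exact_mod_cast hp.ne_zero
  have he : (((p - 1) / 2 : ℕ) : ℂ) ≠ 0 := by
    have h : 0 < (p - 1) / 2 := by omega
    exact_mod_cast h.ne'
  push_cast
  field_simp

theorem mult_sum_inner [Fintype ↥(multN z)] [Fintype ((ZMod p)ˣ →* ℂˣ)]
    (hnn : ∀ H : Subgroup G, H.Normal → Nat.card H ≠ p) (χ : G → ℂ) (ζ : ℂ)
    (hHP : HP p ζ z χ) (φ : IrrCharacter G) (hφ : TrivZ φ.1) :
    ∑ ψ : (ZMod p)ˣ →* ℂˣ, classInner (fun n : ↥(multN z) => φ.1 n) (multMu hHP.hz ψ) =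
      (Nat.card ↥(multN z) : ℂ)⁻¹ * ((Fintype.card ((ZMod p)ˣ →* ℂˣ) : ℂ) *
        ((Nat.card (Subgroup.center G) : ℂ) * ∑ t : ZMod p, φ.1 (z ^ t.val))) := by
  classical
  haveI : Fintype (Subgroup.center G) := Fintype.ofFinite _
  have hz := hHP.hz
  unfold classInner
  rw [← Finset.mul_sum, Finset.sum_comm]
  congr 1
  let F : G → ℂ := fun g =>
    if g * z = z * g then (Fintype.card ((ZMod p)ˣ →* ℂˣ) : ℂ) * φ.1 g else 0
  have h1 : ∀ n : ↥(multN z),
      ∑ ψ : (ZMod p)ˣ →* ℂˣ, φ.1 n * conj (multMu hz ψ n) = F n := by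
    intro n
    rw [← Finset.mul_sum, ← map_sum]
    by_cases hc : (n : G) * z = z * (n : G)
    · have h : ∀ ψ : (ZMod p)ˣ →* ℂˣ, multMu hz ψ n = 1 := by
        intro ψ
        unfold multMu
        rw [(multKap_eq_one_iff hz n).mpr hc, map_one, Units.val_one]
      rw [Finset.sum_congr rfl (fun ψ _ => h ψ)]
      simp only [Finset.sum_const, Finset.card_univ, nsmul_eq_mul, mul_one, map_natCast]
      show _ = if (n : G) * z = z * (n : G) then _ else _
      rw [if_pos hc, mul_comm]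
    · have hk : multKap hz n ≠ 1 := fun h => hc ((multKap_eq_one_iff hz n).mp h)
      have h : ∑ ψ : (ZMod p)ˣ →* ℂˣ, multMu hz ψ n = 0 := mult_orth p _ hk
      rw [h, map_zero, mul_zero]
      show _ = if (n : G) * z = z * (n : G) then _ else _
      rw [if_neg hc]
  rw [Finset.sum_congr rfl (fun n _ => h1 n), mult_sum_cent hz hnn hHP.hC F (fun n hc => by
      show (if (n : G) * z = z * (n : G) then _ else _) = _
      rw [if_neg hc])]
  have h2 : ∀ (t : ZMod p) (u : Subgroup.center G),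
      F (z ^ t.val * (u : G)) = (Fintype.card ((ZMod p)ˣ →* ℂˣ) : ℂ) * φ.1 (z ^ t.val) := by
    intro t u
    have hc := multF_comm (p := p) z (t, u)
    rw [multF_coe] at hc
    show (if z ^ t.val * (u : G) * z = z * (z ^ t.val * (u : G)) then _ else _) = _
    rw [if_pos hc, Cfsg.Agent.Lib.Helper80.irr_mul_central φ u.2]
    have h3 : Cfsg.Agent.Lib.Helper80.cc φ u = 1 := by
      unfold Cfsg.Agent.Lib.Helper80.cc
      rw [hφ u u.2]
      exact div_self (Cfsg.Agent.Lib.Helper83.irr_one_ne_zero φ.2)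
    rw [h3, one_mul]
  rw [Finset.sum_congr rfl (fun t _ => Finset.sum_congr rfl (fun u _ => h2 t u))]
  simp only [Finset.sum_const, Finset.card_univ, nsmul_eq_mul]
  rw [← Finset.mul_sum, ← Finset.mul_sum, ← Nat.card_eq_fintype_card (α := Subgroup.center G)]
  ring

theorem mult_sum_ne_zero (hp5 : 5 ≤ p) (hdiv : p ∣ Nat.card G) (χ : G → ℂ) (ζ : ℂ)
    (hHP : HP p ζ z χ) (e : ℕ) (hdeg : 2 * e + 1 = p) (k : ℕ) (hk : GalExp p G k)
    (φ : IrrCharacter G)
    (hl : (IsEp p z φ.1 ∧ charDegree φ.1 = p + 1) ∨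
      (IsXp p ζ z k φ.1 ∧ charDegree φ.1 = e + 1)) :
    ∑ t : ZMod p, φ.1 (z ^ t.val) ≠ 0 := by
  classical
  have hp : p.Prime := Fact.out
  have hp2 : p ≠ 2 := by omega
  obtain ⟨hcard, heta0, hsum, -, -, -⟩ := Cfsg.Agent.Lib.Helper31.HPT.eta_facts p hp2 ζ hHP.hζ
  have hdeg1 := (Cfsg.Agent.Lib.Helper83.irr_degree φ.2).2
  have hsplit : ∀ f : ZMod p → ℂ,
      ∑ t : ZMod p, f t = f 0 + ∑ t ∈ Finset.univ.erase (0 : ZMod p), f t :=
    fun f => (Finset.add_sum_erase _ f (Finset.mem_univ 0)).symm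
  have hz0 : φ.1 (z ^ (0 : ZMod p).val) = (charDegree φ.1 : ℂ) := by
    rw [ZMod.val_zero, pow_zero, hdeg1]
  rw [hsplit, hz0]
  rcases hl with ⟨hE, hd⟩ | ⟨hX, hd⟩
  · rw [Finset.sum_congr rfl (fun t ht => hE t (Finset.ne_of_mem_erase ht)), hd]
    simp only [Finset.sum_const, Finset.card_erase_of_mem (Finset.mem_univ _), Finset.card_univ,
      ZMod.card, nsmul_eq_mul, mul_one]
    have h : ((p + 1 : ℕ) : ℂ) + ((p - 1 : ℕ) : ℂ) = ((2 * p : ℕ) : ℂ) := by
      rw [← Nat.cast_add]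
      congr 1
      omega
    rw [h]
    exact_mod_cast (by omega : 2 * p ≠ 0)
  · have he0 : eta p ζ 0 = (e : ℂ) := by
      rw [heta0]
      congr 1
      omega
    have key : ∀ c : ZMod p, c ≠ 0 →
        ∑ t ∈ Finset.univ.erase (0 : ZMod p), eta p ζ (c * t) = -(e : ℂ) := by
      intro c hc
      have h1 : ∑ t : ZMod p, eta p ζ (c * t) = ∑ t : ZMod p, eta p ζ t :=
        Fintype.sum_bijective (fun t => c * t) (mulLeft_bijective₀ c hc) _ _ (fun t => rfl)
      rw [hsplit (fun t => eta p ζ (c * t)), mul_zero, he0, hsum] at h1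
      linear_combination h1
    have hk0 : (k : ZMod p) ≠ 0 := by
      intro h0
      have h1 : p ∣ k := (ZMod.natCast_eq_zero_iff k p).mp h0
      have h2 : p ∣ Nat.gcd k (Nat.card G) := Nat.dvd_gcd h1 hdiv
      rw [hk.cop] at h2
      exact hp.one_lt.ne' (Nat.dvd_one.mp h2)
    have hfin : ((e + 1 : ℕ) : ℂ) + - -(e : ℂ) ≠ 0 := by
      have h : ((e + 1 : ℕ) : ℂ) + - -(e : ℂ) = ((2 * e + 1 : ℕ) : ℂ) := by
        push_cast
        ring
      rw [h]
      exact_mod_cast (by omega : 2 * e + 1 ≠ 0)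
    rcases hX with hX | hX
    · rw [Finset.sum_congr rfl (fun t ht => hX t (Finset.ne_of_mem_erase ht)),
        Finset.sum_neg_distrib]
      have h := key 1 one_ne_zero
      simp only [one_mul] at h
      rw [h, hd]
      exact hfin
    · rw [Finset.sum_congr rfl (fun t ht => hX t (Finset.ne_of_mem_erase ht)),
        Finset.sum_neg_distrib, key (k : ZMod p) hk0, hd]
      exact hfin

end chars

/-- PIECE MULT, with the conclusion of piece LAN1 as a hypothesis. -/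
theorem mult_core {G : Type u} [Group G] [Fintype G] (p : ℕ) [Fact p.Prime] (hp5 : 5 ≤ p)
    (hdiv : p ∣ Nat.card G)
    (hnn : ∀ H : Subgroup G, H.Normal → Nat.card H ≠ p)
    (χ : IrrCharacter G) (e : ℕ) (he : charDegree χ.1 = e) (hdeg : 2 * e + 1 = p) (z : G) (ζ : ℂ)
    (hHP : HP p ζ z χ.1) (k : ℕ) (hk : GalExp p G k) (φ : IrrCharacter G)
    (hl : TrivZ φ.1 ∧ ((IsEp p z φ.1 ∧ charDegree φ.1 = p + 1) ∨
      (IsXp p ζ z k φ.1 ∧ charDegree φ.1 = e + 1)))
    (hm : classInner (Pi1 χ.1) φ.1 ≠ 0) :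
    classInner (Pi1 χ.1) φ.1 = 1 := by
  classical
  haveI : Finite (IrrCharacter G) := Cfsg.Agent.Lib.Helper82.finite_irrCharacter G
  letI : Fintype (IrrCharacter G) := Fintype.ofFinite _
  letI : Fintype ↥(multN z) := Fintype.ofFinite _
  letI : Fintype ((ZMod p)ˣ →* ℂˣ) := Fintype.ofFinite _
  have hz := hHP.hz
  obtain ⟨m₁, m₂, hi1, -, hv1, -, -, -, -, -⟩ :=
    Cfsg.Agent.Lib.Helper16.HPT.hp_dec p χ e he k hk
  have hsum := mult_sum_inner hnn χ.1 ζ hHP φ hl.1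
  have hne : ∑ ψ : (ZMod p)ˣ →* ℂˣ,
      classInner (fun n : ↥(multN z) => φ.1 n) (multMu hz ψ) ≠ 0 := by
    rw [hsum]
    refine mul_ne_zero (inv_ne_zero ?_) (mul_ne_zero ?_ (mul_ne_zero ?_
      (mult_sum_ne_zero hp5 hdiv χ.1 ζ hHP e hdeg k hk φ hl.2)))
    · exact_mod_cast (Nat.card_pos (α := ↥(multN z))).ne'
    · exact_mod_cast (Fintype.card_ne_zero (α := (ZMod p)ˣ →* ℂˣ))
    · exact_mod_cast (Nat.card_pos (α := Subgroup.center G)).ne'
  obtain ⟨ψ, -, hψ⟩ := Finset.exists_ne_zero_of_sum_ne_zero hne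
  have hnat : ∀ θ : IrrCharacter G, ∃ j : ℕ,
      classInner (fun n : ↥(multN z) => θ.1 n) (multMu hz ψ) = j :=
    fun θ => mult_inner_nat hz ψ θ.1 (Cfsg.Agent.Lib.Helper4.isCharacter_of_irr θ)
  choose j hj using hnat
  have hlin : classInner (fun n : ↥(multN z) => Pi1 χ.1 n) (multMu hz ψ) =
      ∑ θ : IrrCharacter G, (m₁ θ : ℂ) * (j θ : ℂ) := by
    have h1 : ∀ θ : IrrCharacter G, (j θ : ℂ) = (Nat.card ↥(multN z) : ℂ)⁻¹ *
        ∑ n : ↥(multN z), θ.1 n * conj (multMu hz ψ n) := fun θ => (hj θ).symm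
    have h2 : (Nat.card ↥(multN z) : ℂ)⁻¹ *
        ∑ n : ↥(multN z), Pi1 χ.1 n * conj (multMu hz ψ n) =
        ∑ θ : IrrCharacter G, (m₁ θ : ℂ) * (j θ : ℂ) := by
      simp only [h1, hv1, Finset.sum_mul, Finset.mul_sum]
      rw [Finset.sum_comm]
      refine Finset.sum_congr rfl fun θ _ => Finset.sum_congr rfl fun n _ => ?_
      ring
    exact h2
  rw [mult_inner_Pi1 hp5 hnn χ ζ hHP ψ] at hlin
  have hnatsum : ∑ θ : IrrCharacter G, m₁ θ * j θ = 1 := by
    have h : ((∑ θ : IrrCharacter G, m₁ θ * j θ : ℕ) : ℂ) = 1 := by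
      push_cast
      exact hlin.symm
    exact_mod_cast h
  have hjφ : j φ ≠ 0 := by
    intro h0
    apply hψ
    rw [hj φ, h0, Nat.cast_zero]
  have hle : m₁ φ * j φ ≤ 1 := by
    rw [← hnatsum]
    exact Finset.single_le_sum (f := fun θ => m₁ θ * j θ) (fun _ _ => Nat.zero_le _)
      (Finset.mem_univ φ)
  have hm1 : m₁ φ ≠ 0 := by
    intro h0
    apply hm
    rw [hi1 φ, h0, Nat.cast_zero]
  have h1 : m₁ φ = 1 := by
    have h2 : 1 ≤ j φ := Nat.one_le_iff_ne_zero.mpr hjφ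
    have h3 : 1 ≤ m₁ φ := Nat.one_le_iff_ne_zero.mpr hm1
    nlinarith
  rw [hi1 φ, h1, Nat.cast_one]

end Cfsg.Agent.Lib.Helper40.HPT
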