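import Cfsg.Agent.Lib.Helper96.HyDefs
import Cfsg.Agent.Lib.Helper96.BGDecB
import Cfsg.Agent.Lib.Helper34.QuadNEC
import Cfsg.Agent.Lib.Helper47.SpPrime

/-!
Project HY (S5992, helper96), piece TYPR (helper40): the type of an invariant nondegenerate
subspace of `range (T - 1)` of dimension `blk * b`.
-/

set_option autoImplicit false
set_option linter.unusedSectionVars false
set_option linter.unusedVariables false

namespace Cfsg.Agent.Lib.Helper40.Hy

open Module Polynomial Cfsg.Agent.Lib.Helper96.Sp Cfsg.Agent.Lib.Helper96.Hy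
  Cfsg.Agent.Lib.Helper47

universe u

theorem typr_blk_of_even (q r : ℕ) (h : Even (orderOf (q : ZMod r))) :
    blk q r = orderOf (q : ZMod r) := by
  unfold blk
  rw [if_pos h]

variable {F : Type u} [Field F] [Fintype F] {V : Type u} [AddCommGroup V] [Module F V]
  [FiniteDimensional F V] {B : LinearMap.BilinForm F V}

-- PIECE TYPR
theorem typ_range (p : ℕ) [Fact p.Prime] [CharP F p] (hS : B.IsSymm) (h2 : (2 : F) ≠ 0)
    (hN : ND B ⊤) (T : Module.End F V) (hT : Isom B T) (r : ℕ) [Fact r.Prime] (hr2 : r ≠ 2)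
    (hrp : r ≠ p) (hTr : T ^ r = 1) (W₁ : Submodule F V)
    (hW₁R : W₁ ≤ LinearMap.range (T - 1)) (hW₁ : W₁.map T ≤ W₁) (hnd : ND B W₁)
    (hchar : ∀ g : Module.End F ↥W₁, Isom (B.restrict W₁) g → g ^ r = 1 →
      (∀ v, g v = v → v = 0) → 0 < finrank F ↥W₁ →
      ∃ s : Multiset F[X], (∀ f ∈ s, IsCycFactor r f) ∧ s.map (dualP (RingHom.id F)) = s ∧
        s ≠ 0 ∧ g.charpoly = s.prod)
    (b : ℕ) (hb : 1 ≤ b) (hfin : finrank F W₁ = blk (Fintype.card F) r * b) :
    Typ B W₁ (if Even (orderOf ((Fintype.card F : ℕ) : ZMod r)) then (-1) ^ b else 1) := by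
  classical
  have hp : p.Prime := Fact.out
  have hr : r.Prime := Fact.out
  have hrF : (r : F) ≠ 0 := by
    intro h0
    rw [CharP.cast_eq_zero_iff F p] at h0
    exact hrp ((Nat.prime_dvd_prime_iff_eq hp hr).mp h0).symm
  have hrq : ¬ r ∣ Fintype.card F := by
    obtain ⟨n, -, hn⟩ := FiniteField.card F p
    rw [hn]
    intro h
    exact hrp ((Nat.prime_dvd_prime_iff_eq hr hp).mp (hr.dvd_of_dvd_pow h))
  obtain ⟨hi1, -, -, hKR, -, -, -, -, -⟩ :=
    Cfsg.Agent.Lib.Helper96.BG.pow_one_setup T r hrq hrF hTr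
  have hmem : ∀ x ∈ W₁, T x ∈ W₁ := fun x hx => hW₁ (Submodule.mem_map_of_mem hx)
  obtain ⟨g, hgdef⟩ : ∃ g : Module.End F ↥W₁, g = T.restrict hmem := ⟨_, rfl⟩
  have hgv : ∀ v : ↥W₁, ((g v : ↥W₁) : V) = T (v : V) := fun v => by rw [hgdef]; rfl
  have hgI : Isom (B.restrict W₁) g := by
    intro x y
    show B ((g x : ↥W₁) : V) ((g y : ↥W₁) : V) = B (x : V) (y : V)
    rw [hgv, hgv]
    exact hT _ _
  have hgr : g ^ r = 1 := by
    rw [hgdef, Module.End.pow_restrict r hmem]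
    apply LinearMap.ext
    intro v
    apply Subtype.ext
    show (T ^ r) (v : V) = (v : V)
    rw [hTr]
    rfl
  have hfix : ∀ v : ↥W₁, g v = v → v = 0 := by
    intro v hv
    have h1 : (v : V) ∈ LinearMap.ker (T - 1) := by
      rw [LinearMap.mem_ker, LinearMap.sub_apply, ← hgv, hv]
      exact sub_self (v : V)
    have h3 : (v : V) ∈ LinearMap.ker (T - 1) ⊓ LinearMap.range (T - 1) := ⟨h1, hW₁R v.2⟩
    rw [hKR] at h3
    exact Subtype.ext ((Submodule.mem_bot F).1 h3)
  have hblk : 1 ≤ blk (Fintype.card F) r := blk_pos _ _ hi1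
  have hpos : 0 < finrank F ↥W₁ := by
    rw [hfin]
    exact Nat.mul_pos hblk hb
  obtain ⟨s, hs, hdual, hs0, hc⟩ := hchar g hgI hgr hfix hpos
  obtain ⟨j, hj, htyp⟩ := Cfsg.Agent.Lib.Helper34.QuadNEC.quad_type_of_no_fix
    (qfacts (F := F) p) (isQuad_sub hS W₁) (nondeg_sub h2 W₁ hnd) p g r hr hr2 hrp hgr
    (fun v => by
      show B ((g v : ↥W₁) : V) ((g v : ↥W₁) : V) = B (v : V) (v : V)
      rw [hgv]
      exact hT _ _)
    s hs hs0 hdual hc
  have hdeg : finrank F ↥W₁ = orderOf ((Fintype.card F : ℕ) : ZMod r) * Multiset.card s := by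
    have h3 := natDegree_cyc_prod (F := F) (i := orderOf ((Fintype.card F : ℕ) : ZMod r)) 0 s
      (fun f hf => ⟨(hs f hf).1, (hs f hf).natDegree_eq rfl hr hrp⟩)
    rw [pow_zero, one_mul, zero_add] at h3
    rw [← h3, ← hc, LinearMap.charpoly_natDegree]
  have key : tauSign s =
      (if Even (orderOf ((Fintype.card F : ℕ) : ZMod r)) then (-1) ^ b else 1) := by
    by_cases he : Even (orderOf ((Fintype.card F : ℕ) : ZMod r))
    · rw [if_pos he]
      have hcard : Multiset.card s = b := by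
        rw [hfin, typr_blk_of_even _ _ he] at hdeg
        exact (Nat.eq_of_mul_eq_mul_left (by omega) hdeg).symm
      rw [tauSign_of_forall_self
        (fun f hf => (dualP_id_eq_self_iff rfl hr hr2 hrp (hs f hf)).mpr he), hcard]
    · rw [if_neg he]
      exact tauSign_of_forall_ne
        (fun f hf h => he ((dualP_id_eq_self_iff rfl hr hr2 hrp (hs f hf)).mp h))
  rw [← key]
  exact ⟨j, hj, htyp⟩

end Cfsg.Agent.Lib.Helper40.Hy
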