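import Mathlib
import Cfsg.Agent.Lib.Helper72.JPDefs
import Cfsg.Agent.Lib.Helper94.JcTH
import Cfsg.Agent.Lib.Helper82.JcOCPC

/-! Project JP (helper72), piece TRM (helper40): an abstract component `K` of `↥L` maps to a
subgroup `K.map L.subtype` of `G` satisfying the corresponding clauses of `Cfsg.IsJComponent`
(transport of closure, commutator, `pCoreOf`, `omegaCenterOf`, `wOf`, `relIndex`, cardinality
along the injective `L.subtype`). -/

set_option autoImplicit false

namespace Cfsg.Agent.Lib.Helper40.JP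

open Cfsg.Agent.Lib.Helper72.JP Cfsg.Agent.Lib.Helper72.JM Cfsg.Agent.Lib.Helper72.JL
  Cfsg.Agent.Lib.Helper72.SC Cfsg.Agent.Lib.Helper78.Jc

open scoped commutatorElement

universe u

/-- `O_p` is invariant under isomorphisms. -/
theorem trm_pCore_equiv {A B : Type*} [Group A] [Group B] (p : ℕ) (e : A ≃* B) :
    Cfsg.pCore p B = (Cfsg.pCore p A).map e.toMonoidHom := by
  apply le_antisymm
  · unfold Cfsg.pCore
    apply sSup_le
    rintro N' ⟨hN'n, hN'p⟩
    have h1 : N'.comap e.toMonoidHom ≤ sSup {N : Subgroup A | N.Normal ∧ IsPGroup p N} :=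
      le_sSup ⟨hN'n.comap _, hN'p.comap_of_injective _ e.injective⟩
    have h2 := Subgroup.map_mono (f := e.toMonoidHom) h1
    rw [Subgroup.map_comap_eq_self_of_surjective (f := e.toMonoidHom) e.surjective] at h2
    exact h2
  · rw [Subgroup.map_le_iff_le_comap]
    unfold Cfsg.pCore
    apply sSup_le
    rintro N ⟨hNn, hNp⟩
    rw [← Subgroup.map_le_iff_le_comap]
    exact le_sSup ⟨hNn.map _ e.surjective, hNp.map _⟩

theorem trm_pCoreOf_map {H G : Type*} [Group H] [Group G] (f : H →* G)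
    (hf : Function.Injective f) (K : Subgroup H) :
    Cfsg.pCoreOf 2 (K.map f) = (Cfsg.pCoreOf 2 K).map f := by
  unfold Cfsg.pCoreOf
  rw [trm_pCore_equiv 2 (K.equivMapOfInjective f hf), Subgroup.map_map, Subgroup.map_map]
  congr 1

theorem trm_oc_map {H G : Type*} [Group H] [Group G] (f : H →* G)
    (hf : Function.Injective f) (P : Subgroup H) :
    Cfsg.omegaCenterOf (P.map f) = (Cfsg.omegaCenterOf P).map f := by
  rw [Cfsg.Agent.Lib.Helper82.Jc.oc_eq_ocSub, Cfsg.Agent.Lib.Helper82.Jc.oc_eq_ocSub]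
  ext z
  rw [Cfsg.Agent.Lib.Helper82.Jc.mem_ocSub, Subgroup.mem_map]
  constructor
  · rintro ⟨⟨z', hz', rfl⟩, hc, h2⟩
    refine ⟨z', (Cfsg.Agent.Lib.Helper82.Jc.mem_ocSub P z').2 ⟨hz', fun x hx => hf ?_, hf ?_⟩,
      rfl⟩
    · rw [map_mul, map_mul]
      exact hc (f x) (Subgroup.mem_map_of_mem f hx)
    · rw [map_mul, map_one]
      exact h2
  · rintro ⟨z', hz', rfl⟩
    obtain ⟨h1, hc, h2⟩ := (Cfsg.Agent.Lib.Helper82.Jc.mem_ocSub P z').1 hz'
    refine ⟨Subgroup.mem_map_of_mem f h1, ?_, ?_⟩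
    · rintro _ ⟨x, hx, rfl⟩
      rw [← map_mul, ← map_mul, hc x hx]
    · rw [← map_mul, h2, map_one]

theorem trm_wOf_map {H G : Type*} [Group H] [Group G] (f : H →* G)
    (hf : Function.Injective f) (K : Subgroup H) :
    Cfsg.wOf (K.map f) = (Cfsg.wOf K).map f := by
  unfold Cfsg.wOf
  rw [trm_pCoreOf_map f hf, trm_oc_map f hf, Subgroup.map_commutator]

theorem trm (h : Trj2Stmt.{u}) : TrmStmt.{u} := by
  intro G _ _ T L hTL K hK
  obtain ⟨h1, h2, h3, h4, h5⟩ := hK
  have hf : Function.Injective L.subtype := Subgroup.subtype_injective L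
  refine ⟨?_, ?_, ?_, ?_, ?_⟩
  · have e : {g : G | g ∈ K.map L.subtype ∧ Odd (orderOf g)} =
        L.subtype '' {g : ↥L | g ∈ K ∧ Odd (orderOf g)} := by
      ext g
      constructor
      · rintro ⟨⟨x, hx, rfl⟩, ho⟩
        refine ⟨x, ⟨hx, ?_⟩, rfl⟩
        rwa [orderOf_injective L.subtype hf x] at ho
      · rintro ⟨x, ⟨hx, ho⟩, rfl⟩
        refine ⟨Subgroup.mem_map_of_mem _ hx, ?_⟩
        rwa [orderOf_injective L.subtype hf x]
    rw [e, ← MonoidHom.map_closure, h1]
  · have hJ : (JT (T.subgroupOf L)).map L.subtype = Cfsg.thompsonSubgroupOf 2 T := by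
      rw [h G T L hTL, Subgroup.map_subgroupOf_eq_of_le
        ((Cfsg.Agent.Lib.Helper94.Jc.th_le_self T).trans hTL)]
    rw [← hJ, ← Subgroup.map_commutator, h2]
  · rw [trm_pCoreOf_map _ hf, ← Subgroup.relIndex_comap,
      Subgroup.comap_map_eq_self_of_injective hf]
    exact h3
  · rw [trm_wOf_map _ hf, Subgroup.card_map_of_injective hf]
    exact h4
  · rw [trm_wOf_map _ hf]
    rintro _ ⟨w, hw, rfl⟩
    rw [← map_mul, h5 w hw, map_one]

end Cfsg.Agent.Lib.Helper40.JP
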