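import Mathlib
import Cfsg.Agent.Lib.Helper58.JUDefs
import Cfsg.Agent.S2948
import Cfsg.Agent.S2944
import Cfsg.Agent.Lib.Helper6.JEA1

/-!
# Project JU (S2950, helper58), piece CTX (helper40)

The context `Ctx M T K` from the hypotheses of S2950, by S2948, S2944 and JE-A1.
-/

set_option autoImplicit false

namespace Cfsg.Agent.Lib.Helper40.JU

open Cfsg.Agent.Lib.Helper58.JU Cfsg.Agent.Lib.Helper72.JL Cfsg.Agent.Lib.Helper72.SC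
  Cfsg.Agent.Lib.Helper72.JM Cfsg.Agent.Lib.Helper72.JP Cfsg.Agent.Lib.Helper78.JN
  Cfsg.Agent.Lib.Helper78.Jc
open scoped commutatorElement

universe u

/-- a 2-subgroup of `H` lies in a Sylow 2-subgroup of `H` -/
theorem ctx_helper40_exists_sylow {G : Type u} [Group G] [Finite G] (J H : Subgroup G)
    (hJ : IsPGroup 2 ↥J) (hJH : J ≤ H) :
    ∃ T₀ : Subgroup G, Cfsg.IsSylowTwoIn T₀ H ∧ J ≤ T₀ := by
  have : Fact (Nat.Prime 2) := ⟨Nat.prime_two⟩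
  obtain ⟨Q, hQ⟩ := (hJ.comap_subtype (K := H)).exists_le_sylow
  refine ⟨(Q : Subgroup ↥H).map H.subtype, ⟨Subgroup.map_subtype_le _, ?_, ?_⟩, ?_⟩
  · exact Q.2.map H.subtype
  · have h1 : ((Q : Subgroup ↥H).map H.subtype).relIndex H = (Q : Subgroup ↥H).index := by
      show (((Q : Subgroup ↥H).map H.subtype).comap H.subtype).index = _
      rw [Subgroup.comap_map_eq_self_of_injective H.subtype_injective]
    rw [h1]
    have h2 : ¬ 2 ∣ (Q : Subgroup ↥H).index := Q.not_dvd_index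
    exact Nat.odd_iff.2 (Nat.two_dvd_ne_zero.1 h2)
  · intro j hj
    exact ⟨⟨j, hJH hj⟩, hQ (Subgroup.mem_subgroupOf.2 hj), rfl⟩

/-- **JU-CTX.** -/
theorem ctx : CtxStmt.{u} := by
  intro G _ _ hL hN hZ hO S M hM hMJ T hT K hK
  obtain ⟨⟨hKcomp, hKsyl⟩, hKM, -⟩ := hK
  obtain ⟨hT2, hT1, hTM, -⟩ := hT.1
  have hJ2 : IsPGroup 2 ↥(Cfsg.thompsonSubgroupOf 2 T) :=
    hT2.to_le (Cfsg.Agent.Lib.Helper94.Jc.th_le_self T)
  refine ⟨⟨hL, hN, hZ⟩, Cfsg.Agent.Lib.Helper6.JE.a1 G S M T hMJ hT, ?_, ?_, hKcomp, hKM,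
    (Cfsg.Agent.S2944.result hL hN hZ T hT2 hT1 K ⟨hKcomp, hKsyl⟩).1⟩
  · intro H hH hHM hJH
    obtain ⟨T₀, hT₀, hJT₀⟩ := ctx_helper40_exists_sylow _ H hJ2 hJH
    obtain ⟨h1, h2, h3, -⟩ :=
      Cfsg.Agent.S2948.result hL hN hZ hO S M hM hMJ T hT H hH hHM T₀ hT₀ hJT₀
    exact ⟨T₀, h2.1, h2.2.1, h3, h1.symm⟩
  · intro H hH hHM hTH
    obtain ⟨T₀, hT₀, hJT₀⟩ := ctx_helper40_exists_sylow _ H hJ2
      ((Cfsg.Agent.Lib.Helper94.Jc.th_le_self T).trans hTH)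
    exact ((Cfsg.Agent.S2948.result hL hN hZ hO S M hM hMJ T hT H hH hHM T₀ hT₀ hJT₀).2.2.2
      hTH).1

end Cfsg.Agent.Lib.Helper40.JU
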