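import Mathlib
import Cfsg.Agent.Lib.Helper48.MulA

set_option autoImplicit false
open scoped commutatorElement

/-! # S2086 piece HE4 (helper40): `HypE` for `n ≥ 4` from `HypC`, `HypD`. -/

namespace Cfsg.Agent.Lib.Helper48.Mul

open Cfsg.Agent.Lib.Helper48 Cfsg.Agent.Lib.Helper48.St Cfsg.Agent.Lib.Helper70

section abstract

variable {Γ : Type*} [Group Γ] {G : Type*} [Group G] {K : Type*} [Field K] {n : ℕ}

theorem h40_exists_fourth (hn : 4 ≤ n) (i j l : Fin n) : ∃ m : Fin n, m ≠ i ∧ m ≠ j ∧ m ≠ l := by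
  classical
  by_contra hcon
  push Not at hcon
  have hsub : (Finset.univ : Finset (Fin n)) ⊆ {i, j, l} := by
    intro m _
    by_cases h1 : m = i
    · simp [h1]
    by_cases h2 : m = j
    · simp [h2]
    have := hcon m h1 h2
    simp [this]
  have hc := Finset.card_le_card hsub
  have h3 : ({i, j, l} : Finset (Fin n)).card ≤ 3 := Finset.card_le_three
  rw [Finset.card_univ, Fintype.card_fin] at hc
  omega

theorem h40_comm_mul_left (a b c : Γ) : ⁅a * b, c⁆ = a * ⁅b, c⁆ * a⁻¹ * ⁅a, c⁆ := by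
  simp only [commutatorElement_def]; group

/-- the case of distinct middle indices -/
theorem h40_hypE_ne (σ : Γ →* G) (hs : Function.Surjective σ) (hc : σ.ker ≤ Subgroup.center Γ)
    (x : Fin n → Fin n → K → G) (hx : StRel x) (hC : HypC σ x) (hD : HypD σ x)
    (i j j' l : Fin n) (hij : i ≠ j) (hjl : j ≠ l) (hil : i ≠ l) (hij' : i ≠ j') (hj'l : j' ≠ l)
    (hjj' : j ≠ j') (a b : K) (u v u' v' : Γ)
    (hu : σ u = x i j a) (hv : σ v = x j l b) (hu' : σ u' = x i j' 1)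
    (hv' : σ v' = x j' l (a * b)) : ⁅u, v⁆ = ⁅u', v'⁆ := by
  obtain ⟨U, hU⟩ := hs (x i j' 1)
  obtain ⟨V, hV⟩ := hs (x j' j a)
  obtain ⟨W, hW⟩ := hs (x j l b)
  have hp : σ ⁅U, V⁆ = x i j a := by
    rw [map_commutatorElement, hU, hV, commutatorElement_def,
      hx.comm3 i j' j hij' hjj'.symm hij 1 a, one_mul]
  have hr : σ ⁅V, W⁆ = x j' l (a * b) := by
    rw [map_commutatorElement, hV, hW, commutatorElement_def,
      hx.comm3 j' j l hjj'.symm hjl hj'l a b]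
  have hpW : σ ⁅⁅U, V⁆, W⁆ = x i l (a * b) := by
    rw [map_commutatorElement, hp, hW, commutatorElement_def, hx.comm3 i j l hij hjl hil a b]
  -- `U` and `W` commute
  have hUW : Commute U W := hD i j' j l hij' hij hil hjj'.symm hj'l hjl 1 b U W hU hW
  -- `p` and `r` commute
  have hpr : Commute ⁅U, V⁆ ⁅V, W⁆ :=
    hD i j j' l hij hij' hil hjj' hjl hj'l a (a * b) _ _ hp hr
  -- `r` commutes with `⁅p, W⁆`
  have hrc : Commute ⁅⁅U, V⁆, W⁆ ⁅V, W⁆ :=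
    hC i j' l hij' hil hj'l (a * b) (a * b) _ _ hpW hr
  have h1 : U * ⁅V, W⁆ * U⁻¹ = ⁅⁅U, V⁆ * V, W⁆ := by
    rw [conj_comm, conj_eq_comm_mul U V]
    have : U * W * U⁻¹ = W := by rw [hUW.eq, mul_inv_cancel_right]
    rw [this]
  have h2 : ⁅⁅U, V⁆ * V, W⁆ = ⁅V, W⁆ * ⁅⁅U, V⁆, W⁆ := by
    rw [h40_comm_mul_left, hpr.eq, mul_inv_cancel_right]
  have h3 : ⁅U, ⁅V, W⁆⁆ = ⁅⁅U, V⁆, W⁆ := by
    have e : ⁅U, ⁅V, W⁆⁆ = U * ⁅V, W⁆ * U⁻¹ * ⁅V, W⁆⁻¹ := commutatorElement_def _ _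
    rw [e, h1, h2, ← hrc.eq, mul_inv_cancel_right]
  calc ⁅u, v⁆ = ⁅⁅U, V⁆, W⁆ := lift_comm_eq hc (hu.trans hp.symm) (hv.trans hW.symm)
    _ = ⁅U, ⁅V, W⁆⁆ := h3.symm
    _ = ⁅u', v'⁆ := lift_comm_eq hc (hU.trans hu'.symm) (hr.trans hv'.symm)

/-- piece HE4 -/
theorem hypE4 (σ : Γ →* G) (hs : Function.Surjective σ) (hc : σ.ker ≤ Subgroup.center Γ) (hn : 4 ≤ n)
    (x : Fin n → Fin n → K → G) (hx : StRel x) (hC : HypC σ x) (hD : HypD σ x) : HypE σ x := by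
  intro i j j' l hij hjl hil hij' hj'l a b u v u' v' hu hv hu' hv'
  by_cases hjj' : j = j'
  · subst hjj'
    obtain ⟨m, hmi, hmj, hml⟩ := h40_exists_fourth hn i j l
    obtain ⟨U, hU⟩ := hs (x i m 1)
    obtain ⟨R, hR⟩ := hs (x m l (a * b))
    have e1 : ⁅u, v⁆ = ⁅U, R⁆ :=
      h40_hypE_ne σ hs hc x hx hC hD i j m l hij hjl hil hmi.symm hml hmj.symm a b u v U R
        hu hv hU hR
    have e2 : ⁅u', v'⁆ = ⁅U, R⁆ :=
      h40_hypE_ne σ hs hc x hx hC hD i j m l hij hjl hil hmi.symm hml hmj.symm 1 (a * b) u' v' U R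
        hu' hv' hU (by rw [one_mul]; exact hR)
    rw [e1, e2]
  · exact h40_hypE_ne σ hs hc x hx hC hD i j j' l hij hjl hil hij' hj'l hjj' a b u v u' v'
      hu hv hu' hv'

end abstract

end Cfsg.Agent.Lib.Helper48.Mul
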