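import Mathlib
import Cfsg.Agent.Lib.Helper48.MulA
import Cfsg.Agent.Lib.Helper70.StemTools
import Cfsg.Agent.Lib.Helper70.SchurCE

set_option autoImplicit false
open scoped commutatorElement

/-! # S2086 piece TRIV (helper40): trivial multiplier from sections of stem extensions. -/

namespace Cfsg.Agent.Lib.Helper48.Mul

open Cfsg.Agent.Lib.Helper48 Cfsg.Agent.Lib.Helper48.St Cfsg.Agent.Lib.Helper70

universe u

/-- piece TRIV -/
theorem trivial_of_sections {G : Type u} [Group G] [Finite G]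
    (h : ∀ (Γ : Type u) [Group Γ] [Finite Γ] (σ : Γ →* G), Cfsg.IsStemExtension σ →
      ∃ ψ : G →* Γ, σ.comp ψ = MonoidHom.id G) :
    Cfsg.HasCyclicSchurMultiplier G 1 := by
  rw [Cfsg.Agent.Lib.Helper70.hasCyclicSchurMultiplier_one_iff]
  intro Γ _ _ σ hσ
  obtain ⟨ψ, hψ⟩ := h Γ σ hσ
  have hsec : ∀ g : G, σ (ψ g) = g := fun g => by
    have := congrArg (fun f : G →* G => f g) hψ
    simpa using this
  obtain ⟨-, hcen, hcomm⟩ := hσ
  have h1 : commutator Γ ≤ ⁅ψ.range, ψ.range⁆ := by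
    apply Cfsg.Agent.Lib.Helper70.commutator_le_of_central_supplement
    intro γ
    refine ⟨ψ (σ γ), ⟨σ γ, rfl⟩, (ψ (σ γ))⁻¹ * γ, ?_, by group⟩
    apply hcen
    rw [MonoidHom.mem_ker, map_mul, map_inv, hsec, inv_mul_cancel]
  have h2 : ⁅ψ.range, ψ.range⁆ ≤ ψ.range := by
    rw [Subgroup.commutator_le]
    intro a ha b hb
    exact Subgroup.commutator_mem_commutator (H₁ := ψ.range) (H₂ := ψ.range) ha hb |> fun _ =>
      ψ.range.mul_mem (ψ.range.mul_mem (ψ.range.mul_mem ha hb) (ψ.range.inv_mem ha))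
        (ψ.range.inv_mem hb)
  rw [eq_bot_iff]
  intro x hx
  obtain ⟨g, rfl⟩ := h2 (h1 (hcomm hx))
  rw [MonoidHom.mem_ker, hsec] at hx
  rw [hx, map_one]
  exact Subgroup.mem_bot.mpr rfl
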