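import Mathlib
import Cfsg.Agent.S0494
import Cfsg.Agent.S0497

set_option autoImplicit false

/-! # S3431 pieces END5, END6 (helper40): endgames for `A₅`, `A₆` from order counts. -/

namespace Cfsg.Agent.Lib.Helper40.NseEnd

open Function

/-- conjugation by a normalizing element, as a permutation of the subgroup -/
noncomputable def conjPerm {G : Type*} [Group G] (Q : Subgroup G) (x : G)
    (hx : x ∈ Subgroup.normalizer (Q : Set G)) : Equiv.Perm Q where
  toFun y := ⟨x * y * x⁻¹, (Subgroup.mem_normalizer_iff.mp hx y).mp y.2⟩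
  invFun y := ⟨x⁻¹ * y * x, by
    have h := (Subgroup.mem_normalizer_iff.mp hx (x⁻¹ * y * x)).mpr
    apply h
    have e : x * (x⁻¹ * (y : G) * x) * x⁻¹ = y := by group
    rw [e]; exact y.2⟩
  left_inv y := by apply Subtype.ext; simp only; group
  right_inv y := by apply Subtype.ext; simp only; group

theorem conjPerm_apply {G : Type*} [Group G] (Q : Subgroup G) (x : G)
    (hx : x ∈ Subgroup.normalizer (Q : Set G)) (y : Q) :
    ((conjPerm Q x hx y : Q) : G) = x * y * x⁻¹ := rfl

theorem conjPerm_pow {G : Type*} [Group G] (Q : Subgroup G) (x : G)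
    (hx : x ∈ Subgroup.normalizer (Q : Set G)) (k : ℕ) (y : Q) :
    ((((conjPerm Q x hx) ^ k) y : Q) : G) = x ^ k * y * (x⁻¹) ^ k := by
  induction k generalizing y with
  | zero => simp
  | succ k ih =>
    rw [pow_succ, Equiv.Perm.mul_apply, ih, conjPerm_apply, pow_succ, pow_succ']
    group

/-- a normalizing element of order 5 commutes with a nontrivial element of `Q` if
`|Q| ≢ 1 mod 5` -/
theorem exists_commute {G : Type*} [Group G] [Finite G] (Q : Subgroup G) (x : G)
    (hx : x ∈ Subgroup.normalizer (Q : Set G)) (hx5 : orderOf x = 5)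
    (hQ : ¬ Nat.card Q ≡ 1 [MOD 5]) :
    ∃ y ∈ Q, y ≠ 1 ∧ Commute x y := by
  classical
  haveI : Fact (Nat.Prime 5) := ⟨by norm_num⟩
  letI : Fintype Q := Fintype.ofFinite Q
  have hf : (conjPerm Q x hx) ^ 5 ^ 1 = 1 := by
    ext y
    rw [pow_one, conjPerm_pow]
    have h1 : x ^ 5 = 1 := by rw [← hx5]; exact pow_orderOf_eq_one x
    have h2 : (x⁻¹) ^ 5 = 1 := by rw [inv_pow, h1, inv_one]
    rw [h1, h2]
    simp
  have hmod := Equiv.Perm.card_compl_support_modEq hf
  by_contra hcon
  push Not at hcon
  apply hQ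
  rw [Nat.card_eq_fintype_card]
  refine hmod.symm.trans ?_
  have hcompl : (Equiv.Perm.support (conjPerm Q x hx))ᶜ = {1} := by
    ext y
    rw [Finset.mem_compl, Equiv.Perm.mem_support, not_not, Finset.mem_singleton]
    constructor
    · intro hy
      by_contra hy1
      have hy' : x * (y : G) * x⁻¹ = y := by
        rw [← conjPerm_apply Q x hx y, hy]
      have hcomm : Commute x (y : G) := by
        show x * y = y * x
        calc x * (y : G) = x * y * x⁻¹ * x := by group
          _ = y * x := by rw [hy']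
      exact hcon y y.2 (fun h => hy1 (Subtype.ext h)) hcomm
    · rintro rfl
      apply Subtype.ext
      rw [conjPerm_apply]
      simp
  rw [hcompl, Finset.card_singleton]

/-- elements of prime order `p` lie in every normal subgroup of index prime to `p` -/
theorem mem_of_orderOf_prime {G : Type*} [Group G] [Finite G] (N : Subgroup G) [N.Normal]
    (p : ℕ) (hp : p.Prime) (hidx : ¬ p ∣ N.index) (x : G) (hx : orderOf x = p) : x ∈ N := by
  have h1 : orderOf (QuotientGroup.mk' N x) ∣ p := by
    rw [← hx]; exact orderOf_map_dvd _ x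
  have h2 : orderOf (QuotientGroup.mk' N x) ∣ N.index := by
    rw [Subgroup.index_eq_card]; exact orderOf_dvd_natCard _
  have h3 : orderOf (QuotientGroup.mk' N x) = 1 := by
    rcases (Nat.dvd_prime hp).mp h1 with h | h
    · exact h
    · exact absurd (h ▸ h2) hidx
  rw [orderOf_eq_one_iff] at h3
  exact (QuotientGroup.eq_one_iff x).mp h3

/-- the general simplicity criterion -/
theorem simple_of_counts {G : Type*} [Group G] [Finite G] (N₀ c3 c5 : ℕ)
    (hN : Nat.card G = N₀) (h5dvd : 5 ∣ N₀) (h25 : ¬ 25 ∣ N₀) (h1 : 1 < N₀)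
    (h3 : Nat.card {g : G // orderOf g = 3} = c3) (h5 : Nat.card {g : G // orderOf g = 5} = c5)
    (hA : ∀ n k, n * k = N₀ → 5 ∣ n → 1 + c5 ≤ n → n < N₀ → (¬ 3 ∣ k ∧ n < 1 + c5 + c3))
    (hB : ∀ m, m ∣ N₀ → ¬ 5 ∣ m → IsPrimePow m → ¬ m ≡ 1 [MOD 5])
    (hord : ∀ g : G, 5 ∣ orderOf g → orderOf g = 5) : IsSimpleGroup G := by
  classical
  haveI : Nontrivial G := by
    rw [← Finite.one_lt_card_iff_nontrivial, hN]; exact h1
  refine ⟨fun N hNn => ?_⟩
  by_contra hcon
  push Not at hcon
  obtain ⟨hbot, htop⟩ := hcon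
  have hn : Nat.card N * N.index = N₀ := by rw [Subgroup.card_mul_index, hN]
  have hn1 : 1 < Nat.card N := (Subgroup.one_lt_card_iff_ne_bot N).mpr hbot
  have hidx1 : N.index ≠ 1 := fun h => htop (Subgroup.index_eq_one.mp h)
  have hidx0 : N.index ≠ 0 := Subgroup.index_ne_zero_of_finite
  have hnlt : Nat.card N < N₀ := by
    have : 2 ≤ N.index := by omega
    nlinarith
  have h5p : Nat.Prime 5 := by norm_num
  have h3p : Nat.Prime 3 := by norm_num
  have hS5 : Nat.card {g : G // orderOf g = 5} = ({g : G | orderOf g = 5} : Set G).ncard :=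
    Nat.card_coe_set_eq _
  have hS3 : Nat.card {g : G // orderOf g = 3} = ({g : G | orderOf g = 3} : Set G).ncard :=
    Nat.card_coe_set_eq _
  have hNc : Nat.card N = (N : Set G).ncard := Nat.card_coe_set_eq _
  by_cases h5n : 5 ∣ Nat.card N
  · -- case A
    have h5i : ¬ 5 ∣ N.index := by
      intro h
      apply h25
      rw [← hn]
      exact Nat.mul_dvd_mul h5n h
    have hsub5 : ({g : G | orderOf g = 5} : Set G) ⊆ N := fun g hg =>
      mem_of_orderOf_prime N 5 h5p h5i g hg
    have hdisj1 : Disjoint ({1} : Set G) {g : G | orderOf g = 5} := by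
      rw [Set.disjoint_left]
      rintro g hg1 hg5
      rw [Set.mem_singleton_iff] at hg1
      rw [Set.mem_setOf_eq, hg1, orderOf_one] at hg5
      omega
    have hge : 1 + c5 ≤ Nat.card N := by
      rw [hNc, ← h5, hS5, ← Set.ncard_singleton (1 : G),
        ← Set.ncard_union_eq hdisj1 (Set.toFinite _) (Set.toFinite _)]
      apply Set.ncard_le_ncard _ (Set.toFinite _)
      intro g hg
      rcases hg with hg | hg
      · rw [Set.mem_singleton_iff] at hg; rw [hg]; exact N.one_mem
      · exact hsub5 hg
    obtain ⟨h3i, hlt⟩ := hA _ _ hn h5n hge hnlt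
    have hsub3 : ({g : G | orderOf g = 3} : Set G) ⊆ N := fun g hg =>
      mem_of_orderOf_prime N 3 h3p h3i g hg
    have hdisj2 : Disjoint (({1} : Set G) ∪ {g : G | orderOf g = 5}) {g : G | orderOf g = 3} := by
      rw [Set.disjoint_left]
      rintro g hg hg3
      rw [Set.mem_setOf_eq] at hg3
      rcases hg with hg | hg
      · rw [Set.mem_singleton_iff] at hg
        rw [hg, orderOf_one] at hg3
        omega
      · rw [Set.mem_setOf_eq] at hg
        omega
    have hge2 : 1 + c5 + c3 ≤ Nat.card N := by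
      rw [hNc, ← h5, ← h3, hS5, hS3, ← Set.ncard_singleton (1 : G),
        ← Set.ncard_union_eq hdisj1 (Set.toFinite _) (Set.toFinite _),
        ← Set.ncard_union_eq hdisj2 (Set.toFinite _) (Set.toFinite _)]
      apply Set.ncard_le_ncard _ (Set.toFinite _)
      intro g hg
      rcases hg with (hg | hg) | hg
      · rw [Set.mem_singleton_iff] at hg; rw [hg]; exact N.one_mem
      · exact hsub5 hg
      · exact hsub3 hg
    omega
  · -- case B
    obtain ⟨p, hp, hpn⟩ := Nat.exists_prime_and_dvd (show Nat.card N ≠ 1 by omega)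
    haveI : Fact p.Prime := ⟨hp⟩
    obtain ⟨Q⟩ : Nonempty (Sylow p N) := inferInstance
    set Q' : Subgroup G := (Q : Subgroup N).map N.subtype with hQ'
    have hcardQ' : Nat.card Q' = Nat.card (Q : Subgroup N) :=
      Subgroup.card_map_of_injective N.subtype_injective
    have hQdvd : Nat.card Q' ∣ Nat.card N := by
      rw [hcardQ']; exact Subgroup.card_subgroup_dvd_card _
    obtain ⟨k, hk⟩ := (IsPGroup.iff_card.mp Q.2)
    have hk0 : k ≠ 0 := by
      rintro rfl
      have hQbot : (Q : Subgroup N) = ⊥ := Subgroup.card_eq_one.mp (by rw [hk, pow_zero])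
      exact (Sylow.ne_bot_of_dvd_card Q hpn) hQbot
    have hpp : IsPrimePow (Nat.card Q') := by
      rw [hcardQ', hk]
      exact hp.isPrimePow.pow hk0
    have h5Q : ¬ 5 ∣ Nat.card Q' := fun h => h5n (h.trans hQdvd)
    have hmod : ¬ Nat.card Q' ≡ 1 [MOD 5] :=
      hB _ (hQdvd.trans (Dvd.intro _ hn)) h5Q hpp
    -- Frattini
    have hfr : Subgroup.normalizer (Q' : Set G) ⊔ N = ⊤ := Sylow.normalizer_sup_eq_top Q
    have h5idx : 5 ∣ N.index := by
      have : 5 ∣ Nat.card N * N.index := hn ▸ h5dvd
      rcases (Nat.Prime.dvd_mul h5p).mp this with h | h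
      · exact absurd h h5n
      · exact h
    have hrel : N.index = N.relIndex (Subgroup.normalizer (Q' : Set G)) := by
      rw [← Subgroup.relIndex_sup_right (H := Subgroup.normalizer (Q' : Set G)) (K := N), hfr,
        Subgroup.relIndex_top_right]
    have h5A : 5 ∣ Nat.card (Subgroup.normalizer (Q' : Set G)) := by
      have := Subgroup.relIndex_dvd_card N (Subgroup.normalizer (Q' : Set G))
      rw [← hrel] at this
      exact h5idx.trans this
    haveI : Fact (Nat.Prime 5) := ⟨h5p⟩
    obtain ⟨x, hx⟩ := exists_prime_orderOf_dvd_card' 5 h5A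
    have hx5 : orderOf (x : G) = 5 := by rw [Subgroup.orderOf_coe, hx]
    obtain ⟨y, hyQ, hy1, hcomm⟩ := exists_commute Q' (x : G) x.2 hx5 hmod
    have hyord : orderOf y ∣ p ^ k := by
      have h1 : orderOf (⟨y, hyQ⟩ : Q') ∣ Nat.card Q' := orderOf_dvd_natCard _
      rw [hcardQ', hk] at h1
      rw [← Subgroup.orderOf_mk y hyQ]
      exact h1
    obtain ⟨j, -, hj⟩ := (Nat.dvd_prime_pow hp).mp hyord
    have hj0 : j ≠ 0 := by
      rintro rfl
      rw [pow_zero, orderOf_eq_one_iff] at hj
      exact hy1 hj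
    have hp5 : p ≠ 5 := by
      rintro rfl
      exact h5n hpn
    have hcop : Nat.Coprime (orderOf (x : G)) (orderOf y) := by
      rw [hx5, hj]
      apply Nat.Coprime.pow_right
      exact (Nat.coprime_primes h5p hp).mpr (Ne.symm hp5)
    have hmul := hcomm.orderOf_mul_eq_mul_orderOf_of_coprime hcop
    have h5div : 5 ∣ orderOf ((x : G) * y) := by
      rw [hmul, hx5]; exact dvd_mul_right _ _
    have := hord _ h5div
    rw [hmul, hx5, hj] at this
    have hpj : 2 ≤ p ^ j := by
      calc 2 ≤ p := hp.two_le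
        _ = p ^ 1 := (pow_one p).symm
        _ ≤ p ^ j := Nat.pow_le_pow_right hp.pos (by omega)
    omega

/-- piece END5 -/
theorem nse_end5 {G : Type*} [Group G] [Finite G] (hN : Nat.card G = 60)
    (h3 : Nat.card {g : G // orderOf g = 3} = 20) (h5 : Nat.card {g : G // orderOf g = 5} = 24)
    (hord : ∀ g : G, orderOf g = 1 ∨ orderOf g = 2 ∨ orderOf g = 3 ∨ orderOf g = 5) :
    Nonempty (G ≃* ↥(alternatingGroup (Fin 5))) := by
  haveI : IsSimpleGroup G := by
    apply simple_of_counts 60 20 24 hN (by norm_num) (by norm_num) (by norm_num) h3 h5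
    · intro n k hnk h5n hge hlt
      have hk : k ≤ 2 := by
        by_contra hk
        have : 3 ≤ k := by omega
        nlinarith
      have hk0 : k ≠ 0 := by rintro rfl; omega
      interval_cases k <;> first | omega | exact ⟨by norm_num, by omega⟩
    · intro m hm h5m hpp
      have hle : m ≤ 60 := Nat.le_of_dvd (by norm_num) hm
      intro hmod
      have h1 : m % 5 = 1 := hmod
      have hpos : 0 < m := Nat.pos_of_dvd_of_pos hm (by norm_num)
      interval_cases m <;> first | omega | (exfalso; revert hm; decide) | (exfalso; revert hpp; decide)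
    · intro g hg
      rcases hord g with h | h | h | h <;> omega
  exact Cfsg.Agent.S0494.result hN

/-- piece END6 -/
theorem nse_end6 {G : Type*} [Group G] [Finite G] (hN : Nat.card G = 360)
    (h3 : Nat.card {g : G // orderOf g = 3} = 80) (h5 : Nat.card {g : G // orderOf g = 5} = 144)
    (hord : ∀ g : G, orderOf g = 1 ∨ orderOf g = 2 ∨ orderOf g = 3 ∨ orderOf g = 4 ∨
      orderOf g = 5) :
    Nonempty (G ≃* ↥(alternatingGroup (Fin 6))) := by
  haveI : IsSimpleGroup G := by
    apply simple_of_counts 360 80 144 hN (by norm_num) (by norm_num) (by norm_num) h3 h5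
    · intro n k hnk h5n hge hlt
      have hk : k ≤ 2 := by
        by_contra hk
        have : 3 ≤ k := by omega
        nlinarith
      have hk0 : k ≠ 0 := by rintro rfl; omega
      interval_cases k <;> first | omega | exact ⟨by norm_num, by omega⟩
    · intro m hm h5m hpp
      intro hmod
      have h1 : m % 5 = 1 := hmod
      obtain ⟨p, k, hp, hk, rfl⟩ := (isPrimePow_nat_iff m).mp hpp
      have hpdvd : p ∣ 360 := (dvd_pow_self p (by omega)).trans hm
      have hple : p ≤ 360 := Nat.le_of_dvd (by norm_num) hpdvd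
      have hp235 : p = 2 ∨ p = 3 ∨ p = 5 := by
        have h360 : (360 : ℕ) = 2 ^ 3 * 3 ^ 2 * 5 := by norm_num
        rw [h360] at hpdvd
        rcases (Nat.Prime.dvd_mul hp).mp hpdvd with h | h
        · rcases (Nat.Prime.dvd_mul hp).mp h with h | h
          · left; exact (Nat.prime_dvd_prime_iff_eq hp (by norm_num)).mp (hp.dvd_of_dvd_pow h)
          · right; left
            exact (Nat.prime_dvd_prime_iff_eq hp (by norm_num)).mp (hp.dvd_of_dvd_pow h)
        · right; right; exact (Nat.prime_dvd_prime_iff_eq hp (by norm_num)).mp h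
      rcases hp235 with rfl | rfl | rfl
      · have hk3 : k ≤ 3 := by
          by_contra hk3
          have : (2 : ℕ) ^ 4 ∣ 360 := (pow_dvd_pow 2 (by omega)).trans hm
          revert this; decide
        interval_cases k <;> omega
      · have hk3 : k ≤ 2 := by
          by_contra hk3
          have : (3 : ℕ) ^ 3 ∣ 360 := (pow_dvd_pow 3 (by omega)).trans hm
          revert this; decide
        interval_cases k <;> omega
      · exact h5m (dvd_pow_self 5 (by omega))
    · intro g hg
      rcases hord g with h | h | h | h | h <;> omega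
  exact Cfsg.Agent.S0497.result hN

end Cfsg.Agent.Lib.Helper40.NseEnd
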