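import Mathlib

set_option autoImplicit false

/-! # S3431 piece NUM4 (helper40): arithmetic lemma for `nse(A₄)`, and a generic
divisibility lemma for `{2,3,5}`-numbers. -/

namespace Cfsg.Agent.Lib.Helper40.NseNum

/-- a positive number whose prime divisors are among `2, 3, 5`, with bounded exponents -/
theorem dvd_of_prime_bounds (N a b c : ℕ) (hN0 : 0 < N)
    (hpr : ∀ p, p.Prime → p ∣ N → p = 2 ∨ p = 3 ∨ p = 5)
    (h2 : ¬ 2 ^ (a + 1) ∣ N) (h3 : ¬ 3 ^ (b + 1) ∣ N) (h5 : ¬ 5 ^ (c + 1) ∣ N) :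
    N ∣ 2 ^ a * 3 ^ b * 5 ^ c := by
  obtain ⟨e2, m2, hm2, hN⟩ := Nat.exists_eq_pow_mul_and_not_dvd hN0.ne' 2 (by norm_num)
  have hm20 : m2 ≠ 0 := by rintro rfl; simp at hN; omega
  obtain ⟨e3, m3, hm3, hM2⟩ := Nat.exists_eq_pow_mul_and_not_dvd hm20 3 (by norm_num)
  have hm30 : m3 ≠ 0 := by rintro rfl; simp at hM2; omega
  obtain ⟨e5, m5, hm5, hM3⟩ := Nat.exists_eq_pow_mul_and_not_dvd hm30 5 (by norm_num)
  have hm5m3 : m5 ∣ m3 := ⟨5 ^ e5, by rw [hM3]; ring⟩
  have hm3m2 : m3 ∣ m2 := ⟨3 ^ e3, by rw [hM2]; ring⟩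
  have hm2N : m2 ∣ N := ⟨2 ^ e2, by rw [hN]; ring⟩
  have hm51 : m5 = 1 := by
    by_contra hne
    obtain ⟨p, hp, hpm⟩ := Nat.exists_prime_and_dvd hne
    rcases hpr p hp (hpm.trans (hm5m3.trans (hm3m2.trans hm2N))) with rfl | rfl | rfl
    · exact hm2 (hpm.trans (hm5m3.trans hm3m2))
    · exact hm3 (hpm.trans hm5m3)
    · exact hm5 hpm
  have hNeq : N = 2 ^ e2 * 3 ^ e3 * 5 ^ e5 := by
    rw [hN, hM2, hM3, hm51]; ring
  have he2 : e2 ≤ a := by
    by_contra hlt
    apply h2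
    rw [hNeq]
    exact Dvd.dvd.mul_right (Dvd.dvd.mul_right (pow_dvd_pow 2 (by omega)) _) _
  have he3 : e3 ≤ b := by
    by_contra hlt
    apply h3
    rw [hNeq]
    exact Dvd.dvd.mul_right (Dvd.dvd.mul_left (pow_dvd_pow 3 (by omega)) _) _
  have he5 : e5 ≤ c := by
    by_contra hlt
    apply h5
    rw [hNeq]
    exact Dvd.dvd.mul_left (pow_dvd_pow 5 (by omega)) _
  rw [hNeq]
  exact Nat.mul_dvd_mul (Nat.mul_dvd_mul (pow_dvd_pow 2 he2) (pow_dvd_pow 3 he3))
    (pow_dvd_pow 5 he5)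

/-- the unique `m` with `s m` odd and `> 1` is `2` -/
theorem eq_two_of_odd_value (s : ℕ → ℕ) (h1 : s 1 = 1) (hphi : ∀ m, Nat.totient m ∣ s m)
    (m v : ℕ) (hv : s m = v) (hodd : ¬ 2 ∣ v) (hv1 : v ≠ 1) : m = 2 := by
  by_contra hm2
  have hm0 : m ≠ 0 := by
    rintro rfl
    have := hphi 0
    rw [Nat.totient_zero, zero_dvd_iff] at this
    rw [this] at hv
    apply hodd
    rw [← hv]
    exact dvd_zero _
  have hm1 : m ≠ 1 := by
    rintro rfl
    exact hv1 (hv ▸ h1)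
  have h3 : 2 < m := by omega
  have heven := Nat.totient_even h3
  have := (even_iff_two_dvd.mp heven).trans (hphi m)
  rw [hv] at this
  exact hodd this

/-- for a prime `p ∣ N`: `s p ≠ 0`, `(p - 1) ∣ s p`, `p ∣ 1 + s p` -/
theorem prime_facts (N : ℕ) (s : ℕ → ℕ) (h1 : s 1 = 1)
    (hphi : ∀ m, Nat.totient m ∣ s m)
    (hF : ∀ m, m ∣ N → m ∣ ∑ d ∈ m.divisors, s d)
    (hp : ∀ p, p.Prime → p ∣ N → s p ≠ 0) (p : ℕ) (hpp : p.Prime) (hpN : p ∣ N) :
    s p ≠ 0 ∧ (p - 1) ∣ s p ∧ p ∣ 1 + s p := by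
  refine ⟨hp p hpp hpN, ?_, ?_⟩
  · have := hphi p
    rwa [Nat.totient_prime hpp] at this
  · have := hF p hpN
    rw [Nat.Prime.sum_divisors hpp, h1] at this
    rwa [add_comm]

/-- piece NUM4 -/
theorem nse_num4 (N : ℕ) (s : ℕ → ℕ) (hN0 : 0 < N)
    (h1 : s 1 = 1)
    (hphi : ∀ m, Nat.totient m ∣ s m)
    (hF : ∀ m, m ∣ N → m ∣ ∑ d ∈ m.divisors, s d)
    (hsum : N = ∑ d ∈ N.divisors, s d)
    (hdiv : ∀ m d, s m ≠ 0 → d ∣ m → s d ≠ 0)
    (hord : ∀ m, s m ≠ 0 → m ∣ N)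
    (hp : ∀ p, p.Prime → p ∣ N → s p ≠ 0)
    (hV : ∀ m, s m = 0 ∨ s m = 1 ∨ s m = 3 ∨ s m = 8)
    (h3 : ∃ m, s m = 3) (h8 : ∃ m, s m = 8) :
    N = 12 ∧ s 3 = 8 := by
  -- step 1
  obtain ⟨m3, hm3⟩ := h3
  have hm32 : m3 = 2 := eq_two_of_odd_value s h1 hphi m3 3 hm3 (by norm_num) (by norm_num)
  subst hm32
  have h2N : 2 ∣ N := hord 2 (by omega)
  -- step 2
  have hprimes : ∀ p, p.Prime → p ∣ N → p = 2 ∨ (p = 3 ∧ s 3 = 8) := by
    intro p hpp hpN
    obtain ⟨hne, hd1, hd2⟩ := prime_facts N s h1 hphi hF hp p hpp hpN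
    have hp2 := hpp.two_le
    rcases hV p with h | h | h | h
    · exact absurd h hne
    · rw [h] at hd2
      left
      exact (Nat.prime_dvd_prime_iff_eq hpp Nat.prime_two).mp hd2
    · rw [h] at hd2
      left
      have : p ∣ 2 ^ 2 := by norm_num; exact hd2
      exact (Nat.prime_dvd_prime_iff_eq hpp Nat.prime_two).mp (hpp.dvd_of_dvd_pow this)
    · rw [h] at hd2
      right
      have : p ∣ 3 ^ 2 := by norm_num; exact hd2
      have hp3 : p = 3 :=
        (Nat.prime_dvd_prime_iff_eq hpp Nat.prime_three).mp (hpp.dvd_of_dvd_pow this)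
      subst hp3
      exact ⟨rfl, h⟩
  have hpr : ∀ p, p.Prime → p ∣ N → p = 2 ∨ p = 3 ∨ p = 5 := by
    intro p hpp hpN
    rcases hprimes p hpp hpN with h | ⟨h, -⟩
    · exact Or.inl h
    · exact Or.inr (Or.inl h)
  have h3N : 3 ∣ N → s 3 = 8 := by
    intro h
    rcases hprimes 3 Nat.prime_three h with h | ⟨-, h⟩
    · omega
    · exact h
  -- step 3
  obtain ⟨m8, hm8⟩ := h8
  have hm8N : m8 ∣ N := hord m8 (by omega)
  have hm81 : m8 ≠ 1 := by rintro rfl; omega
  have hm82 : m8 ≠ 2 := by rintro rfl; omega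
  have hN12 : 12 ≤ N := by
    have hsub : ({1, 2, m8} : Finset ℕ) ⊆ N.divisors := by
      intro d hd
      simp only [Finset.mem_insert, Finset.mem_singleton] at hd
      rw [Nat.mem_divisors]
      refine ⟨?_, hN0.ne'⟩
      rcases hd with rfl | rfl | rfl
      · exact one_dvd _
      · exact h2N
      · exact hm8N
    have hle := Finset.sum_le_sum_of_subset (f := s) hsub
    rw [← hsum] at hle
    have hs : ∑ d ∈ ({1, 2, m8} : Finset ℕ), s d = s 1 + (s 2 + s m8) := by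
      rw [Finset.sum_insert, Finset.sum_insert, Finset.sum_singleton]
      · simp only [Finset.mem_singleton]; exact fun h => hm82 h.symm
      · simp only [Finset.mem_insert, Finset.mem_singleton]
        rintro (h | h)
        · omega
        · exact hm81 h.symm
    rw [hs] at hle
    omega
  -- values
  have hs4 : s 4 = 0 ∨ s 4 = 8 := by
    have := hphi 4
    rw [show Nat.totient 4 = 2 by decide] at this
    rcases hV 4 with h | h | h | h <;> rw [h] at this <;> omega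
  have hs8 : s 8 = 0 ∨ s 8 = 8 := by
    have := hphi 8
    rw [show Nat.totient 8 = 4 by decide] at this
    rcases hV 8 with h | h | h | h <;> rw [h] at this <;> omega
  have hs9 : s 9 = 0 := by
    have := hphi 9
    rw [show Nat.totient 9 = 6 by decide] at this
    rcases hV 9 with h | h | h | h <;> rw [h] at this <;> omega
  have hs27 : s 27 = 0 := by
    have := hphi 27
    rw [show Nat.totient 27 = 18 by decide] at this
    rcases hV 27 with h | h | h | h <;> rw [h] at this <;> omega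
  have hs18 : s 18 = 0 := by
    have := hphi 18
    rw [show Nat.totient 18 = 6 by decide] at this
    rcases hV 18 with h | h | h | h <;> rw [h] at this <;> omega
  have hs6 : s 6 = 0 ∨ s 6 = 8 := by
    have := hphi 6
    rw [show Nat.totient 6 = 2 by decide] at this
    rcases hV 6 with h | h | h | h <;> rw [h] at this <;> omega
  -- step 4
  have h8N : ¬ 8 ∣ N := by
    intro h
    have := hF 8 h
    rw [show Nat.divisors 8 = {1, 2, 4, 8} by decide] at this
    simp at this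
    omega
  -- step 5
  have h27N : ¬ 27 ∣ N := by
    intro h
    have h3' := h3N ((show 3 ∣ 27 by norm_num).trans h)
    have := hF 27 h
    rw [show Nat.divisors 27 = {1, 3, 9, 27} by decide] at this
    simp at this
    omega
  -- step 6
  have h18N : ¬ 18 ∣ N := by
    intro h
    have h3' := h3N ((show 3 ∣ 18 by norm_num).trans h)
    have := hF 18 h
    rw [show Nat.divisors 18 = {1, 2, 3, 6, 9, 18} by decide] at this
    simp at this
    omega
  have h9N : ¬ 9 ∣ N := by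
    intro h
    apply h18N
    have : Nat.Coprime 2 9 := by norm_num
    exact this.mul_dvd_of_dvd_of_dvd h2N h
  -- step 7
  have h5N : ¬ 5 ^ (0 + 1) ∣ N := by
    intro h
    rcases hprimes 5 (by norm_num) (by simpa using h) with h | ⟨h, -⟩ <;> omega
  have hdvd := dvd_of_prime_bounds N 2 1 0 hN0 hpr (by simpa using h8N) (by simpa using h9N) h5N
  have hN12' : N = 12 := by
    have : N ∣ 12 := by simpa using hdvd
    have := Nat.le_of_dvd (by norm_num) this
    omega
  refine ⟨hN12', h3N ?_⟩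
  rw [hN12']
  norm_num

end Cfsg.Agent.Lib.Helper40.NseNum
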