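import Mathlib
import Cfsg.Agent.Lib.Helper40.NseNum4

set_option autoImplicit false
set_option maxRecDepth 4000

/-! # S3431 piece NUM5 (helper40): arithmetic lemma for `nse(A₅)`. -/

namespace Cfsg.Agent.Lib.Helper40.NseNum

/-- piece NUM5 -/
theorem nse_num5 (N : ℕ) (s : ℕ → ℕ) (hN0 : 0 < N)
    (h1 : s 1 = 1)
    (hphi : ∀ m, Nat.totient m ∣ s m)
    (hF : ∀ m, m ∣ N → m ∣ ∑ d ∈ m.divisors, s d)
    (hsum : N = ∑ d ∈ N.divisors, s d)
    (hdiv : ∀ m d, s m ≠ 0 → d ∣ m → s d ≠ 0)
    (hord : ∀ m, s m ≠ 0 → m ∣ N)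
    (hp : ∀ p, p.Prime → p ∣ N → s p ≠ 0)
    (hV : ∀ m, s m = 0 ∨ s m = 1 ∨ s m = 15 ∨ s m = 20 ∨ s m = 24)
    (h15 : ∃ m, s m = 15) (h20 : ∃ m, s m = 20) (h24 : ∃ m, s m = 24) :
    N = 60 ∧ s 3 = 20 ∧ s 5 = 24 ∧ ∀ m, s m ≠ 0 → m = 1 ∨ m = 2 ∨ m = 3 ∨ m = 5 := by
  have hz : ∀ d m, d ∣ m → s d = 0 → s m = 0 := fun d m hdm hd => by
    by_contra h; exact hdiv m d h hdm hd
  have val : ∀ m t, Nat.totient m = t →
      t ∣ s m ∧ (s m = 0 ∨ s m = 1 ∨ s m = 15 ∨ s m = 20 ∨ s m = 24) :=
    fun m t ht => ⟨ht ▸ hphi m, hV m⟩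
  -- step 1
  obtain ⟨m15, hm15⟩ := h15
  have hm152 : m15 = 2 :=
    eq_two_of_odd_value s h1 hphi m15 15 hm15 (by norm_num) (by norm_num)
  subst hm152
  have hs2 : s 2 = 15 := hm15
  have h2N : 2 ∣ N := hord 2 (by omega)
  -- step 2
  have hprimes : ∀ p, p.Prime → p ∣ N → p = 2 ∨ (p = 3 ∧ s 3 = 20) ∨ (p = 5 ∧ s 5 = 24) := by
    intro p hpp hpN
    obtain ⟨hne, hd1, hd2⟩ := prime_facts N s h1 hphi hF hp p hpp hpN
    rcases hV p with h | h | h | h | h
    · exact absurd h hne
    · rw [h] at hd2
      left
      exact (Nat.prime_dvd_prime_iff_eq hpp Nat.prime_two).mp hd2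
    · rw [h] at hd2
      left
      have : p ∣ 2 ^ 4 := by norm_num; exact hd2
      exact (Nat.prime_dvd_prime_iff_eq hpp Nat.prime_two).mp (hpp.dvd_of_dvd_pow this)
    · rw [h] at hd2 hd1
      have : p ∣ 3 * 7 := by norm_num; exact hd2
      rcases (Nat.Prime.dvd_mul hpp).mp this with h3 | h7
      · have hp3 := (Nat.prime_dvd_prime_iff_eq hpp Nat.prime_three).mp h3
        subst hp3
        right; left
        exact ⟨rfl, h⟩
      · have hp7 := (Nat.prime_dvd_prime_iff_eq hpp (by norm_num : Nat.Prime 7)).mp h7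
        subst hp7
        omega
    · rw [h] at hd2
      have : p ∣ 5 ^ 2 := by norm_num; exact hd2
      have hp5 :=
        (Nat.prime_dvd_prime_iff_eq hpp (by norm_num : Nat.Prime 5)).mp (hpp.dvd_of_dvd_pow this)
      subst hp5
      right; right
      exact ⟨rfl, h⟩
  have hpr : ∀ p, p.Prime → p ∣ N → p = 2 ∨ p = 3 ∨ p = 5 := by
    intro p hpp hpN
    rcases hprimes p hpp hpN with h | ⟨h, -⟩ | ⟨h, -⟩
    · exact Or.inl h
    · exact Or.inr (Or.inl h)
    · exact Or.inr (Or.inr h)
  have h3N : 3 ∣ N → s 3 = 20 := by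
    intro h
    rcases hprimes 3 Nat.prime_three h with h | ⟨-, h⟩ | ⟨h, -⟩
    · omega
    · exact h
    · omega
  have h5N : 5 ∣ N → s 5 = 24 := by
    intro h
    rcases hprimes 5 (by norm_num) h with h | ⟨h, -⟩ | ⟨-, h⟩
    · omega
    · omega
    · exact h
  -- step 3
  obtain ⟨m20, hm20⟩ := h20
  obtain ⟨m24, hm24⟩ := h24
  have hm20N : m20 ∣ N := hord m20 (by omega)
  have hm24N : m24 ∣ N := hord m24 (by omega)
  have hN60 : 60 ≤ N := by
    have hsub : ({1, 2, m20, m24} : Finset ℕ) ⊆ N.divisors := by
      intro d hd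
      simp only [Finset.mem_insert, Finset.mem_singleton] at hd
      rw [Nat.mem_divisors]
      refine ⟨?_, hN0.ne'⟩
      rcases hd with rfl | rfl | rfl | rfl
      · exact one_dvd _
      · exact h2N
      · exact hm20N
      · exact hm24N
    have hle := Finset.sum_le_sum_of_subset (f := s) hsub
    rw [← hsum] at hle
    have hs : ∑ d ∈ ({1, 2, m20, m24} : Finset ℕ), s d = s 1 + (s 2 + (s m20 + s m24)) := by
      rw [Finset.sum_insert, Finset.sum_insert, Finset.sum_insert, Finset.sum_singleton]
      · simp only [Finset.mem_singleton]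
        rintro rfl
        omega
      · simp only [Finset.mem_insert, Finset.mem_singleton]
        rintro (h | h)
        · rw [← h] at hm20; omega
        · rw [← h] at hm24; omega
      · simp only [Finset.mem_insert, Finset.mem_singleton]
        rintro (h | h | h)
        · omega
        · rw [← h] at hm20; omega
        · rw [← h] at hm24; omega
    rw [hs] at hle
    omega
  -- step 4
  have e8 : 8 ∣ N → (s 4 = 0 ∧ s 8 = 0) ∨ (s 4 = 24 ∧ s 8 = 0) ∨ (s 4 = 24 ∧ s 8 = 24) ∨
      (s 4 = 20 ∧ s 8 = 20) := by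
    intro h
    have F := hF 8 h
    rw [show Nat.divisors 8 = {1, 2, 4, 8} by decide] at F
    simp at F
    have v4 := val 4 2 (by decide)
    have v8 := val 8 4 (by decide)
    have z := hz 4 8 (by norm_num)
    clear * - F v4 v8 z h1 hs2
    omega
  have e16 : 16 ∣ N → (s 4 = 0 ∧ s 8 = 0 ∧ s 16 = 0) ∨ (s 4 = 24 ∧ s 8 = 24 ∧ s 16 = 0) ∨
      (s 4 = 20 ∧ s 8 = 20 ∧ s 16 = 24) := by
    intro h
    have F := hF 16 h
    rw [show Nat.divisors 16 = {1, 2, 4, 8, 16} by decide] at F
    simp at F
    have v4 := val 4 2 (by decide)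
    have v8 := val 8 4 (by decide)
    have v16 := val 16 8 (by decide)
    have z := hz 4 8 (by norm_num)
    have z' := hz 8 16 (by norm_num)
    clear * - F v4 v8 v16 z z' h1 hs2
    omega
  have e32 : 32 ∣ N → s 4 = 24 ∧ s 8 = 24 ∧ s 16 = 0 ∧ s 32 = 0 := by
    intro h
    have E := e16 ((show 16 ∣ 32 by norm_num).trans h)
    have F := hF 32 h
    rw [show Nat.divisors 32 = {1, 2, 4, 8, 16, 32} by decide] at F
    simp at F
    have v32 := val 32 16 (by decide)
    clear * - F E v32 h1 hs2
    omega
  have n128 : ¬ 128 ∣ N := by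
    intro h
    have E := e32 ((show 32 ∣ 128 by norm_num).trans h)
    have F := hF 128 h
    rw [show Nat.divisors 128 = {1, 2, 4, 8, 16, 32, 64, 128} by decide] at F
    simp at F
    have v64 := val 64 32 (by decide)
    have v128 := val 128 64 (by decide)
    clear * - F E v64 v128 h1 hs2
    omega
  -- step 5
  have e9 : 9 ∣ N → s 3 = 20 ∧ s 9 = 24 := by
    intro h
    have h3 := h3N ((show 3 ∣ 9 by norm_num).trans h)
    have F := hF 9 h
    rw [show Nat.divisors 9 = {1, 3, 9} by decide] at F
    simp at F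
    have v9 := val 9 6 (by decide)
    clear * - F h3 v9 h1
    omega
  have n27 : ¬ 27 ∣ N := by
    intro h
    have E := e9 ((show 9 ∣ 27 by norm_num).trans h)
    have F := hF 27 h
    rw [show Nat.divisors 27 = {1, 3, 9, 27} by decide] at F
    simp at F
    have v27 := val 27 18 (by decide)
    clear * - F E v27 h1
    omega
  -- step 6
  have e25 : 25 ∣ N → s 5 = 24 ∧ s 25 = 0 := by
    intro h
    have h5 := h5N ((show 5 ∣ 25 by norm_num).trans h)
    have F := hF 25 h
    rw [show Nat.divisors 25 = {1, 5, 25} by decide] at F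
    simp at F
    have v25 := val 25 20 (by decide)
    clear * - F h5 v25 h1
    omega
  have n125 : ¬ 125 ∣ N := by
    intro h
    have E := e25 ((show 25 ∣ 125 by norm_num).trans h)
    have F := hF 125 h
    rw [show Nat.divisors 125 = {1, 5, 25, 125} by decide] at F
    simp at F
    have v125 := val 125 100 (by decide)
    clear * - F E v125 h1
    omega
  -- step 7
  have e6 : 6 ∣ N → s 3 = 20 ∧ (s 6 = 0 ∨ s 6 = 24) := by
    intro h
    have h3 := h3N ((show 3 ∣ 6 by norm_num).trans h)
    have F := hF 6 h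
    rw [show Nat.divisors 6 = {1, 2, 3, 6} by decide] at F
    simp at F
    have v6 := val 6 2 (by decide)
    clear * - F h3 v6 h1 hs2
    omega
  have e10 : 10 ∣ N → s 5 = 24 ∧ (s 10 = 0 ∨ s 10 = 20) := by
    intro h
    have h5 := h5N ((show 5 ∣ 10 by norm_num).trans h)
    have F := hF 10 h
    rw [show Nat.divisors 10 = {1, 2, 5, 10} by decide] at F
    simp at F
    have v10 := val 10 4 (by decide)
    clear * - F h5 v10 h1 hs2
    omega
  have e15 : 15 ∣ N → s 3 = 20 ∧ s 5 = 24 ∧ s 15 = 0 := by
    intro h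
    have h3 := h3N ((show 3 ∣ 15 by norm_num).trans h)
    have h5 := h5N ((show 5 ∣ 15 by norm_num).trans h)
    have F := hF 15 h
    rw [show Nat.divisors 15 = {1, 3, 5, 15} by decide] at F
    simp at F
    have v15 := val 15 8 (by decide)
    clear * - F h3 h5 v15 h1
    omega
  -- step 8
  have n75 : ¬ 75 ∣ N := by
    intro h
    have E := e15 ((show 15 ∣ 75 by norm_num).trans h)
    have E' := e25 ((show 25 ∣ 75 by norm_num).trans h)
    have F := hF 75 h
    rw [show Nat.divisors 75 = {1, 3, 5, 15, 25, 75} by decide] at F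
    simp at F
    have v75 := val 75 40 (by decide)
    clear * - F E E' v75 h1
    omega
  have n45 : ¬ 45 ∣ N := by
    intro h
    have E := e15 ((show 15 ∣ 45 by norm_num).trans h)
    have E' := e9 ((show 9 ∣ 45 by norm_num).trans h)
    have F := hF 45 h
    rw [show Nat.divisors 45 = {1, 3, 5, 9, 15, 45} by decide] at F
    simp at F
    have z := hz 15 45 (by norm_num)
    clear * - F E E' z h1
    omega
  -- step 9
  have e20 : 20 ∣ N → (s 4 = 0 ∨ s 4 = 20) ∧ s 20 = 0 := by
    intro h
    have E := e10 ((show 10 ∣ 20 by norm_num).trans h)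
    have F := hF 20 h
    rw [show Nat.divisors 20 = {1, 2, 4, 5, 10, 20} by decide] at F
    simp at F
    have v4 := val 4 2 (by decide)
    have v20 := val 20 8 (by decide)
    have z := hz 4 20 (by norm_num)
    have z' := hz 10 20 (by norm_num)
    clear * - F E v4 v20 z z' h1 hs2
    omega
  by_cases h15N : 15 ∣ N
  · -- step 10
    have h3N' : 3 ∣ N := (show 3 ∣ 15 by norm_num).trans h15N
    have h5N' : 5 ∣ N := (show 5 ∣ 15 by norm_num).trans h15N
    have E15 := e15 h15N
    have n9 : ¬ 9 ∣ N := fun h =>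
      n45 ((by norm_num : Nat.Coprime 9 5).mul_dvd_of_dvd_of_dvd h h5N')
    have n25 : ¬ 25 ∣ N := fun h =>
      n75 ((by norm_num : Nat.Coprime 3 25).mul_dvd_of_dvd_of_dvd h3N' h)
    have h6N : 6 ∣ N := (by norm_num : Nat.Coprime 2 3).mul_dvd_of_dvd_of_dvd h2N h3N'
    have e4 : 4 ∣ N → s 4 = 0 ∧ s 12 = 0 := by
      intro h
      have E := e20 ((by norm_num : Nat.Coprime 4 5).mul_dvd_of_dvd_of_dvd h h5N')
      have E' := e6 h6N
      have h12 : 12 ∣ N := (by norm_num : Nat.Coprime 4 3).mul_dvd_of_dvd_of_dvd h h3N'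
      have F := hF 12 h12
      rw [show Nat.divisors 12 = {1, 2, 3, 4, 6, 12} by decide] at F
      simp at F
      have v12 := val 12 4 (by decide)
      have z := hz 4 12 (by norm_num)
      have z' := hz 6 12 (by norm_num)
      clear * - F E E' v12 z z' h1 hs2
      omega
    have n8 : ¬ 8 ∣ N := by
      intro h
      have E := e4 ((show 4 ∣ 8 by norm_num).trans h)
      have E' := e6 h6N
      have h24 : 24 ∣ N := (by norm_num : Nat.Coprime 8 3).mul_dvd_of_dvd_of_dvd h h3N'
      have F := hF 24 h24
      rw [show Nat.divisors 24 = {1, 2, 3, 4, 6, 8, 12, 24} by decide] at F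
      simp at F
      have z := hz 4 8 (by norm_num)
      have z' := hz 4 24 (by norm_num)
      clear * - F E E' z z' h1 hs2
      omega
    have hdvd := dvd_of_prime_bounds N 2 1 1 hN0 hpr (by simpa using n8) (by simpa using n9)
      (by simpa using n25)
    have hNeq : N = 60 := by
      have h60 : N ∣ 60 := by simpa using hdvd
      have := Nat.le_of_dvd (by norm_num) h60
      omega
    subst hNeq
    have E4 := e4 (by norm_num)
    have S := hsum
    rw [show Nat.divisors 60 = {1, 2, 3, 4, 5, 6, 10, 12, 15, 20, 30, 60} by decide] at S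
    simp at S
    refine ⟨rfl, E15.1, E15.2.1, ?_⟩
    intro m hm
    have hmd : m ∈ Nat.divisors 60 := Nat.mem_divisors.mpr ⟨hord m hm, by norm_num⟩
    rw [show Nat.divisors 60 = {1, 2, 3, 4, 5, 6, 10, 12, 15, 20, 30, 60} by decide] at hmd
    simp only [Finset.mem_insert, Finset.mem_singleton] at hmd
    clear * - hmd hm S E4 E15 h1 hs2
    rcases hmd with rfl | rfl | rfl | rfl | rfl | rfl | rfl | rfl | rfl | rfl | rfl | rfl <;> omega
  · -- step 11
    exfalso
    by_cases h3N' : 3 ∣ N
    · have n5 : ¬ 5 ∣ N := fun h =>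
        h15N ((by norm_num : Nat.Coprime 3 5).mul_dvd_of_dvd_of_dvd h3N' h)
      have hs3 := h3N h3N'
      have h6N : 6 ∣ N := (by norm_num : Nat.Coprime 2 3).mul_dvd_of_dvd_of_dvd h2N h3N'
      have E6 := e6 h6N
      by_cases h9N : 9 ∣ N
      · -- (b1)
        have E9 := e9 h9N
        have h18 : 18 ∣ N := (by norm_num : Nat.Coprime 2 9).mul_dvd_of_dvd_of_dvd h2N h9N
        have E18 : s 6 = 24 ∧ s 18 = 24 := by
          have F := hF 18 h18
          rw [show Nat.divisors 18 = {1, 2, 3, 6, 9, 18} by decide] at F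
          simp at F
          have v18 := val 18 6 (by decide)
          have z := hz 6 18 (by norm_num)
          clear * - F E6 E9 v18 z h1 hs2
          omega
        have h8N : 8 ∣ N := by
          by_contra h8
          have hdvd := dvd_of_prime_bounds N 2 2 0 hN0 hpr (by simpa using h8)
            (by simpa using n27) (by simpa using n5)
          have h36 : N ∣ 36 := by simpa using hdvd
          have := Nat.le_of_dvd (by norm_num) h36
          omega
        have h72 : 72 ∣ N := (by norm_num : Nat.Coprime 8 9).mul_dvd_of_dvd_of_dvd h8N h9N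
        have h36 : 36 ∣ N := (show 36 ∣ 72 by norm_num).trans h72
        have E36 : (s 4 = 0 ∧ s 12 = 0 ∧ s 36 = 0) ∨ (s 4 = 24 ∧ s 12 = 24 ∧ s 36 = 24) := by
          have F := hF 36 h36
          rw [show Nat.divisors 36 = {1, 2, 3, 4, 6, 9, 12, 18, 36} by decide] at F
          simp at F
          have v4 := val 4 2 (by decide)
          have v12 := val 12 4 (by decide)
          have v36 := val 36 12 (by decide)
          have z := hz 4 12 (by norm_num)
          have z' := hz 12 36 (by norm_num)
          clear * - F E18 E9 v4 v12 v36 z z' h1 hs2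
          omega
        have F := hF 72 h72
        rw [show Nat.divisors 72 = {1, 2, 3, 4, 6, 8, 9, 12, 18, 24, 36, 72} by decide] at F
        simp at F
        have v8 := val 8 4 (by decide)
        have v24 := val 24 8 (by decide)
        have v72 := val 72 24 (by decide)
        have z := hz 4 8 (by norm_num)
        have z' := hz 4 24 (by norm_num)
        have z'' := hz 4 72 (by norm_num)
        clear * - F E36 E18 E9 v8 v24 v72 z z' z'' h1 hs2
        omega
      · -- (b2)
        have h32N : 32 ∣ N := by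
          by_contra h32
          have hdvd := dvd_of_prime_bounds N 4 1 0 hN0 hpr (by simpa using h32)
            (by simpa using h9N) (by simpa using n5)
          have h48 : N ∣ 48 := by simpa using hdvd
          have := Nat.le_of_dvd (by norm_num) h48
          omega
        have E32 := e32 h32N
        have h8N : 8 ∣ N := (show 8 ∣ 32 by norm_num).trans h32N
        have h12 : 12 ∣ N :=
          (by norm_num : Nat.Coprime 4 3).mul_dvd_of_dvd_of_dvd
            ((show 4 ∣ 32 by norm_num).trans h32N) h3N'
        have E12 : s 12 = 0 ∨ s 12 = 24 := by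
          have F := hF 12 h12
          rw [show Nat.divisors 12 = {1, 2, 3, 4, 6, 12} by decide] at F
          simp at F
          have v12 := val 12 4 (by decide)
          have z := hz 6 12 (by norm_num)
          clear * - F E32 E6 v12 z h1 hs2
          omega
        have h24 : 24 ∣ N := (by norm_num : Nat.Coprime 8 3).mul_dvd_of_dvd_of_dvd h8N h3N'
        have F := hF 24 h24
        rw [show Nat.divisors 24 = {1, 2, 3, 4, 6, 8, 12, 24} by decide] at F
        simp at F
        have v24 := val 24 8 (by decide)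
        clear * - F E32 E6 E12 v24 h1 hs2
        omega
    · by_cases h5N' : 5 ∣ N
      · -- (c)
        have hs5 := h5N h5N'
        have h10N : 10 ∣ N := (by norm_num : Nat.Coprime 2 5).mul_dvd_of_dvd_of_dvd h2N h5N'
        have E10 := e10 h10N
        have n25 : ¬ 25 ∣ N := by
          intro h
          have E25 := e25 h
          have h50 : 50 ∣ N := (by norm_num : Nat.Coprime 2 25).mul_dvd_of_dvd_of_dvd h2N h
          have F := hF 50 h50
          rw [show Nat.divisors 50 = {1, 2, 5, 10, 25, 50} by decide] at F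
          simp at F
          have z := hz 25 50 (by norm_num)
          clear * - F E25 E10 z h1 hs2
          omega
        have h16N : 16 ∣ N := by
          by_contra h16
          have hdvd := dvd_of_prime_bounds N 3 0 1 hN0 hpr (by simpa using h16)
            (by simpa using h3N') (by simpa using n25)
          have h40 : N ∣ 40 := by simpa using hdvd
          have := Nat.le_of_dvd (by norm_num) h40
          omega
        have h20N : 20 ∣ N :=
          (by norm_num : Nat.Coprime 4 5).mul_dvd_of_dvd_of_dvd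
            ((show 4 ∣ 16 by norm_num).trans h16N) h5N'
        have E20 := e20 h20N
        have E16 := e16 h16N
        have h40 : 40 ∣ N :=
          (by norm_num : Nat.Coprime 8 5).mul_dvd_of_dvd_of_dvd
            ((show 8 ∣ 16 by norm_num).trans h16N) h5N'
        have E40 : s 10 = 0 ∧ s 40 = 0 := by
          have F := hF 40 h40
          rw [show Nat.divisors 40 = {1, 2, 4, 5, 8, 10, 20, 40} by decide] at F
          simp at F
          have z := hz 20 40 (by norm_num)
          clear * - F E20 E16 E10 z h1 hs2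
          omega
        have h80 : 80 ∣ N := (by norm_num : Nat.Coprime 16 5).mul_dvd_of_dvd_of_dvd h16N h5N'
        have F := hF 80 h80
        rw [show Nat.divisors 80 = {1, 2, 4, 5, 8, 10, 16, 20, 40, 80} by decide] at F
        simp at F
        have v80 := val 80 32 (by decide)
        clear * - F E20 E16 E10 E40 v80 h1 hs2
        omega
      · -- (a)
        have hdvd := dvd_of_prime_bounds N 6 0 0 hN0 hpr (by simpa using n128)
          (by simpa using h3N') (by simpa using h5N')
        have h64 : N ∣ 64 := by simpa using hdvd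
        have hNeq : N = 64 := by
          have hle := Nat.le_of_dvd (by norm_num) h64
          have hN64 : N ∈ Nat.divisors 64 := Nat.mem_divisors.mpr ⟨h64, by norm_num⟩
          rw [show Nat.divisors 64 = {1, 2, 4, 8, 16, 32, 64} by decide] at hN64
          simp only [Finset.mem_insert, Finset.mem_singleton] at hN64
          omega
        subst hNeq
        have E32 := e32 (by norm_num)
        have v64 := val 64 32 (by decide)
        have hmd : m20 ∈ Nat.divisors 64 := Nat.mem_divisors.mpr ⟨hm20N, by norm_num⟩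
        rw [show Nat.divisors 64 = {1, 2, 4, 8, 16, 32, 64} by decide] at hmd
        simp only [Finset.mem_insert, Finset.mem_singleton] at hmd
        clear * - hmd hm20 E32 v64 h1 hs2
        rcases hmd with rfl | rfl | rfl | rfl | rfl | rfl | rfl <;> omega

end Cfsg.Agent.Lib.Helper40.NseNum
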