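import Mathlib
import Cfsg.Prelude.Def_GeometricClasses
import Cfsg.Prelude.Def_LieClassical

/-!
# Project O9 (helper44), piece NEG (helper40): the quadratic form `v ↦ - Q v`
-/

set_option autoImplicit false

namespace Cfsg.Agent.Lib.Helper44.O9

open Matrix Cfsg.Geo

variable {n : ℕ} {F : Type*} [Field F] [Fintype F]

omit [Fintype F] in
theorem NEG_polar (Q : (Fin n → F) → F) :
    QuadraticMap.polar (fun v => - Q v) = fun u v => - QuadraticMap.polar Q u v := by
  funext u v
  simp only [QuadraticMap.polar]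
  ring

theorem NEGa (Q : (Fin n → F) → F) (hQ : IsNondegenerateQuadraticForm Q) :
    IsNondegenerateQuadraticForm (fun v => - Q v) := by
  have hb := hQ.polar_bilinear
  refine ⟨fun c v => ?_, ?_, ?_⟩
  · show - Q (c • v) = c ^ 2 * (- Q v)
    rw [hQ.smul]
    ring
  · rw [NEG_polar]
    refine ⟨fun x y v => ?_, fun c x v => ?_, fun v x y => ?_, fun c v x => ?_⟩
    · show - QuadraticMap.polar Q (x + y) v = - QuadraticMap.polar Q x v + - QuadraticMap.polar Q y v
      rw [hb.add_left]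
      ring
    · show - QuadraticMap.polar Q (c • x) v = c * (- QuadraticMap.polar Q x v)
      rw [hb.smul_left]
      ring
    · show - QuadraticMap.polar Q v (x + y) = - QuadraticMap.polar Q v x + - QuadraticMap.polar Q v y
      rw [hb.add_right]
      ring
    · show - QuadraticMap.polar Q v (c • x) = c * (- QuadraticMap.polar Q v x)
      rw [hb.smul_right]
      ring
  · rw [NEG_polar]
    intro v hv
    obtain ⟨⟨x, hx⟩, ⟨y, hy⟩⟩ := hQ.nondegenerate v hv
    exact ⟨⟨x, neg_ne_zero.2 hx⟩, ⟨y, neg_ne_zero.2 hy⟩⟩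

theorem NEGb (Q : (Fin n → F) → F) (hn : Odd n) :
    (gramMatrix (QuadraticMap.polar (fun v => - Q v))).det =
      - (gramMatrix (QuadraticMap.polar Q)).det := by
  have h : gramMatrix (QuadraticMap.polar (fun v => - Q v)) =
      - gramMatrix (QuadraticMap.polar Q) := by
    rw [NEG_polar]
    ext a b
    rfl
  rw [h, Matrix.det_neg, Fintype.card_fin, hn.neg_one_pow, neg_one_mul]

theorem NEGc (Q : (Fin n → F) → F) {t m : ℕ} (D : Fin t → Submodule F (Fin n → F))
    (hD : IsOrthogonalMDecomposition Q m D) :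
    IsOrthogonalMDecomposition (fun v => - Q v) m D := by
  refine ⟨⟨hD.decomp.decomp, fun i => ?_, fun i j hij => ?_⟩, fun i j => ?_⟩
  · rw [NEG_polar]
    intro w hw hw0
    obtain ⟨⟨x, hx, hx'⟩, ⟨y, hy, hy'⟩⟩ := hD.decomp.nondegenerate i w hw hw0
    exact ⟨⟨x, hx, neg_ne_zero.2 hx'⟩, ⟨y, hy, neg_ne_zero.2 hy'⟩⟩
  · rw [NEG_polar]
    intro u hu v hv
    show - QuadraticMap.polar Q u v = 0
    rw [hD.decomp.orthogonal i j hij u hu v hv, neg_zero]
  · obtain ⟨e, he⟩ := hD.isometric i j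
    refine ⟨e, fun w => ?_⟩
    show - Q ((e w : D j) : Fin n → F) = - Q (w : Fin n → F)
    rw [he]

theorem NEGd (Q : (Fin n → F) → F) (F₀ : Subfield F) (P : GL (Fin n) F)
    (h : IsQuadFormRationalStructure (fun v => - Q v) F₀ P) :
    IsQuadFormRationalStructure Q F₀ P := by
  intro u hu
  have h1 : - Q ((P : Matrix (Fin n) (Fin n) F) *ᵥ u) ∈ F₀ := h u hu
  have h2 := F₀.neg_mem h1
  rwa [neg_neg] at h2

theorem NEGe (Q : (Fin n → F) → F) (F₀ : Subfield F) (ζ : F) (P : GL (Fin n) F)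
    (h : IsFormRationalStructure (QuadraticMap.polar Q) F₀ ζ P) :
    IsFormRationalStructure (QuadraticMap.polar (fun v => - Q v)) F₀ (-ζ) P := by
  rw [NEG_polar]
  intro u v hu hv
  have h1 := h u v hu hv
  show -ζ * - QuadraticMap.polar Q ((P : Matrix (Fin n) (Fin n) F) *ᵥ u)
    ((P : Matrix (Fin n) (Fin n) F) *ᵥ v) ∈ F₀
  rw [neg_mul_neg]
  exact h1

end Cfsg.Agent.Lib.Helper44.O9
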