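import Mathlib
import Cfsg.Agent.Lib.Helper53.MinusDefs
import Cfsg.Agent.Lib.Helper53.OddFE
import Cfsg.Agent.Lib.Helper53.FixField
import Cfsg.Agent.Lib.Helper54.OrthInnPlus

/-!
# Piece PF-R2D (helper40): the descent half of `split_two_plus`

Odd characteristic, `σ` of order two with fixed field `e(F₀)`, `φ` the standard field automorphism
of `PΩ⁺_{2m}(F)`: there is `x₀` in `Inndiag ∩ C(φ)` such that every element of `Inndiag ∩ C(φ)`
lies in `Inn` or in `x₀ Inn`, and `x₀ ∈ Inn` iff not (`m` odd and `|F₀| ≡ 1 mod 4`).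
-/

set_option autoImplicit false
set_option linter.unusedSectionVars false
set_option linter.unusedVariables false

namespace Cfsg.Agent.Lib.Helper52.PF

open Module QuadraticMap Matrix
open Cfsg Cfsg.Agent.Lib.Helper51 Cfsg.Agent.Lib.Helper51.GammaO Cfsg.Agent.Lib.Helper52
  Cfsg.Agent.Lib.Helper52.OA Cfsg.Agent.Lib.Helper51.OutSpin Cfsg.Agent.Lib.Helper53.OddF
  Cfsg.Agent.Lib.Helper53.MinusF Cfsg.Agent.Lib.Helper54

universe u v

/-- the degree two extension has the square of the number of elements -/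
theorem pfr2d_card {F₀ : Type v} [Field F₀] [Fintype F₀] {F : Type u} [Field F] [Fintype F]
    (e : F₀ →+* F) (σ : F ≃+* F) (hr : orderOf σ = 2)
    (he : ∀ x : F, σ x = x ↔ x ∈ Set.range e) :
    Fintype.card F = Fintype.card F₀ ^ 2 := by
  classical
  have := Cfsg.Agent.Lib.Helper53.Fix.finite_ringAut (F := F)
  let _ : Fintype (Subgroup.zpowers σ) := Fintype.ofFinite _
  let _ : Fintype (FixedPoints.subfield (Subgroup.zpowers σ) F) := Fintype.ofFinite _
  have h1 : finrank (FixedPoints.subfield (Subgroup.zpowers σ) F) F = 2 := by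
    rw [FixedPoints.finrank_eq_card (Subgroup.zpowers σ) F, ← Nat.card_eq_fintype_card,
      Nat.card_zpowers, hr]
  have h2 := Module.card_eq_pow_finrank (K := FixedPoints.subfield (Subgroup.zpowers σ) F) (V := F)
  rw [h1] at h2
  have h3 : Fintype.card F₀ = Fintype.card (FixedPoints.subfield (Subgroup.zpowers σ) F) := by
    apply Fintype.card_of_bijective (f := fun x : F₀ =>
      (⟨e x, (Cfsg.Agent.Lib.Helper53.Fix.mem_fixed_iff σ _).2 ((he _).2 ⟨x, rfl⟩)⟩ :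
        FixedPoints.subfield (Subgroup.zpowers σ) F))
    constructor
    · intro x y hxy
      exact e.injective (congrArg Subtype.val hxy)
    · rintro ⟨a, ha⟩
      obtain ⟨x, hx⟩ := (he a).1 ((Cfsg.Agent.Lib.Helper53.Fix.mem_fixed_iff σ a).1 ha)
      exact ⟨x, Subtype.ext hx⟩
  rw [h2, h3]

/-- a square root of a nonsquare of the small field is a square iff `|F₀| ≡ 3 mod 4` -/
theorem pfr2d_sq_iff {F₀ : Type v} [Field F₀] [Fintype F₀] {F : Type u} [Field F] [Fintype F]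
    (e : F₀ →+* F) (h2 : (2 : F) ≠ 0) (hF₀ : ringChar F₀ ≠ 2)
    (hcard : Fintype.card F = Fintype.card F₀ ^ 2)
    (δ₀ : F₀) (hδ : ¬ IsSquare δ₀) (ν : F) (hν : e δ₀ = ν * ν) :
    IsSquare ν ↔ Fintype.card F₀ % 4 = 3 := by
  have hF : ringChar F ≠ 2 := ringChar_ne_two h2
  have hδ0 : δ₀ ≠ 0 := by
    rintro rfl
    exact hδ ⟨0, by simp⟩
  have hν0 : ν ≠ 0 := by
    rintro rfl
    rw [mul_zero] at hν
    exact hδ0 (e.injective (by rw [hν, map_zero]))
  have hodd₀ : Fintype.card F₀ % 2 = 1 := FiniteField.odd_card_of_char_ne_two hF₀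
  obtain ⟨k, hk⟩ : ∃ k, Fintype.card F₀ = 2 * k + 1 := ⟨Fintype.card F₀ / 2, by omega⟩
  have h3 : Fintype.card F₀ / 2 = k := by omega
  have hδk : δ₀ ^ k = -1 := by
    have h1 := FiniteField.pow_dichotomy hF₀ hδ0
    rw [h3] at h1
    rcases h1 with h1 | h1
    · exfalso
      apply hδ
      rw [FiniteField.isSquare_iff hF₀ hδ0, h3]
      exact h1
    · exact h1
  have hFk : Fintype.card F / 2 = 2 * (k * (k + 1)) := by
    rw [hcard, hk]
    have h4 : (2 * k + 1) ^ 2 = 2 * (2 * (k * (k + 1))) + 1 := by ring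
    rw [h4]
    omega
  have hpow : ν ^ (Fintype.card F / 2) = (-1) ^ (k + 1) := by
    rw [hFk, pow_mul, pow_two, ← hν, pow_mul, ← map_pow, hδk, map_neg, map_one]
  rw [FiniteField.isSquare_iff hF hν0, hpow]
  constructor
  · intro h
    by_contra hne
    have hkev : Even k := by
      rw [Nat.even_iff]
      omega
    have hk1 : Odd (k + 1) := hkev.add_one
    rw [hk1.neg_one_pow] at h
    exact h2 (by linear_combination (-1 : F) * h)
  · intro h
    have hk1 : Even (k + 1) := by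
      rw [Nat.even_iff]
      omega
    exact hk1.neg_one_pow

section

variable {F₀ : Type v} [Field F₀] [Fintype F₀] {F : Type u} [Field F] [Fintype F] (e : F₀ →+* F)
  (m : ℕ)

local notation "Idx" => Fin m ⊕ Fin m
local notation "mt(" g ")" => ((g : Matrix.GeneralLinearGroup Idx F) : Matrix Idx Idx F)
local notation "mt₀(" g ")" => ((g : Matrix.GeneralLinearGroup Idx F₀) : Matrix Idx Idx F₀)

theorem pfr2d_QPlus_map (v : Idx → F₀) :
    QPlus m F (fun i => e (v i)) = e (QPlus m F₀ v) := by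
  rw [QPlus_apply, QPlus_apply]
  simp only [map_sum, map_mul]

theorem pfr2d_inr_mem (σ : RingAut F) :
    (SemidirectProduct.inr σ : SGL Idx F) ∈ GO ⇑(QPlus m F) := by
  refine ⟨1, fun v => ?_⟩
  rw [coe_QPlus]
  simp [quadFormPlus]

/-- base change of similarities of the plus forms -/
noncomputable def pfr2d_sm : ↥(Geo.quadSimilarityGroup (F := F₀) ⇑(QPlus m F₀)) →*
    ↥(Geo.quadSimilarityGroup (F := F) ⇑(QPlus m F)) :=
  simMapG e (QPlus m F₀) (QPlus m F) (pfr2d_QPlus_map e m)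

theorem pfr2d_sm_coe (g : ↥(Geo.quadSimilarityGroup (F := F₀) ⇑(QPlus m F₀))) :
    mt(((pfr2d_sm e m g : ↥(Geo.quadSimilarityGroup (F := F) ⇑(QPlus m F))) :
      Matrix.GeneralLinearGroup Idx F)) =
      (mt₀((g : Matrix.GeneralLinearGroup Idx F₀))).map e := rfl

theorem pfr2d_simMul_sm (hm1 : 1 ≤ m) (g : ↥(Geo.quadSimilarityGroup (F := F₀) ⇑(QPlus m F₀))) :
    ((simMul (QPlus m F) (hv_plus hm1) (pfr2d_sm e m g) : Fˣ) : F) =
      e ((simMul (QPlus m F₀) (hv_plus hm1) g : F₀ˣ) : F₀) := by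
  apply simMul_eq
  intro v
  rw [pfr2d_sm_coe]
  exact sim_upG e (QPlus m F₀) (QPlus m F) (pfr2d_QPlus_map e m) _ _
    (simMul_spec (QPlus m F₀) (hv_plus hm1) g) v

theorem pfr2d_det_sm (g : ↥(Geo.quadSimilarityGroup (F := F₀) ⇑(QPlus m F₀))) :
    ((Matrix.GeneralLinearGroup.det
      ((pfr2d_sm e m g : ↥(Geo.quadSimilarityGroup (F := F) ⇑(QPlus m F))) :
        Matrix.GeneralLinearGroup Idx F) : Fˣ) : F) =
      e ((Matrix.GeneralLinearGroup.det (g : Matrix.GeneralLinearGroup Idx F₀) : F₀ˣ) : F₀) := by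
  rw [Matrix.GeneralLinearGroup.val_det_apply, Matrix.GeneralLinearGroup.val_det_apply,
    pfr2d_sm_coe, RingHom.map_det]
  rfl

theorem pfr2d_simSgn_sm (hm1 : 1 ≤ m)
    (g : ↥(Geo.quadSimilarityGroup (F := F₀) ⇑(QPlus m F₀))) :
    ((simSgn (QPlus m F) (hv_plus hm1) m (pfr2d_sm e m g) : Fˣ) : F)
      = e ((simSgn (QPlus m F₀) (hv_plus hm1) m g : F₀ˣ) : F₀) := by
  rw [simSgn_apply, simSgn_apply, Units.val_mul, Units.val_mul, Units.val_inv_eq_inv_val,
    Units.val_inv_eq_inv_val, Units.val_pow_eq_pow_val, Units.val_pow_eq_pow_val, pfr2d_det_sm,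
    pfr2d_simMul_sm e m hm1, map_mul, map_inv₀, map_pow]

theorem pfr2d_simSgn_sm_iff (hm1 : 1 ≤ m)
    (g : ↥(Geo.quadSimilarityGroup (F := F₀) ⇑(QPlus m F₀))) :
    simSgn (QPlus m F) (hv_plus hm1) m (pfr2d_sm e m g) = 1 ↔
      simSgn (QPlus m F₀) (hv_plus hm1) m g = 1 := by
  rw [Units.ext_iff, Units.ext_iff, pfr2d_simSgn_sm e m hm1, Units.val_one, Units.val_one]
  constructor
  · intro h
    exact e.injective (by rw [h, map_one])
  · intro h
    rw [h, map_one]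

/-- proportional similarities have the same sign -/
theorem pfr2d_simSgn_of_smul (hm1 : 1 ≤ m)
    (g g' : ↥(Geo.quadSimilarityGroup (F := F) ⇑(QPlus m F)))
    (b : F) (hb : b ≠ 0)
    (h : mt((g' : Matrix.GeneralLinearGroup Idx F)) = b • mt((g : Matrix.GeneralLinearGroup Idx F))) :
    simSgn (QPlus m F) (hv_plus hm1) m g' = simSgn (QPlus m F) (hv_plus hm1) m g := by
  have hmu : ((simMul (QPlus m F) (hv_plus hm1) g' : Fˣ) : F) =
      b ^ 2 * ((simMul (QPlus m F) (hv_plus hm1) g : Fˣ) : F) := by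
    apply simMul_eq
    intro v
    rw [h, Matrix.smul_mulVec, QuadraticMap.map_smul, simMul_spec (QPlus m F) (hv_plus hm1) g v,
      smul_eq_mul]
    ring
  have hdet : ((Matrix.GeneralLinearGroup.det (g' : Matrix.GeneralLinearGroup Idx F) : Fˣ) : F) =
      b ^ (2 * m) *
        ((Matrix.GeneralLinearGroup.det (g : Matrix.GeneralLinearGroup Idx F) : Fˣ) : F) := by
    rw [Matrix.GeneralLinearGroup.val_det_apply, Matrix.GeneralLinearGroup.val_det_apply, h,
      Matrix.det_smul, card_plus]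
  have hmu0 : ((simMul (QPlus m F) (hv_plus hm1) g : Fˣ) : F) ≠ 0 := Units.ne_zero _
  apply Units.ext
  rw [simSgn_apply, simSgn_apply, Units.val_mul, Units.val_mul, Units.val_inv_eq_inv_val,
    Units.val_inv_eq_inv_val, Units.val_pow_eq_pow_val, Units.val_pow_eq_pow_val, hdet, hmu]
  field_simp
  ring

/-- descent of a similarity whose matrix is an eigenvector of `σ` -/
theorem pfr2d_descend (hm1 : 1 ≤ m)
    (σ : RingAut F) (r : ℕ) (hr0 : 0 < r) (hr : orderOf σ = r)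
    (he : ∀ x : F, σ x = x ↔ x ∈ Set.range e)
    (g : ↥(Geo.quadSimilarityGroup (F := F) ⇑(QPlus m F))) (c : F)
    (hc : (mt((g : Matrix.GeneralLinearGroup Idx F))).map (σ : F ≃+* F) =
      c • mt((g : Matrix.GeneralLinearGroup Idx F))) :
    ∃ (g₀ : ↥(Geo.quadSimilarityGroup (F := F₀) ⇑(QPlus m F₀))) (b : F), b ≠ 0 ∧
      mt(((pfr2d_sm e m g₀ : ↥(Geo.quadSimilarityGroup (F := F) ⇑(QPlus m F))) :
        Matrix.GeneralLinearGroup Idx F)) = b • mt((g : Matrix.GeneralLinearGroup Idx F)) := by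
  have hM : mt((g : Matrix.GeneralLinearGroup Idx F)) ≠ 0 := by
    intro h0
    have h1 : mt((g : Matrix.GeneralLinearGroup Idx F)) *
        mt(((g : Matrix.GeneralLinearGroup Idx F))⁻¹) = 1 := by
      rw [← Units.val_mul, mul_inv_cancel, Units.val_one]
    rw [h0, Matrix.zero_mul] at h1
    have h3 := congrFun (congrFun h1 (Sum.inl ⟨0, hm1⟩)) (Sum.inl ⟨0, hm1⟩)
    rw [Matrix.zero_apply, Matrix.one_apply_eq] at h3
    exact zero_ne_one h3
  obtain ⟨b, hb0, hb⟩ := exists_fixed_smul (σ : F ≃+* F) r hr0 hr _ hM c hc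
  have hfix : ∀ i j, ∃ x : F₀, e x = (b • mt((g : Matrix.GeneralLinearGroup Idx F))) i j := by
    intro i j
    have h1 := congrFun (congrFun hb i) j
    rw [Matrix.map_apply] at h1
    exact (he _).1 h1
  choose M₀ hM₀ using hfix
  have hmap : (Matrix.of M₀).map e = b • mt((g : Matrix.GeneralLinearGroup Idx F)) := by
    ext i j
    exact hM₀ i j
  obtain ⟨cg, hcg⟩ := g.2
  obtain ⟨v₀, hv₀⟩ := hv_plus (F := F₀) hm1
  have hsim : ∀ v, QPlus m F (((Matrix.of M₀).map e) *ᵥ v) = (b ^ 2 * cg) * QPlus m F v := by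
    intro v
    rw [hmap, Matrix.smul_mulVec, QuadraticMap.map_smul, hcg v, smul_eq_mul]
    ring
  have hev₀ : e (QPlus m F₀ v₀) ≠ 0 := by
    intro h0
    exact hv₀ (e.injective (by rw [h0, map_zero]))
  have hc₀ : e (QPlus m F₀ ((Matrix.of M₀) *ᵥ v₀) / QPlus m F₀ v₀) = b ^ 2 * cg := by
    have h1 := hsim (fun i => e (v₀ i))
    rw [map_mulVecG, pfr2d_QPlus_map, pfr2d_QPlus_map] at h1
    rw [map_div₀, h1]
    field_simp
  have hc₀0 : QPlus m F₀ ((Matrix.of M₀) *ᵥ v₀) / QPlus m F₀ v₀ ≠ 0 := by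
    intro h0
    rw [h0, map_zero] at hc₀
    exact (mul_ne_zero (pow_ne_zero 2 hb0) cg.ne_zero) hc₀.symm
  have hsim₀ := sim_downG e (QPlus m F₀) (QPlus m F) (pfr2d_QPlus_map e m)
    (Matrix.of M₀) _ (by
      intro v
      rw [hc₀]
      exact hsim v)
  refine ⟨simOfMatrix (QPlus m F₀) polarSep_plus (Matrix.of M₀) _ hc₀0 hsim₀, b, hb0, ?_⟩
  rw [pfr2d_sm_coe]
  exact hmap

/-- rational isometries of determinant one lie in `Ω(F)` -/
theorem pfr2d_iso_up (h2 : (2 : F) ≠ 0) (hsq : ∀ a₀ : F₀, IsSquare (e a₀))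
    (h₀ : ↥(isometryGroup F₀ ⇑(QPlus m F₀))) (hdet : detO (QPlus m F₀) h₀ = 1) :
    isoMapG e (QPlus m F₀) (QPlus m F) (pfr2d_QPlus_map e m) h₀ ∈
      commutator ↥(isometryGroup F ⇑(QPlus m F)) := by
  have h2₀ : (2 : F₀) ≠ 0 := two_ne_zero_down e h2
  obtain ⟨vs, hvs, hrefl⟩ :=
    Cfsg.Agent.Lib.Helper54.exists_reflList (QPlus m F₀) h2₀ polarSep_plus h₀
  have hvs' : ∀ w ∈ vs.map (fun v : Idx → F₀ => (fun i => e (v i))), QPlus m F w ≠ 0 := by
    intro w hw
    obtain ⟨v, hv, rfl⟩ := List.mem_map.1 hw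
    rw [pfr2d_QPlus_map]
    intro h0
    exact hvs v hv (e.injective (by rw [h0, map_zero]))
  have hH : isoMapG e (QPlus m F₀) (QPlus m F) (pfr2d_QPlus_map e m) h₀ =
      reflList (QPlus m F) _ hvs' := by
    apply isometry_ext
    rw [coe_reflList, isoMapG_coe, hrefl, coe_reflList,
      refl_prod_mapG e (QPlus m F₀) (QPlus m F) (pfr2d_QPlus_map e m)]
  have heven : Even vs.length := by
    have hd := detO_reflList (QPlus m F₀) vs hvs
    rw [← hrefl, hdet] at hd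
    by_contra hodd'
    rw [(Nat.not_even_iff_odd.1 hodd').neg_one_pow] at hd
    exact neg_one_ne_one_units h2₀ hd.symm
  rw [hH, reflList_mem_commutator_iff (QPlus m F) h2]
  refine ⟨by rw [List.length_map]; exact heven, ?_⟩
  have h5 : ((vs.map (fun v : Idx → F₀ => (fun i => e (v i)))).map
      (fun v => QPlus m F v)).prod = e ((vs.map (fun v => QPlus m F₀ v)).prod) := by
    rw [List.map_map, map_list_prod, List.map_map]
    congr 1
    apply List.map_congr_left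
    intro v _
    exact pfr2d_QPlus_map e m v
  rw [h5]
  exact hsq _

/-- a rational similarity of sign one with square multiplier induces an inner automorphism -/
theorem pfr2d_sq_mem (h2 : (2 : F) ≠ 0) (hm1 : 1 ≤ m) (hsq : ∀ a₀ : F₀, IsSquare (e a₀))
    (g₀ : ↥(Geo.quadSimilarityGroup (F := F₀) ⇑(QPlus m F₀)))
    (hg₀ : simSgn (QPlus m F₀) (hv_plus hm1) m g₀ = 1) (s : F₀) (hs0 : s ≠ 0)
    (hs : ((simMul (QPlus m F₀) (hv_plus hm1) g₀ : F₀ˣ) : F₀) = s * s) :
    simAut ⇑(QPlus m F) (pfr2d_sm e m g₀) ∈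
      ((omegaGL ⇑(QPlus m F)).subgroupOf (Geo.quadSimilarityGroup (F := F) ⇑(QPlus m F))).map
        (simAut ⇑(QPlus m F)) := by
  have hμs : simMul (QPlus m F₀) (hv_plus hm1) (scalarSim (QPlus m F₀) (Units.mk0 s hs0)) =
      simMul (QPlus m F₀) (hv_plus hm1) g₀ := by
    apply Units.ext
    rw [simMul_of_scalar (QPlus m F₀) (hv_plus hm1) _ s (coe_scalarSim _ _), hs]
  have hμ : simMul (QPlus m F₀) (hv_plus hm1)
      ((scalarSim (QPlus m F₀) (Units.mk0 s hs0))⁻¹ * g₀) = 1 := by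
    rw [map_mul, map_inv, hμs, inv_mul_cancel]
  have hsgn : simSgn (QPlus m F₀) (hv_plus hm1) m
      ((scalarSim (QPlus m F₀) (Units.mk0 s hs0))⁻¹ * g₀) = 1 := by
    rw [map_mul, map_inv, simSgn_of_scalar (QPlus m F₀) (hv_plus hm1) m card_plus _ s
      (coe_scalarSim _ _), inv_one, one_mul, hg₀]
  obtain ⟨h₀, hh₀, hdet₀⟩ := (mem_special_sub_iff (QPlus m F₀)
    ((scalarSim (QPlus m F₀) (Units.mk0 s hs0))⁻¹ * g₀)).1
    (Subgroup.mem_subgroupOf.2 ((mem_special_iff (QPlus m F₀) (hv_plus hm1) m _).2 ⟨hμ, hsgn⟩))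
  have hg₀eq : g₀ = scalarSim (QPlus m F₀) (Units.mk0 s hs0) * isoSim (QPlus m F₀) h₀ := by
    rw [hh₀, mul_inv_cancel_left]
  have hsc : simAut ⇑(QPlus m F) (pfr2d_sm e m (scalarSim (QPlus m F₀) (Units.mk0 s hs0))) = 1 := by
    apply simAut_of_scalar (QPlus m F) _ (e s)
    rw [pfr2d_sm_coe, coe_scalarSim]
    ext i j
    by_cases hij : i = j
    · subst hij
      simp
    · simp [hij]
  have hiso : pfr2d_sm e m (isoSim (QPlus m F₀) h₀) =
      isoSim (QPlus m F) (isoMapG e (QPlus m F₀) (QPlus m F) (pfr2d_QPlus_map e m) h₀) := rfl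
  rw [hg₀eq, map_mul, map_mul, hsc, one_mul, hiso]
  exact Subgroup.mem_map_of_mem _ ((mem_omega_sub_iff (QPlus m F) _).2
    ⟨_, rfl, pfr2d_iso_up e m h2 hsq h₀ hdet₀⟩)

/-- the spinor character of `diag(u, …, u, u⁻¹, …, u⁻¹)` for a square `u`, when `-1` is a square -/
theorem pfr2d_spin_sq (h2 : (2 : F) ≠ 0) (hm1 : 1 ≤ m) (hs : IsSquare (-1 : F)) (u : Fˣ) (w : F)
    (hw : (u : F) = w * w) :
    spinChar (QPlus m F) 1 (Lhom (diagGL (fun _ : Fin m => u))) = 1 := by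
  rw [spinChar_Lhom_diag hm1]
  have hpow : ((u ^ m : Fˣ) : F) = w ^ m * w ^ m := by
    rw [Units.val_pow_eq_pow_val, hw, mul_pow]
  rw [spinChar_refl_of_isSquare _ h2 1 one_ne_zero _ _ (by
      rw [(hypPlus m F ⟨0, hm1⟩).Q_minus, one_mul]; exact hs),
    spinChar_refl_of_isSquare _ h2 1 one_ne_zero _ _ (by
      rw [(hypPlus m F ⟨0, hm1⟩).Q_scale, one_mul, hpow]
      obtain ⟨i, hi⟩ := hs
      exact ⟨i * w ^ m, by linear_combination (w ^ m * w ^ m) * hi⟩)]
  decide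

/-- the statement for a form given as a function -/
theorem pfr2d_aux (h2 : (2 : F) ≠ 0) (hm : 4 ≤ m)
    (σ : F ≃+* F) (hr : orderOf σ = 2)
    (he : ∀ x : F, σ x = x ↔ x ∈ Set.range e)
    (Q' : (Idx → F) → F) (hQ' : ⇑(QPlus m F) = Q')
    (φ : MulAut (POmega F Q')) (hφ : IsFieldAutPOmegaOf Q' σ φ) :
    ∃ x₀ ∈ inndiagOf Q' ⊓ Subgroup.centralizer {φ},
      (∀ c ∈ inndiagOf Q' ⊓ Subgroup.centralizer {φ},
        c ∈ Inn (POmega F Q') ∨ c * x₀⁻¹ ∈ Inn (POmega F Q')) ∧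
      (x₀ ∈ Inn (POmega F Q') ↔ ¬ (Odd m ∧ Fintype.card F₀ % 4 = 1)) := by
  subst hQ'
  have hm1 : 1 ≤ m := by omega
  have hm3 : 3 ≤ m := by omega
  have h2₀ : (2 : F₀) ≠ 0 := two_ne_zero_down e h2
  have hF : ringChar F ≠ 2 := ringChar_ne_two h2
  have hF₀ : ringChar F₀ ≠ 2 := ringChar_ne_two h2₀
  have hQ : (polarBilin (QPlus m F)).Nondegenerate := nondeg_of_polarSep (QPlus m F) polarSep_plus
  have hn : 7 ≤ Fintype.card Idx := by
    rw [card_plus]
    omega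
  have hσ := pfr2d_inr_mem (F := F) m (σ : RingAut F)
  have hφ' := (field_iffS (QPlus m F) σ hσ φ).mp hφ
  subst hφ'
  have hcard := pfr2d_card e σ hr he
  have hodd₀ : Fintype.card F₀ % 2 = 1 := FiniteField.odd_card_of_char_ne_two hF₀
  have hsq : ∀ a₀ : F₀, IsSquare (e a₀) := isSquare_up e h2 (Nat.odd_iff.2 hodd₀) hcard
  have hs : IsSquare (-1 : F) := by
    have h1 := hsq (-1)
    rwa [map_neg, map_one] at h1
  have hneg : negO (QPlus m F) ∈ commutator ↥(isometryGroup F ⇑(QPlus m F)) :=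
    (negO_mem_plus_iff h2).2 (Or.inl hs)
  have hker := simAut_ker_plus (F := F) hm3
  have hInn : ∀ s : ↥(isometryGroup F ⇑(QPlus m F)),
      simAut ⇑(QPlus m F) (isoSim (QPlus m F) s) ∈
        ((omegaGL ⇑(QPlus m F)).subgroupOf (Geo.quadSimilarityGroup (F := F) ⇑(QPlus m F))).map
          (simAut ⇑(QPlus m F)) ↔ s ∈ commutator ↥(isometryGroup F ⇑(QPlus m F)) := by
    intro s
    rw [← Subgroup.mem_comap, Subgroup.comap_map_eq]
    exact iso_mem_join_iff (QPlus m F) (hv_plus hm1) hker hneg s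
  have hinn := inn_eq (F := F) ⇑(QPlus m F)
  -- the representative
  obtain ⟨δ₀, hδ⟩ := FiniteField.exists_nonsquare (F := F₀) hF₀
  have hδ0 : δ₀ ≠ 0 := by
    rintro rfl
    exact hδ ⟨0, by simp⟩
  obtain ⟨ν, hν⟩ := hsq δ₀
  have hν0 : ν ≠ 0 := by
    rintro rfl
    rw [mul_zero] at hν
    exact hδ0 (e.injective (by rw [hν, map_zero]))
  have hiff := pfr2d_sq_iff e h2 hF₀ hcard δ₀ hδ ν hν
  -- centralizing
  have hcent : ∀ g₀ : ↥(Geo.quadSimilarityGroup (F := F₀) ⇑(QPlus m F₀)),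
      simAut ⇑(QPlus m F) (pfr2d_sm e m g₀) ∈
        Subgroup.centralizer {Theta ⇑(QPlus m F) (inrS (QPlus m F) σ hσ)} := by
    intro g₀
    rw [Subgroup.mem_centralizer_iff]
    intro y hy
    rw [Set.mem_singleton_iff.1 hy]
    symm
    rw [← iotaO_eq_simAut (QPlus m F), comm_iffS (QPlus m F) hQ hn σ hσ]
    refine ⟨1, one_ne_zero, ?_⟩
    rw [pfr2d_sm_coe, one_smul]
    ext i j
    simp only [Matrix.map_apply]
    exact (he _).2 ⟨_, rfl⟩
  -- descent
  have hdesc : ∀ c ∈ ((simSgn (QPlus m F) (hv_plus hm1) m).ker).map (simAut ⇑(QPlus m F)) ⊓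
      Subgroup.centralizer {Theta ⇑(QPlus m F) (inrS (QPlus m F) σ hσ)},
      ∃ g₀ : ↥(Geo.quadSimilarityGroup (F := F₀) ⇑(QPlus m F₀)),
        simSgn (QPlus m F₀) (hv_plus hm1) m g₀ = 1 ∧
          c = simAut ⇑(QPlus m F) (pfr2d_sm e m g₀) := by
    rintro β ⟨hβ1, hβ2⟩
    obtain ⟨g, hg, rfl⟩ := hβ1
    have hg1 : simSgn (QPlus m F) (hv_plus hm1) m g = 1 := hg
    have hcomm : iotaO (QPlus m F) g * Theta ⇑(QPlus m F) (inrS (QPlus m F) σ hσ) =
        Theta ⇑(QPlus m F) (inrS (QPlus m F) σ hσ) * iotaO (QPlus m F) g := by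
      rw [iotaO_eq_simAut]
      exact ((Subgroup.mem_centralizer_iff.1 hβ2) _ rfl).symm
    obtain ⟨c, -, hc⟩ := (comm_iffS (QPlus m F) hQ hn σ hσ g).1 hcomm
    obtain ⟨g₀, b, hb0, hb⟩ := pfr2d_descend e m hm1 σ 2 (by norm_num) hr he g c hc
    have hs1 : simSgn (QPlus m F₀) (hv_plus hm1) m g₀ = 1 := by
      rw [← pfr2d_simSgn_sm_iff e m hm1, pfr2d_simSgn_of_smul m hm1 g _ b hb0 hb]
      exact hg1
    refine ⟨g₀, hs1, ?_⟩
    rw [← iotaO_eq_simAut, ← iotaO_eq_simAut, iotaO_eq_of_smul (QPlus m F) hQ hn g _ b hb0 hb]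
  unfold inndiagOf
  rw [inndiagPlus_eq hF hm1]
  refine ⟨simAut ⇑(QPlus m F) (pfr2d_sm e m (plusScale m (Units.mk0 δ₀ hδ0))),
    ⟨⟨_, (pfr2d_simSgn_sm_iff e m hm1 _).2 (simSgn_plusScale hm1 _), rfl⟩, hcent _⟩, ?_, ?_⟩
  · -- covering
    intro c hc
    obtain ⟨g₀, hg₀, rfl⟩ := hdesc c hc
    by_cases hμ : IsSquare ((simMul (QPlus m F₀) (hv_plus hm1) g₀ : F₀ˣ) : F₀)
    · left
      obtain ⟨s, hs'⟩ := hμ
      have hs0 : s ≠ 0 := by
        rintro rfl
        rw [mul_zero] at hs'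
        exact (simMul (QPlus m F₀) (hv_plus hm1) g₀).ne_zero hs'
      rw [hinn]
      exact pfr2d_sq_mem e m h2 hm1 hsq g₀ hg₀ s hs0 hs'
    · right
      have hμ' : IsSquare (δ₀⁻¹ * ((simMul (QPlus m F₀) (hv_plus hm1) g₀ : F₀ˣ) : F₀)) := by
        rw [isSquare_mul_iff (inv_ne_zero hδ0) (Units.ne_zero _), isSquare_inv]
        exact ⟨fun h => absurd h hδ, fun h => absurd h hμ⟩
      obtain ⟨s, hs'⟩ := hμ'
      have hs0 : s ≠ 0 := by
        rintro rfl
        rw [mul_zero] at hs'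
        exact (mul_ne_zero (inv_ne_zero hδ0) (Units.ne_zero _)) hs'
      have hg₁ : simSgn (QPlus m F₀) (hv_plus hm1) m
          ((plusScale m (Units.mk0 δ₀ hδ0))⁻¹ * g₀) = 1 := by
        rw [map_mul, map_inv, simSgn_plusScale hm1, inv_one, one_mul, hg₀]
      have hμ₁ : ((simMul (QPlus m F₀) (hv_plus hm1)
          ((plusScale m (Units.mk0 δ₀ hδ0))⁻¹ * g₀) : F₀ˣ) : F₀) = s * s := by
        rw [map_mul, map_inv, simMul_plusScale hm1, Units.val_mul, Units.val_inv_eq_inv_val,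
          Units.val_mk0, hs']
      have hmem := pfr2d_sq_mem e m h2 hm1 hsq _ hg₁ s hs0 hμ₁
      rw [← hinn, map_mul, map_mul, map_inv, map_inv] at hmem
      have hconj := (innNormal (POmega F ⇑(QPlus m F))).conj_mem _ hmem
        (simAut ⇑(QPlus m F) (pfr2d_sm e m (plusScale m (Units.mk0 δ₀ hδ0))))
      rw [mul_inv_cancel_left] at hconj
      exact hconj
  · -- the class of the representative
    have hsmt : pfr2d_sm e m (plusScale m (Units.mk0 δ₀ hδ0)) =
        plusScale m (Units.mk0 ν hν0) * plusScale m (Units.mk0 ν hν0) := by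
      apply Subtype.ext
      apply Units.ext
      show (diagonal (Sum.elim (fun _ => δ₀) (fun _ => 1)) : Matrix Idx Idx F₀).map e =
        diagonal (Sum.elim (fun _ => ν) (fun _ => 1)) *
          diagonal (Sum.elim (fun _ => ν) (fun _ => 1))
      rw [diagonal_mul_diagonal]
      ext i j
      by_cases hij : i = j
      · subst hij
        rcases i with i | i
        · simp [hν]
        · simp
      · simp [hij]
    have hx₀ : simAut ⇑(QPlus m F) (pfr2d_sm e m (plusScale m (Units.mk0 δ₀ hδ0))) =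
        simAut ⇑(QPlus m F) (isoSim (QPlus m F)
          (Lhom (diagGL (fun _ : Fin m => Units.mk0 ν hν0)))) := by
      rw [hsmt, plusScale_sq, map_mul,
        simAut_of_scalar (QPlus m F) _ ν (coe_scalarSim (QPlus m F) (Units.mk0 ν hν0)), one_mul]
    have hdet : detO (QPlus m F) (Lhom (diagGL (fun _ : Fin m => Units.mk0 ν hν0))) = 1 := by
      have h1 := congrArg (simSgn (QPlus m F) (hv_plus hm1) m)
        (plusScale_sq (m := m) (Units.mk0 ν hν0))
      rw [map_mul, map_mul, simSgn_plusScale hm1, one_mul, simSgn_isoSim,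
        simSgn_of_scalar _ _ m card_plus _ _ (coe_scalarSim _ _), one_mul] at h1
      exact h1.symm
    rw [hx₀, hinn, hInn]
    constructor
    · intro hmem
      have h1 := spinChar_eq_one_of_mem (QPlus m F) 1 _ hmem
      rintro ⟨hodd, h4⟩
      have hu : ¬ IsSquare (Units.mk0 ν hν0) := by
        rintro ⟨w, hw⟩
        have h5 : IsSquare ν := ⟨(w : F), by
          have h6 := congrArg Units.val hw
          rwa [Units.val_mk0, Units.val_mul] at h6⟩
        rw [hiff] at h5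
        omega
      rw [spinChar_Lhom_diag_odd h2 hm1 hodd hs _ hu] at h1
      exact absurd h1 (by decide)
    · intro hcond
      apply mem_commutator_of_det_spin (QPlus m F) hF polarSep_plus _ hdet
      rcases Nat.even_or_odd m with hev | hodd
      · exact spinChar_Lhom_diag_even h2 hm1 hev _
      · have h3 : Fintype.card F₀ % 4 = 3 := by
          by_contra h3
          exact hcond ⟨hodd, by omega⟩
        obtain ⟨w, hw⟩ := hiff.2 h3
        exact pfr2d_spin_sq m h2 hm1 hs _ w hw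

end

/-- **Piece PF-R2D.** -/
theorem pfr2_desc {F₀ : Type v} [Field F₀] [Fintype F₀] {F : Type u} [Field F] [Fintype F]
    (h2 : (2 : F) ≠ 0) {m : ℕ} (hm : 4 ≤ m) (e : F₀ →+* F)
    (σ : F ≃+* F) (hr : orderOf σ = 2)
    (he : ∀ x : F, σ x = x ↔ x ∈ Set.range e)
    (φ : MulAut (Cfsg.POmega F (Cfsg.quadFormPlus m F)))
    (hφ : Cfsg.IsFieldAutPOmegaOf (Cfsg.quadFormPlus m F) σ φ) :
    ∃ x₀ ∈ Cfsg.inndiagPOmegaPlus m F ⊓ Subgroup.centralizer {φ},
      (∀ c ∈ Cfsg.inndiagPOmegaPlus m F ⊓ Subgroup.centralizer {φ},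
        c ∈ Cfsg.Inn (Cfsg.POmega F (Cfsg.quadFormPlus m F)) ∨
        c * x₀⁻¹ ∈ Cfsg.Inn (Cfsg.POmega F (Cfsg.quadFormPlus m F))) ∧
      (x₀ ∈ Cfsg.Inn (Cfsg.POmega F (Cfsg.quadFormPlus m F)) ↔
        ¬ (Odd m ∧ Fintype.card F₀ % 4 = 1)) :=
  pfr2d_aux e m h2 hm σ hr he _ (coe_QPlus m F) φ hφ

end Cfsg.Agent.Lib.Helper52.PF
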