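import Mathlib
import Cfsg.Prelude.Def_Local
import Cfsg.Agent.Lib.Helper40.PLenDefs
import Cfsg.Agent.Lib.Helper63.PLenCOMB
import Cfsg.Agent.Lib.Helper43.PLenEIG
import Cfsg.Agent.Lib.Helper14.QuadCore

set_option autoImplicit false

/-! S3789, piece Q8 (helper40): the configuration `Q₀ = [Q₀, x]` with `R` centralizing `Q₀'`
is contradictory. -/

namespace Cfsg.Agent.Lib.Helper40.PLen

open Cfsg
open scoped commutatorElement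

universe u

section q8

variable {A : Type u} [CommGroup A] {H : Type u} [Group H]

/-- commutators of a class-two group with central squares are involutions -/
theorem comm_sq (Q₀ : Subgroup H) (hYc : ∀ y ∈ ⁅Q₀, Q₀⁆, ∀ u ∈ Q₀, y * u = u * y)
    (hsq : ∀ a ∈ Q₀, ∀ u ∈ Q₀, a * a * u = u * (a * a)) : ∀ y ∈ ⁅Q₀, Q₀⁆, y * y = 1 := by
  let S : Subgroup H :=
    { carrier := {y | y ∈ Q₀ ∧ (∀ u ∈ Q₀, y * u = u * y) ∧ y * y = 1}
      mul_mem' := by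
        rintro y₁ y₂ ⟨h₁, c₁, s₁⟩ ⟨h₂, c₂, s₂⟩
        refine ⟨Q₀.mul_mem h₁ h₂, fun u hu => ?_, ?_⟩
        · rw [mul_assoc, c₂ u hu, ← mul_assoc, c₁ u hu, mul_assoc]
        · have e : y₂ * y₁ = y₁ * y₂ := c₂ y₁ h₁
          calc y₁ * y₂ * (y₁ * y₂) = y₁ * (y₂ * y₁) * y₂ := by group
            _ = y₁ * y₁ * (y₂ * y₂) := by rw [e]; group
            _ = 1 := by rw [s₁, s₂, one_mul]
      one_mem' := ⟨Q₀.one_mem, fun u _ => by rw [one_mul, mul_one], by rw [one_mul]⟩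
      inv_mem' := by
        rintro y ⟨h, c, s⟩
        refine ⟨Q₀.inv_mem h, fun u hu => ?_, ?_⟩
        · have := c u hu
          calc y⁻¹ * u = y⁻¹ * (u * y) * y⁻¹ := by group
            _ = y⁻¹ * (y * u) * y⁻¹ := by rw [this]
            _ = u * y⁻¹ := by group
        · calc y⁻¹ * y⁻¹ = (y * y)⁻¹ := by group
            _ = 1 := by rw [s, inv_one] }
  have hle : ⁅Q₀, Q₀⁆ ≤ S := by
    rw [Subgroup.commutator_le]
    intro a ha b hb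
    have hc : ⁅a, b⁆ ∈ ⁅Q₀, Q₀⁆ := Subgroup.commutator_mem_commutator ha hb
    refine ⟨Q₀.mul_mem (Q₀.mul_mem (Q₀.mul_mem ha hb) (Q₀.inv_mem ha)) (Q₀.inv_mem hb),
      hYc _ hc, ?_⟩
    have h1 : a * a * b = b * (a * a) := hsq a ha b hb
    have h2 : ⁅a, b⁆ * a = a * ⁅a, b⁆ := hYc _ hc a ha
    have h3 : a * ⁅a, b⁆ * a⁻¹ = ⁅a, b⁆ := by rw [← h2]; group
    calc ⁅a, b⁆ * ⁅a, b⁆ = (a * ⁅a, b⁆ * a⁻¹) * ⁅a, b⁆ := by rw [h3]
      _ = (a * a * b) * (a * a)⁻¹ * b⁻¹ := by rw [commutatorElement_def]; group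
      _ = 1 := by rw [h1]; group
  intro y hy
  exact (hle hy).2.2

/-- the sign of `y` on the eigenvector `w₀` -/
noncomputable def sgn (θ : H →* MulAut A) (w₀ : A) (y : H) : ℤˣ := by
  classical exact if θ y w₀ = w₀ then 1 else -1

theorem sgn_pos (θ : H →* MulAut A) (w₀ : A) (y : H) (h : θ y w₀ = w₀) : sgn θ w₀ y = 1 := by
  classical
  unfold sgn
  rw [if_pos h]

theorem sgn_neg' (θ : H →* MulAut A) (w₀ : A) (y : H) (h : θ y w₀ ≠ w₀) : sgn θ w₀ y = -1 := by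
  classical
  unfold sgn
  rw [if_neg h]

theorem sgn_eq_one (θ : H →* MulAut A) (w₀ : A) (y : H) (h : sgn θ w₀ y = 1) : θ y w₀ = w₀ := by
  by_contra hne
  rw [sgn_neg' θ w₀ y hne] at h
  exact absurd h (by decide)

theorem sgn_congr (θ : H →* MulAut A) (w₀ : A) (y y' : H) (h : θ y w₀ = θ y' w₀) :
    sgn θ w₀ y = sgn θ w₀ y' := by
  classical
  unfold sgn
  rw [h]

/-- the common eigenspace of `Y` determined by `w₀` -/
def eigW (θ : H →* MulAut A) (Y : Subgroup H) (w₀ : A) : Subgroup A where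
  carrier := {v | ∀ y ∈ Y, (θ y w₀ = w₀ → θ y v = v) ∧ (θ y w₀ ≠ w₀ → θ y v = v⁻¹)}
  mul_mem' := by
    intro v v' hv hv' y hy
    refine ⟨fun h => ?_, fun h => ?_⟩
    · rw [map_mul, (hv y hy).1 h, (hv' y hy).1 h]
    · rw [map_mul, (hv y hy).2 h, (hv' y hy).2 h, mul_inv]
  one_mem' := by
    intro y _
    exact ⟨fun _ => map_one _, fun _ => by rw [map_one, inv_one]⟩
  inv_mem' := by
    intro v hv y hy
    refine ⟨fun h => ?_, fun h => ?_⟩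
    · rw [map_inv, (hv y hy).1 h]
    · rw [map_inv, (hv y hy).2 h]

/-- elements of `S` commuting with `g` on `W` -/
def cwS (θ : H →* MulAut A) (S : Subgroup H) (W : Subgroup A)
    (hSW : ∀ a ∈ S, ∀ v ∈ W, θ a v ∈ W) (g : H) : Subgroup H where
  carrier := {e | e ∈ S ∧ ∀ w ∈ W, θ e (θ g w) = θ g (θ e w)}
  mul_mem' := by
    rintro e e' ⟨he, hc⟩ ⟨he', hc'⟩
    refine ⟨S.mul_mem he he', fun w hw => ?_⟩
    rw [map_mul, MulAut.mul_apply, MulAut.mul_apply, hc' w hw, hc _ (hSW e' he' w hw)]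
  one_mem' := ⟨S.one_mem, fun w _ => by rw [map_one]; rfl⟩
  inv_mem' := by
    rintro e ⟨he, hc⟩
    refine ⟨S.inv_mem he, fun w hw => ?_⟩
    have h1 := hc _ (hSW e⁻¹ (S.inv_mem he) w hw)
    have h2 : θ e (θ e⁻¹ w) = w := by
      rw [← MulAut.mul_apply, ← map_mul, mul_inv_cancel, map_one]; rfl
    rw [h2] at h1
    rw [← h1, ← MulAut.mul_apply, ← map_mul, inv_mul_cancel, map_one]; rfl

theorem mem_eigW (θ : H →* MulAut A) (Y : Subgroup H) (w₀ v : A) :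
    v ∈ eigW θ Y w₀ ↔
      ∀ y ∈ Y, (θ y w₀ = w₀ → θ y v = v) ∧ (θ y w₀ ≠ w₀ → θ y v = v⁻¹) := Iff.rfl

theorem mem_cwS (θ : H →* MulAut A) (S : Subgroup H) (W : Subgroup A)
    (hSW : ∀ a ∈ S, ∀ v ∈ W, θ a v ∈ W) (g e : H) :
    e ∈ cwS θ S W hSW g ↔ e ∈ S ∧ ∀ w ∈ W, θ e (θ g w) = θ g (θ e w) := Iff.rfl

/-- the commutator form -/
noncomputable def epsF (θ : H →* MulAut A) (w₀ : A) (a b : H) : ℤˣ :=
  sgn θ w₀ (a * b * a⁻¹ * b⁻¹)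

theorem q8_step [Finite A] [Finite H] (hq1 : Q1Stmt.{u} 3)
    (hA : ∀ v : A, v ^ 3 = 1) (θ : H →* MulAut A) (hθ : ∀ g : H, θ g = 1 → g = 1)
    (R : Subgroup H) (x : H) (hxRR : x ∈ ⁅R, R⁆) (hxc : ∀ r ∈ R, r * x = x * r)
    (hqx : ∀ v : A, θ x (θ x v / v) = θ x v / v)
    (Q₀ : Subgroup H) (hQ2 : IsPGroup 2 Q₀) (hRQ : ∀ r ∈ R, ∀ u ∈ Q₀, r * u * r⁻¹ ∈ Q₀)
    (hgen : ⁅Q₀, Subgroup.zpowers x⁆ = Q₀)
    (hYc : ∀ y ∈ ⁅Q₀, Q₀⁆, ∀ u ∈ Q₀, y * u = u * y)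
    (hYx : ∀ y ∈ ⁅Q₀, Q₀⁆, x * y = y * x)
    (hYR : ∀ r ∈ R, ∀ y ∈ ⁅Q₀, Q₀⁆, r * y = y * r)
    (hsq : ∀ a ∈ Q₀, ∀ u ∈ Q₀, a * a * u = u * (a * a))
    (hYne : ⁅Q₀, Q₀⁆ ≠ ⊥) : False := by
  classical
  have hRR : ⁅R, R⁆ ≤ R := Subgroup.commutator_le.mpr (fun a ha b hb =>
    R.mul_mem (R.mul_mem (R.mul_mem ha hb) (R.inv_mem ha)) (R.inv_mem hb))
  have hxR : x ∈ R := hRR hxRR
  have hx3 : x ^ 3 = 1 := Cfsg.Agent.Lib.Helper14.quad_pow_p hA θ hθ x hqx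
  have hYQ : ⁅Q₀, Q₀⁆ ≤ Q₀ := Subgroup.commutator_le.mpr (fun a ha b hb =>
    Q₀.mul_mem (Q₀.mul_mem (Q₀.mul_mem ha hb) (Q₀.inv_mem ha)) (Q₀.inv_mem hb))
  have hY2 : ∀ y ∈ ⁅Q₀, Q₀⁆, y * y = 1 := comm_sq Q₀ hYc hsq
  have hYcomm : ∀ y₁ ∈ ⁅Q₀, Q₀⁆, ∀ y₂ ∈ ⁅Q₀, Q₀⁆, y₁ * y₂ = y₂ * y₁ :=
    fun y₁ h₁ y₂ h₂ => hYc y₁ h₁ y₂ (hYQ h₂)
  obtain ⟨y₀, hy₀Y, hy₀1⟩ : ∃ y₀ ∈ ⁅Q₀, Q₀⁆, y₀ ≠ 1 := by
    by_contra hcon
    push_neg at hcon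
    exact hYne ((Subgroup.eq_bot_iff_forall _).mpr hcon)
  have hθy₀ : θ y₀ ≠ 1 := fun h => hy₀1 (hθ _ h)
  obtain ⟨w₀, hw₀1, hy₀w₀, hYw₀⟩ :=
    Cfsg.Agent.Lib.Helper43.exists_eigen θ ⁅Q₀, Q₀⁆ hY2 hYcomm y₀ hy₀Y hθy₀
  have hw₀inv : w₀ ≠ w₀⁻¹ := by
    intro h
    apply hw₀1
    have h2 : w₀ * w₀ = 1 := by
      nth_rewrite 2 [h]
      exact mul_inv_cancel w₀
    have h3 := hA w₀
    rw [pow_succ, pow_two, h2, one_mul] at h3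
    exact h3
  have θmul : ∀ (a b : H) (v : A), θ (a * b) v = θ a (θ b v) := fun a b v => by
    rw [map_mul]; rfl
  have θinvl : ∀ (a : H) (v : A), θ a⁻¹ (θ a v) = v := fun a v => by
    rw [← θmul, inv_mul_cancel, map_one]; rfl
  have θinvr : ∀ (a : H) (v : A), θ a (θ a⁻¹ v) = v := fun a v => by
    rw [← θmul, mul_inv_cancel, map_one]; rfl
  obtain ⟨W, hWdef⟩ : ∃ W : Subgroup A, W = eigW θ ⁅Q₀, Q₀⁆ w₀ := ⟨_, rfl⟩
  have hWmem : ∀ v, v ∈ W ↔ ∀ y ∈ ⁅Q₀, Q₀⁆,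
      (θ y w₀ = w₀ → θ y v = v) ∧ (θ y w₀ ≠ w₀ → θ y v = v⁻¹) := by
    intro v; rw [hWdef]; exact mem_eigW θ _ w₀ v
  have hw₀W : w₀ ∈ W :=
    (hWmem w₀).2 (fun y hy => ⟨fun h => h, fun h => (hYw₀ y hy).resolve_left h⟩)
  have hWinv : ∀ h : H, (∀ y ∈ ⁅Q₀, Q₀⁆, h * y = y * h) → ∀ v ∈ W, θ h v ∈ W := by
    intro h hh v hv
    rw [hWmem] at hv ⊢
    intro y hy
    have e : θ y (θ h v) = θ h (θ y v) := by rw [← θmul, ← θmul, hh y hy]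
    exact ⟨fun hf => by rw [e, (hv y hy).1 hf], fun hf => by rw [e, (hv y hy).2 hf, map_inv]⟩
  have hQW : ∀ a ∈ Q₀, ∀ v ∈ W, θ a v ∈ W :=
    fun a ha => hWinv a (fun y hy => (hYc y hy a ha).symm)
  have hRW : ∀ r ∈ R, ∀ v ∈ W, θ r v ∈ W := fun r hr => hWinv r (hYR r hr)
  have hzR : Subgroup.zpowers x ≤ R := Subgroup.zpowers_le.mpr hxR
  have hzW : ∀ g ∈ Subgroup.zpowers x, ∀ v ∈ W, θ g v ∈ W := fun g hg => hRW g (hzR hg)
  have sgW : ∀ y ∈ ⁅Q₀, Q₀⁆, sgn θ w₀ y = 1 → ∀ v ∈ W, θ y v = v :=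
    fun y hy h v hv => ((hWmem v).1 hv y hy).1 (sgn_eq_one θ w₀ y h)
  have sg_neg : ∀ y, θ y w₀ = w₀⁻¹ → sgn θ w₀ y = -1 := fun y h =>
    sgn_neg' θ w₀ y (fun h' => hw₀inv (h'.symm.trans h))
  have sg_mul : ∀ y₁ ∈ ⁅Q₀, Q₀⁆, ∀ y₂ ∈ ⁅Q₀, Q₀⁆,
      sgn θ w₀ (y₁ * y₂) = sgn θ w₀ y₁ * sgn θ w₀ y₂ := by
    intro y₁ h₁ y₂ h₂
    have e : θ (y₁ * y₂) w₀ = θ y₁ (θ y₂ w₀) := θmul _ _ _
    rcases hYw₀ y₁ h₁ with f₁ | f₁ <;> rcases hYw₀ y₂ h₂ with f₂ | f₂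
    · rw [sgn_pos θ w₀ _ (by rw [e, f₂, f₁]), sgn_pos θ w₀ _ f₁, sgn_pos θ w₀ _ f₂, one_mul]
    · rw [sg_neg _ (by rw [e, f₂, map_inv, f₁]), sgn_pos θ w₀ _ f₁, sg_neg _ f₂, one_mul]
    · rw [sg_neg _ (by rw [e, f₂, f₁]), sg_neg _ f₁, sgn_pos θ w₀ _ f₂, mul_one]
    · rw [sgn_pos θ w₀ _ (by rw [e, f₂, map_inv, f₁, inv_inv]), sg_neg _ f₁, sg_neg _ f₂]
      rfl
  have hcY : ∀ a ∈ Q₀, ∀ b ∈ Q₀, a * b * a⁻¹ * b⁻¹ ∈ ⁅Q₀, Q₀⁆ :=
    fun a ha b hb => Subgroup.commutator_mem_commutator ha hb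
  have hyinv : ∀ y ∈ ⁅Q₀, Q₀⁆, y⁻¹ = y := fun y hy => inv_eq_of_mul_eq_one_left (hY2 y hy)
  have hmul : ∀ a ∈ Q₀, ∀ b ∈ Q₀, ∀ u ∈ Q₀,
      epsF θ w₀ (a * b) u = epsF θ w₀ a u * epsF θ w₀ b u := by
    intro a ha b hb u hu
    unfold epsF
    have hcb := hcY b hb u hu
    have hca := hcY a ha u hu
    have h1 : (b * u * b⁻¹ * u⁻¹) * a = a * (b * u * b⁻¹ * u⁻¹) := hYc _ hcb a ha
    have h2 : a * b * u * (a * b)⁻¹ * u⁻¹ = (b * u * b⁻¹ * u⁻¹) * (a * u * a⁻¹ * u⁻¹) := by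
      calc a * b * u * (a * b)⁻¹ * u⁻¹
          = a * (b * u * b⁻¹ * u⁻¹) * (u * a⁻¹ * u⁻¹) := by group
        _ = (b * u * b⁻¹ * u⁻¹) * a * (u * a⁻¹ * u⁻¹) := by rw [h1]
        _ = (b * u * b⁻¹ * u⁻¹) * (a * u * a⁻¹ * u⁻¹) := by group
    rw [h2, sg_mul _ hcb _ hca, mul_comm]
  have hsymm : ∀ a ∈ Q₀, ∀ b ∈ Q₀, epsF θ w₀ a b = epsF θ w₀ b a := by
    intro a ha b hb
    unfold epsF
    have h1 : b * a * b⁻¹ * a⁻¹ = (a * b * a⁻¹ * b⁻¹)⁻¹ := by group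
    rw [h1, hyinv _ (hcY a ha b hb)]
  have hself : ∀ a ∈ Q₀, epsF θ w₀ a a = 1 := by
    intro a _
    unfold epsF
    apply sgn_pos
    have : a * a * a⁻¹ * a⁻¹ = 1 := by group
    rw [this, map_one]; rfl
  have hinv : ∀ r ∈ R, ∀ a ∈ Q₀, ∀ b ∈ Q₀,
      epsF θ w₀ (r * a * r⁻¹) (r * b * r⁻¹) = epsF θ w₀ a b := by
    intro r hr a ha b hb
    unfold epsF
    have h1 : (r * a * r⁻¹) * (r * b * r⁻¹) * (r * a * r⁻¹)⁻¹ * (r * b * r⁻¹)⁻¹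
        = r * (a * b * a⁻¹ * b⁻¹) * r⁻¹ := by group
    rw [h1, hYR r hr _ (hcY a ha b hb), mul_inv_cancel_right]
  have hne : ∃ a ∈ Q₀, ∃ b ∈ Q₀, epsF θ w₀ a b ≠ 1 := by
    by_contra hcon
    push_neg at hcon
    have hle : ⁅Q₀, Q₀⁆ ≤ (MulAction.stabilizer (MulAut A) w₀).comap θ := by
      rw [Subgroup.commutator_le]
      intro a ha b hb
      rw [Subgroup.mem_comap, MulAction.mem_stabilizer_iff, MulAut.smul_def]
      exact sgn_eq_one θ w₀ _ (hcon a ha b hb)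
    have h1 := hle hy₀Y
    rw [Subgroup.mem_comap, MulAction.mem_stabilizer_iff, MulAut.smul_def] at h1
    exact hw₀inv (h1.symm.trans hy₀w₀)
  have hAA : ∀ q ∈ Q₀, epsF θ w₀ q (x * q * x⁻¹) = 1 → ∀ u ∈ Q₀, epsF θ w₀ q u = 1 := by
    intro q hq hβ u hu
    have hxinvR : x⁻¹ ∈ R := R.inv_mem hxR
    obtain ⟨q₂, hq₂⟩ : ∃ q₂, q₂ = x * q * x⁻¹ := ⟨_, rfl⟩
    obtain ⟨q₃, hq₃⟩ : ∃ q₃, q₃ = x⁻¹ * q * x := ⟨_, rfl⟩
    have hq₂Q : q₂ ∈ Q₀ := by rw [hq₂]; exact hRQ x hxR q hq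
    have hq₃Q : q₃ ∈ Q₀ := by
      rw [hq₃]
      have := hRQ x⁻¹ hxinvR q hq
      rwa [inv_inv] at this
    have hxx : x * x = x⁻¹ := by
      have h : x * x * x = 1 := by rw [← pow_two, ← pow_succ]; exact hx3
      exact eq_inv_of_mul_eq_one_left h
    have e12 : x * q * x⁻¹ = q₂ := hq₂.symm
    have e23 : x * q₂ * x⁻¹ = q₃ := by
      rw [hq₂, hq₃]
      calc x * (x * q * x⁻¹) * x⁻¹ = (x * x) * q * (x * x)⁻¹ := by group
        _ = x⁻¹ * q * x := by rw [hxx, inv_inv]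
    have e31 : x * q₃ * x⁻¹ = q := by rw [hq₃]; group
    rw [e12] at hβ
    have h12 : epsF θ w₀ q q₂ = 1 := hβ
    have h23 : epsF θ w₀ q₂ q₃ = 1 := by
      have := hinv x hxR q hq q₂ hq₂Q
      rw [e12, e23] at this
      rw [this]; exact h12
    have h31 : epsF θ w₀ q₃ q = 1 := by
      have := hinv x hxR q₂ hq₂Q q₃ hq₃Q
      rw [e23, e31] at this
      rw [this]; exact h23
    have commW : ∀ a ∈ Q₀, ∀ b ∈ Q₀, epsF θ w₀ a b = 1 →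
        ∀ w ∈ W, θ a (θ b w) = θ b (θ a w) := by
      intro a ha b hb hab w hw
      have h1 : a * b = (a * b * a⁻¹ * b⁻¹) * (b * a) := by group
      calc θ a (θ b w) = θ (a * b) w := (θmul a b w).symm
        _ = θ ((a * b * a⁻¹ * b⁻¹) * (b * a)) w := by rw [← h1]
        _ = θ (a * b * a⁻¹ * b⁻¹) (θ b (θ a w)) := by
          rw [θmul (a * b * a⁻¹ * b⁻¹) (b * a) w, θmul b a w]
        _ = θ b (θ a w) := sgW _ (hcY a ha b hb) hab _ (hQW b hb _ (hQW a ha w hw))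
    obtain ⟨E, hEdef⟩ : ∃ E : Subgroup H, E = Subgroup.closure ({q, q₂, q₃} : Set H) :=
      ⟨_, rfl⟩
    have hEQ : E ≤ Q₀ := by
      rw [hEdef, Subgroup.closure_le]
      intro g hg
      rcases hg with h | h | h
      · rw [h]; exact hq
      · rw [h]; exact hq₂Q
      · rw [Set.mem_singleton_iff] at h; rw [h]; exact hq₃Q
    have key1 : ∀ g ∈ ({q, q₂, q₃} : Set H), ∀ g' ∈ ({q, q₂, q₃} : Set H), ∀ w ∈ W,
        θ g (θ g' w) = θ g' (θ g w) := by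
      intro g hg g' hg' w hw
      have c12 := commW q hq q₂ hq₂Q h12 w hw
      have c23 := commW q₂ hq₂Q q₃ hq₃Q h23 w hw
      have c31 := commW q₃ hq₃Q q hq h31 w hw
      rcases hg with h | h | h <;> rcases hg' with h' | h' | h'
      · rw [h, h']
      · rw [h, h']; exact c12
      · rw [Set.mem_singleton_iff] at h'; rw [h, h']; exact c31.symm
      · rw [h, h']; exact c12.symm
      · rw [h, h']
      · rw [Set.mem_singleton_iff] at h'; rw [h, h']; exact c23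
      · rw [Set.mem_singleton_iff] at h; rw [h, h']; exact c31
      · rw [Set.mem_singleton_iff] at h; rw [h, h']; exact c23.symm
      · rw [Set.mem_singleton_iff] at h h'; rw [h, h']
    have hEcomm1 : ∀ g ∈ ({q, q₂, q₃} : Set H), ∀ e ∈ E, ∀ w ∈ W,
        θ e (θ g w) = θ g (θ e w) := by
      intro g hg
      have hle : E ≤ cwS θ Q₀ W hQW g := by
        rw [hEdef, Subgroup.closure_le]
        intro g' hg'
        exact (mem_cwS θ Q₀ W hQW g g').2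
          ⟨hEQ (by rw [hEdef]; exact Subgroup.subset_closure hg'), key1 g' hg' g hg⟩
      intro e he
      exact ((mem_cwS θ Q₀ W hQW g e).1 (hle he)).2
    have hEcomm : ∀ e₁ ∈ E, ∀ e₂ ∈ E, ∀ w ∈ W, θ e₁ (θ e₂ w) = θ e₂ (θ e₁ w) := by
      intro e₁ he₁ e₂ he₂
      have hle : E ≤ cwS θ Q₀ W hQW e₂ := by
        rw [hEdef, Subgroup.closure_le]
        intro g hg
        exact (mem_cwS θ Q₀ W hQW e₂ g).2
          ⟨hEQ (by rw [hEdef]; exact Subgroup.subset_closure hg),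
            fun w hw => (hEcomm1 g hg e₂ he₂ w hw).symm⟩
      exact ((mem_cwS θ Q₀ W hQW e₂ e₁).1 (hle he₁)).2
    have hxE : ∀ e ∈ E, x * e * x⁻¹ ∈ E := by
      have hle : E ≤ E.comap (MulAut.conj x).toMonoidHom := by
        nth_rewrite 1 [hEdef]
        rw [Subgroup.closure_le]
        intro g hg
        rw [SetLike.mem_coe, Subgroup.mem_comap]
        show x * g * x⁻¹ ∈ E
        rw [hEdef]
        rcases hg with h | h | h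
        · rw [h, e12]; exact Subgroup.subset_closure (by simp)
        · rw [h, e23]; exact Subgroup.subset_closure (by simp)
        · rw [Set.mem_singleton_iff] at h
          rw [h, e31]; exact Subgroup.subset_closure (by simp)
      intro e he
      exact hle he
    have hq1W := hq1 A H θ W E 2 x hA Nat.prime_two (by decide) (hQ2.to_le hEQ) hxE
      (hzW x (Subgroup.mem_zpowers x)) (fun e he => hQW e (hEQ he)) (fun w _ => hqx w)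
      (fun _ e₁ he₁ e₂ he₂ w hw => hEcomm e₁ he₁ e₂ he₂ w hw)
    have hxq : ∀ w ∈ W, θ x (θ q w) = θ q (θ x w) :=
      hq1W q (by rw [hEdef]; exact Subgroup.subset_closure (by simp))
    have hgq : ∀ g ∈ Subgroup.zpowers x, ∀ w ∈ W, θ g (θ q w) = θ q (θ g w) := by
      have hle : Subgroup.zpowers x ≤ cwS θ (Subgroup.zpowers x) W hzW q :=
        Subgroup.zpowers_le.mpr ((mem_cwS θ _ W hzW q x).2 ⟨Subgroup.mem_zpowers x, hxq⟩)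
      intro g hg
      exact ((mem_cwS θ _ W hzW q g).1 (hle hg)).2
    have hmulr : ∀ a ∈ Q₀, ∀ b ∈ Q₀,
        epsF θ w₀ q (a * b) = epsF θ w₀ q a * epsF θ w₀ q b := by
      intro a ha b hb
      rw [hsymm q hq (a * b) (Q₀.mul_mem ha hb), hmul a ha b hb q hq, hsymm a ha q hq,
        hsymm b hb q hq]
    have hε1 : epsF θ w₀ q 1 = 1 := by
      unfold epsF
      apply sgn_pos
      have : q * 1 * q⁻¹ * 1⁻¹ = 1 := by group
      rw [this, map_one]; rfl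
    obtain ⟨D, hD⟩ : ∃ D : Subgroup H, ∀ u, u ∈ D ↔ u ∈ Q₀ ∧ epsF θ w₀ q u = 1 :=
      ⟨{ carrier := {u | u ∈ Q₀ ∧ epsF θ w₀ q u = 1}
         mul_mem' := by
           rintro a b ⟨ha, ea⟩ ⟨hb, eb⟩
           exact ⟨Q₀.mul_mem ha hb, by rw [hmulr a ha b hb, ea, eb, one_mul]⟩
         one_mem' := ⟨Q₀.one_mem, hε1⟩
         inv_mem' := by
           rintro a ⟨ha, ea⟩
           refine ⟨Q₀.inv_mem ha, ?_⟩
           have := hmulr a ha a⁻¹ (Q₀.inv_mem ha)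
           rw [mul_inv_cancel, hε1, ea, one_mul] at this
           exact this.symm }, fun u => Iff.rfl⟩
    have hDle : ⁅Q₀, Subgroup.zpowers x⁆ ≤ D := by
      rw [Subgroup.commutator_le]
      intro a ha g hg
      have hgR := hzR hg
      have hconj : g * a⁻¹ * g⁻¹ ∈ Q₀ := hRQ g hgR a⁻¹ (Q₀.inv_mem ha)
      have e : ⁅a, g⁆ = a * (g * a⁻¹ * g⁻¹) := by rw [commutatorElement_def]; group
      rw [e, hD]
      refine ⟨Q₀.mul_mem ha hconj, ?_⟩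
      rw [hmulr a ha _ hconj]
      obtain ⟨q', hq'def⟩ : ∃ q', q' = g⁻¹ * q * g := ⟨_, rfl⟩
      have hq'Q : q' ∈ Q₀ := by
        rw [hq'def]
        have := hRQ g⁻¹ (R.inv_mem hgR) q hq
        rwa [inv_inv] at this
      have h1 : epsF θ w₀ q (g * a⁻¹ * g⁻¹) = epsF θ w₀ q' a⁻¹ := by
        have := hinv g⁻¹ (R.inv_mem hgR) q hq (g * a⁻¹ * g⁻¹) hconj
        have e1 : g⁻¹ * q * g⁻¹⁻¹ = q' := by rw [hq'def, inv_inv]
        have e2 : g⁻¹ * (g * a⁻¹ * g⁻¹) * g⁻¹⁻¹ = a⁻¹ := by group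
        rw [e1, e2] at this
        exact this.symm
      have hq'W : ∀ w ∈ W, θ q' w = θ q w := by
        intro w hw
        rw [hq'def, θmul, θmul, ← hgq g hg w hw, θinvl]
      have hq'invW : ∀ w ∈ W, θ q'⁻¹ w = θ q⁻¹ w := by
        intro w hw
        have hmem : θ q'⁻¹ w ∈ W := hQW _ (Q₀.inv_mem hq'Q) w hw
        have h3 := hq'W _ hmem
        rw [θinvr] at h3
        calc θ q'⁻¹ w = θ q⁻¹ (θ q (θ q'⁻¹ w)) := (θinvl _ _).symm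
          _ = θ q⁻¹ w := by rw [← h3]
      have h2 : epsF θ w₀ q' a⁻¹ = epsF θ w₀ q a⁻¹ := by
        unfold epsF
        apply sgn_congr
        have hw₁ : θ a⁻¹⁻¹ w₀ ∈ W := hQW _ (Q₀.inv_mem (Q₀.inv_mem ha)) w₀ hw₀W
        rw [θmul, θmul, θmul, θmul, θmul, θmul, hq'invW _ hw₁,
          hq'W _ (hQW _ (Q₀.inv_mem ha) _ (hQW _ (Q₀.inv_mem hq) _ hw₁))]
      rw [h1, h2, ← hmulr a ha a⁻¹ (Q₀.inv_mem ha), mul_inv_cancel]
      exact hε1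
    rw [hgen] at hDle
    exact ((hD u).1 (hDle hu)).2
  exact Cfsg.Agent.Lib.Helper63.comb_contra R Q₀ x hxRR hxc hx3 hRQ (epsF θ w₀) hmul hsymm hself hinv hAA hne

end q8

end Cfsg.Agent.Lib.Helper40.PLen
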