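import Mathlib
import Cfsg.Prelude.Def_Local
import Cfsg.Agent.Lib.Helper40.PLenDefs
import Cfsg.Agent.Lib.Helper40.PLenQ8
import Cfsg.Agent.Lib.Helper55.PLenRSTEP
import Cfsg.Agent.Lib.Helper14.QuadGen
import Cfsg.Agent.Lib.Helper40.Chief4
import Cfsg.Agent.Lib.Helper57.PLenQ1
import Cfsg.Agent.Lib.Helper55.PLenINV
import Cfsg.Agent.Lib.Helper63.PLenMIN

set_option autoImplicit false

/-! S3789 (helper40): the linear core `YStmt p` for odd `p`, assembled from the pieces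
Q1 (helper57), INV (helper55), MIN (helper63), RSTEP (helper55), Q8 (helper40; with EIG by
helper43 and COMB by helper63). -/

namespace Cfsg.Agent.Lib.Helper40.PLen

open Cfsg

universe u

theorem lemmaY (p : ℕ) [Fact p.Prime] (hp2 : p ≠ 2) : YStmt.{u} p := by
  intro A _ _ H _ _ θ R hA hθ hsol hOp hR h1 h2
  by_contra hne
  have hp : p.Prime := Fact.out
  have hRR : ⁅R, R⁆ ≤ R := Subgroup.commutator_le.mpr (fun a ha b hb =>
    R.mul_mem (R.mul_mem (R.mul_mem ha hb) (R.inv_mem ha)) (R.inv_mem hb))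
  obtain ⟨x, hxRR, hx1, hxc⟩ : ∃ x ∈ ⁅R, R⁆, x ≠ 1 ∧ ∀ r ∈ R, r * x = x * r := by
    have hRtop : IsPGroup p (⊤ : Subgroup ↥R) := by
      rintro ⟨g, -⟩
      obtain ⟨k, hk⟩ := hR g
      exact ⟨k, Subtype.ext hk⟩
    have hD : commutator ↥R ≠ ⊥ := by
      intro h0
      apply hne
      rw [← Subgroup.map_subtype_commutator, h0, Subgroup.map_bot]
    obtain ⟨z, hzD, hz1, hzc⟩ := Chief.exists_central_in_normal (⊤ : Subgroup ↥R) hRtop
      (commutator ↥R) le_top hD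
    refine ⟨z, ?_, ?_, ?_⟩
    · rw [← Subgroup.map_subtype_commutator]; exact ⟨z, hzD, rfl⟩
    · intro h; exact hz1 (Subtype.ext h)
    · intro r hr
      have := hzc ⟨r, hr⟩ (Subgroup.mem_top _)
      exact (congrArg Subtype.val this).symm
  have hxR : x ∈ R := hRR hxRR
  have hqx : ∀ v : A, θ x (θ x v / v) = θ x v / v := h1 x hxRR x hxRR
  by_cases hp5 : 5 ≤ p
  · have := Cfsg.Agent.Lib.Helper14.quad_mem_pCore_pSolvable hp5 hsol hA θ hθ x hqx
    rw [hOp, Subgroup.mem_bot] at this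
    exact hx1 this
  have hp3 : p = 3 := by
    have h2le := hp.two_le
    have hlt : p < 5 := by omega
    interval_cases p
    · exact absurd rfl hp2
    · rfl
    · exact absurd hp (by decide)
  subst hp3
  have hx3 : x ^ 3 = 1 := Cfsg.Agent.Lib.Helper14.quad_pow_p hA θ hθ x hqx
  have hq1 : Q1Stmt.{u} 3 := Cfsg.Agent.Lib.Helper57.q1_holds 3 hp2
  obtain ⟨q, Q, hqp, hq3, hQ, hRQ, hxQ⟩ :=
    Cfsg.Agent.Lib.Helper55.exists_inv_qsub hsol hOp R hR x hxR hx1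
  have hQ1top : ∀ (E : Subgroup H) (q' : ℕ), q'.Prime → q' ≠ 3 → IsPGroup q' E →
      (∀ e ∈ E, x * e * x⁻¹ ∈ E) → (q' = 2 → ∀ e₁ ∈ E, ∀ e₂ ∈ E, e₁ * e₂ = e₂ * e₁) →
      ∀ e ∈ E, x * e = e * x := by
    intro E q' hq' hq'3 hE hxE hab e he
    have key := hq1 A H θ ⊤ E q' x hA hq' hq'3 hE hxE (fun u _ => Subgroup.mem_top _)
      (fun e _ u _ => Subgroup.mem_top _) (fun u _ => hqx u) (fun h2' e₁ he₁ e₂ he₂ u _ => by
        rw [← MulAut.mul_apply, ← MulAut.mul_apply, ← map_mul, ← map_mul,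
          hab h2' e₁ he₁ e₂ he₂]) e he
    have h3 : θ (x * e) = θ (e * x) := by
      ext u
      rw [map_mul, map_mul, MulAut.mul_apply, MulAut.mul_apply]
      exact key u (Subgroup.mem_top _)
    have h4 : θ (x * e * (e * x)⁻¹) = 1 := by
      rw [map_mul, h3, ← map_mul, mul_inv_cancel, map_one]
    exact mul_inv_eq_one.mp (hθ _ h4)
  have hq2 : q = 2 := by
    by_contra hq2
    obtain ⟨u, hu, hxu⟩ := hxQ
    exact hxu (hQ1top Q q hqp hq3 hQ (fun e he => hRQ x hxR e he) (fun h => absurd h hq2) u hu)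
  subst hq2
  obtain ⟨Q₀, hQ₀Q, hRQ₀, hgen, hYc, hYx, hsq, hYne⟩ :=
    Cfsg.Agent.Lib.Helper63.exists_min_config (p := 3) (by decide) R x hxR hxc hx3 Q hQ hRQ hxQ
      (fun E hEQ hxE hab => hQ1top E 2 Nat.prime_two (by decide) (hQ.to_le hEQ) hxE
        (fun _ => hab))
  have hQ₀2 : IsPGroup 2 Q₀ := hQ.to_le hQ₀Q
  have hqR : ∀ r ∈ R, ∀ v : A,
      θ r (θ r (θ x v / v) / (θ x v / v)) = θ r (θ x v / v) / (θ x v / v) := by
    intro r hr v
    have hcomm : ∀ v, θ r (θ x v) = θ x (θ r v) := by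
      intro v
      rw [← MulAut.mul_apply, ← MulAut.mul_apply, ← map_mul, ← map_mul, hxc r hr]
    have e1 : ∀ v, θ r (θ x v / v) / (θ x v / v) = θ x (θ r v / v) / (θ r v / v) := by
      intro v
      rw [map_div, map_div, hcomm, div_div_div_comm]
    rw [e1 v]
    have h3 := h2 r hr r hr x hxRR v
    rw [← div_eq_one, e1, h3, div_self']
  have hYR := Cfsg.Agent.Lib.Helper55.r_step hq1 hA θ hθ R x hxR hxc hqR Q₀ hQ₀2 hRQ₀ hgen hYc hYx hsq
  exact q8_step hq1 hA θ hθ R x hxRR hxc hqx Q₀ hQ₀2 hRQ₀ hgen hYc hYx hYR hsq hYne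

end Cfsg.Agent.Lib.Helper40.PLen
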