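import Mathlib
import Cfsg.Prelude.Def_GeometricClasses
import Cfsg.Prelude.Def_LieClassical
import Cfsg.Agent.Lib.Helper71.Asch0

/-!
# Project SPP (helper71), piece TFSW (helper40): swapping the two tensor factors
-/

set_option autoImplicit false

namespace Cfsg.Agent.Lib.Helper40.SPPTFSW

open Matrix Cfsg.Geo Cfsg.Agent.Lib.Helper71.Asch
open scoped Kronecker

variable {n : ℕ} {F : Type*} [Field F] [Fintype F]

omit [Fintype F] in
theorem tmat_swap {d k : ℕ} (e : Fin n ≃ Fin d × Fin k) (P : GL (Fin n) F)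
    (a : Matrix (Fin d) (Fin d) F) (b : Matrix (Fin k) (Fin k) F) :
    tmat e P a b = tmat (e.trans (Equiv.prodComm (Fin d) (Fin k))) P b a := by
  unfold tmat
  congr 2
  ext i j
  simp only [Matrix.reindex_apply, Matrix.submatrix_apply, Matrix.kroneckerMap_apply,
    Equiv.symm_symm, Equiv.trans_apply, Equiv.prodComm_apply, Prod.fst_swap, Prod.snd_swap]
  exact mul_comm _ _

/-- TFSW: swapping the two tensor factors. -/
theorem TFSW (f : (Fin n → F) → (Fin n → F) → F) {d k : ℕ} (e : Fin n ≃ Fin d × Fin k)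
    (P : GL (Fin n) F) (G₁ : Matrix (Fin d) (Fin d) F) (G₂ : Matrix (Fin k) (Fin k) F)
    (hid : ∀ x y : Fin d × Fin k → F,
      f (P.1 *ᵥ (x ∘ e)) (P.1 *ᵥ (y ∘ e)) = formOfGram id (G₁ ⊗ₖ G₂) x y) :
    (∀ x y : Fin k × Fin d → F,
      f (P.1 *ᵥ (x ∘ (e.trans (Equiv.prodComm (Fin d) (Fin k)))))
        (P.1 *ᵥ (y ∘ (e.trans (Equiv.prodComm (Fin d) (Fin k))))) =
        formOfGram id (G₂ ⊗ₖ G₁) x y) ∧
    tensorProductSubgroup d k e P =
      tensorProductSubgroup k d (e.trans (Equiv.prodComm (Fin d) (Fin k))) P := by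
  constructor
  · intro x y
    have hx : ∀ x : Fin k × Fin d → F,
        x ∘ (e.trans (Equiv.prodComm (Fin d) (Fin k))) = (x ∘ Prod.swap) ∘ e := by
      intro x
      funext i
      rfl
    rw [hx x, hx y, hid]
    unfold formOfGram
    refine Fintype.sum_equiv (Equiv.prodComm (Fin d) (Fin k)) _ _ (fun a => ?_)
    refine Fintype.sum_equiv (Equiv.prodComm (Fin d) (Fin k)) _ _ (fun b => ?_)
    obtain ⟨a1, a2⟩ := a
    obtain ⟨b1, b2⟩ := b
    simp only [Function.comp, Prod.swap, Equiv.prodComm_apply, Matrix.kroneckerMap_apply, id]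
    ring
  · ext g
    rw [mem_tensorProductSubgroup_iff, mem_tensorProductSubgroup_iff]
    constructor
    · rintro ⟨a, b, h⟩
      exact ⟨b, a, by rw [h, tmat_swap]⟩
    · rintro ⟨b, a, h⟩
      exact ⟨a, b, by rw [h, ← tmat_swap]⟩

end Cfsg.Agent.Lib.Helper40.SPPTFSW
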