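import Mathlib
import Cfsg.Agent.Lib.Helper48.SVA

/-!
# S2425 (helper48 project SV), piece CHISUP (helper40)

`dimS` is strictly monotone, `chi` is monic of degree `dimS`, and both are additive /
multiplicative on internal direct sums.
-/

set_option autoImplicit false

namespace Cfsg.Agent.Lib.Helper48.SV

open Cfsg
open scoped MatrixGroups Polynomial

section Modules

variable {F : Type*} [Field F] [Finite F]
variable {N : Type*} [AddCommGroup N] [Module F[X] N] [Module F N] [IsScalarTower F F[X] N] [Finite N]

/-- piece CHISUP (0) -/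
theorem dimS_strictMono : StrictMono (dimS : Submodule F[X] N → ℕ) := by
  intro W W' h
  have h1 : W.restrictScalars F < W'.restrictScalars F := by
    rw [lt_iff_le_and_ne] at h ⊢
    refine ⟨fun x hx => h.1 hx, fun he => h.2 ?_⟩
    exact Submodule.restrictScalars_injective F F[X] N he
  have h2 := Submodule.finrank_lt_finrank_of_lt h1
  exact h2

/-- piece CHISUP (0') -/
theorem dimS_bot : dimS (⊥ : Submodule F[X] N) = 0 := by
  unfold dimS
  exact Module.finrank_zero_of_subsingleton

/-- piece CHISUP (1) -/
theorem chi_monic (W : Submodule F[X] N) : (chi W).Monic := by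
  unfold chi
  exact LinearMap.charpoly_monic _

/-- piece CHISUP (2) -/
theorem chi_natDegree (W : Submodule F[X] N) : (chi W).natDegree = dimS W := by
  unfold chi dimS
  exact LinearMap.charpoly_natDegree _

/-- piece CHISUP (3) -/
theorem chi_bot : chi (⊥ : Submodule F[X] N) = 1 := by
  have h1 := chi_monic (⊥ : Submodule F[X] N)
  have h2 := chi_natDegree (⊥ : Submodule F[X] N)
  rw [dimS_bot] at h2
  exact Polynomial.eq_one_of_monic_natDegree_zero h1 h2

/-- piece CHISUP (4): the internal direct sum of two disjoint submodules -/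
noncomputable def sumEquiv {R : Type*} [Ring R] {M : Type*} [AddCommGroup M] [Module R M]
    (B C : Submodule R M) (h : Disjoint B C) : (↥B × ↥C) ≃ₗ[R] ↥(B ⊔ C) :=
  (LinearEquiv.ofInjective (B.subtype.coprod C.subtype)
    (LinearMap.ker_eq_bot.mp (by
      rw [LinearMap.ker_coprod_of_disjoint_range]
      · simp
      · simpa using h))).trans
    (LinearEquiv.ofEq _ _ (Submodule.sup_eq_range B C).symm)

theorem sumEquiv_apply {R : Type*} [Ring R] {M : Type*} [AddCommGroup M] [Module R M]
    (B C : Submodule R M) (h : Disjoint B C) (b : B) (c : C) :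
    ((sumEquiv B C h (b, c) : ↥(B ⊔ C)) : M) = (b : M) + (c : M) := by
  unfold sumEquiv
  simp

omit [Finite F] [Finite N] in
theorem chisup_restrict_apply (B C : Submodule F[X] N) (h : Disjoint B C) (b : B) (c : C) :
    ((((sumEquiv B C h).restrictScalars F) (b, c) : ↥(B ⊔ C)) : N) = (b : N) + (c : N) :=
  sumEquiv_apply B C h b c

/-- piece CHISUP (5) -/
theorem chi_sup (B C : Submodule F[X] N) (h : Disjoint B C) : chi (B ⊔ C) = chi B * chi C := by
  unfold chi
  rw [← LinearMap.charpoly_prodMap, ← LinearEquiv.charpoly_conj ((sumEquiv B C h).restrictScalars F)]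
  congr 1
  apply LinearMap.ext
  intro w
  obtain ⟨⟨b, c⟩, rfl⟩ := ((sumEquiv B C h).restrictScalars F).surjective w
  rw [LinearEquiv.conj_apply_apply, LinearEquiv.symm_apply_apply]
  apply Subtype.ext
  rw [LinearMap.prodMap_apply, chisup_restrict_apply, xEnd_apply, xEnd_apply, xEnd_apply,
    Submodule.coe_smul, Submodule.coe_smul, Submodule.coe_smul, chisup_restrict_apply, smul_add]

/-- piece CHISUP (6) -/
theorem dimS_sup (B C : Submodule F[X] N) (h : Disjoint B C) : dimS (B ⊔ C) = dimS B + dimS C := by
  unfold dimS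
  rw [← ((sumEquiv B C h).restrictScalars F).finrank_eq, Module.finrank_prod]

end Modules

end Cfsg.Agent.Lib.Helper48.SV
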