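import Mathlib
import Cfsg.Agent.Lib.Helper48.SVA
import Cfsg.Agent.Lib.Helper40.SVCHISUP

/-!
# S2425 (helper48 project SV), piece SIMPLE (helper40)

Simple `F[X]`-submodules of a finite `F[X]`-module: the characteristic polynomial is irreducible
and determines the isomorphism class; homomorphisms between two of them.
-/

set_option autoImplicit false

namespace Cfsg.Agent.Lib.Helper48.SV

open Cfsg
open scoped MatrixGroups Polynomial

section Modules

variable {F : Type*} [Field F] [Finite F]
variable {N : Type*} [AddCommGroup N] [Module F[X] N] [Module F N] [IsScalarTower F F[X] N] [Finite N]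

omit [Finite F] [Finite N] in
theorem simple_xEnd_pow (W : Submodule F[X] N) (n : ℕ) (w : W) :
    (xEnd W ^ n) w = (Polynomial.X ^ n : F[X]) • w := by
  induction n generalizing w with
  | zero => simp
  | succ n ih =>
    rw [pow_succ, Module.End.mul_apply, ih, xEnd_apply, smul_smul, pow_succ (Polynomial.X : F[X])]

omit [Finite F] [Finite N] in
/-- `aeval (xEnd W) p` is multiplication by `p`. -/
theorem simple_aeval_xEnd (W : Submodule F[X] N) (p : F[X]) (w : W) :
    Polynomial.aeval (xEnd W) p w = p • w := by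
  induction p using Polynomial.induction_on' with
  | add p q hp hq => rw [map_add, LinearMap.add_apply, hp, hq, add_smul]
  | monomial n a =>
    rw [Polynomial.aeval_monomial, Module.End.mul_apply, simple_xEnd_pow,
      Module.algebraMap_end_apply, ← Polynomial.C_mul_X_pow_eq_monomial,
      ← Polynomial.smul_eq_C_mul, smul_assoc]

/-- a simple submodule is `F[X] / (chi)`, and `chi` is irreducible -/
theorem simple_quot (A : Submodule F[X] N) (hA : IsAtom A) :
    Irreducible (chi A) ∧ Nonempty (↥A ≃ₗ[F[X]] (F[X] ⧸ Ideal.span {chi A})) := by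
  haveI : IsSimpleModule F[X] A := isSimpleModule_iff_isAtom.mpr hA
  obtain ⟨I, hI, ⟨e⟩⟩ := isSimpleModule_iff_quot_maximal.mp (inferInstance : IsSimpleModule F[X] A)
  have hchi0 : chi A ≠ 0 := (chi_monic A).ne_zero
  have hmem : chi A ∈ I := by
    have h1 : chi A • (e.symm (1 : F[X] ⧸ I)) = 0 := by
      rw [← simple_aeval_xEnd]
      have h0 := LinearMap.aeval_self_charpoly (xEnd A)
      unfold chi
      rw [h0]
      rfl
    have h2 := congrArg e h1
    rw [map_smul, LinearEquiv.apply_symm_apply, map_zero] at h2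
    have h3 : chi A • (1 : F[X] ⧸ I) = Ideal.Quotient.mk I (chi A) := by
      have h4 : (1 : F[X] ⧸ I) = Ideal.Quotient.mk I 1 := rfl
      rw [h4]
      exact (Submodule.Quotient.mk_smul I (chi A) (1 : F[X])).symm.trans
        (by rw [smul_eq_mul, mul_one]; rfl)
    rw [h3] at h2
    exact Ideal.Quotient.eq_zero_iff_mem.mp h2
  obtain ⟨g, hg⟩ : ∃ g, I = Ideal.span {g} := ⟨_, (Ideal.span_singleton_generator I).symm⟩
  subst hg
  have hdvd : g ∣ chi A := Ideal.mem_span_singleton.mp hmem
  have hdeg : (chi A).natDegree = g.natDegree := by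
    rw [chi_natDegree]
    unfold dimS
    rw [(e.restrictScalars F).finrank_eq, finrank_quotient_span_eq_natDegree]
  have hassoc : Associated g (chi A) :=
    Polynomial.associated_of_dvd_of_natDegree_le hdvd hchi0 hdeg.le
  have hIeq : Ideal.span {g} = Ideal.span {chi A} :=
    Ideal.span_singleton_eq_span_singleton.mpr hassoc
  have hg0 : g ≠ 0 := fun h => hchi0 (by rw [h] at hdvd; exact zero_dvd_iff.mp hdvd)
  have hprime : Prime g := (Ideal.span_singleton_prime hg0).mp hI.isPrime
  refine ⟨hassoc.irreducible hprime.irreducible, ?_⟩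
  rw [← hIeq]
  exact ⟨e⟩

omit [Finite F] in
theorem simple_chi_eq_of_equiv (A B : Submodule F[X] N) (e : ↥B ≃ₗ[F[X]] ↥A) : chi B = chi A := by
  unfold chi
  rw [← LinearEquiv.charpoly_conj (e.restrictScalars F)]
  congr 1
  apply LinearMap.ext
  intro a
  rw [LinearEquiv.conj_apply_apply, xEnd_apply, xEnd_apply]
  show e (Polynomial.X • e.symm a) = Polynomial.X • a
  rw [map_smul, LinearEquiv.apply_symm_apply]

/-- piece SIMPLE (1) -/
theorem chi_irreducible (A : Submodule F[X] N) (hA : IsAtom A) : Irreducible (chi A) :=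
  (simple_quot A hA).1

/-- piece SIMPLE (2) -/
theorem card_hom_of_chi_eq (A B : Submodule F[X] N) (hA : IsAtom A) (hB : IsAtom B)
    (h : chi B = chi A) : Nat.card (↥B →ₗ[F[X]] ↥A) = Nat.card F ^ (chi A).natDegree := by
  haveI : IsSimpleModule F[X] A := isSimpleModule_iff_isAtom.mpr hA
  haveI : IsSimpleModule F[X] B := isSimpleModule_iff_isAtom.mpr hB
  obtain ⟨-, ⟨eA⟩⟩ := simple_quot A hA
  obtain ⟨-, ⟨eB⟩⟩ := simple_quot B hB
  rw [h] at eB
  let e : ↥B ≃ₗ[F[X]] ↥A := eB.trans eA.symm
  haveI : Nontrivial ↥B := IsSimpleModule.nontrivial F[X] ↥B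
  obtain ⟨b, hb⟩ : ∃ b : ↥B, b ≠ 0 := exists_ne 0
  have hinj : Function.Injective (fun f : ↥B →ₗ[F[X]] ↥A => f b) := by
    intro f f' hff
    apply LinearMap.ext
    intro x
    obtain ⟨r, rfl⟩ := IsSimpleModule.toSpanSingleton_surjective F[X] hb x
    simp only [LinearMap.toSpanSingleton_apply, map_smul]
    exact congrArg (r • ·) hff
  have hsurj : Function.Surjective (fun f : ↥B →ₗ[F[X]] ↥A => f b) := by
    intro a
    have heb : e b ≠ 0 := fun h0 => hb (e.map_eq_zero_iff.mp h0)
    obtain ⟨r, hr⟩ := IsSimpleModule.toSpanSingleton_surjective F[X] heb a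
    refine ⟨r • e.toLinearMap, ?_⟩
    simpa using hr
  rw [Nat.card_congr (Equiv.ofBijective _ ⟨hinj, hsurj⟩),
    Module.natCard_eq_pow_finrank (K := F) (V := ↥A), chi_natDegree]
  rfl

/-- piece SIMPLE (3) -/
theorem card_hom_of_chi_ne (A B : Submodule F[X] N) (hA : IsAtom A) (hB : IsAtom B)
    (h : chi B ≠ chi A) : Nat.card (↥B →ₗ[F[X]] ↥A) = 1 := by
  haveI : IsSimpleModule F[X] A := isSimpleModule_iff_isAtom.mpr hA
  haveI : IsSimpleModule F[X] B := isSimpleModule_iff_isAtom.mpr hB
  have hall : ∀ f : ↥B →ₗ[F[X]] ↥A, f = 0 := by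
    intro f
    rcases LinearMap.bijective_or_eq_zero f with hf | hf
    · exfalso
      exact h (simple_chi_eq_of_equiv A B (LinearEquiv.ofBijective f hf))
    · exact hf
  haveI : Subsingleton (↥B →ₗ[F[X]] ↥A) := ⟨fun f g => by rw [hall f, hall g]⟩
  exact Nat.card_of_subsingleton (0 : ↥B →ₗ[F[X]] ↥A)

end Modules

end Cfsg.Agent.Lib.Helper48.SV
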